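import Cfsg.Agent.H4.E7
import Cfsg.Agent.H7.Sp1

/-! The real case: data preserving a bilinear form; the four-dimensional symplectic group. -/

set_option autoImplicit false
set_option linter.unusedSectionVars false
set_option linter.unusedSimpArgs false

namespace Cfsg.Agent.H4.E

open Module Cfsg.Agent.Form Cfsg.Agent.H7
open scoped Matrix MatrixGroups

universe u

section real
variable {W : Type*} [AddCommGroup W] [Module (ZMod 2) W] {F V : Type*} [Field F] [AddCommGroup V] [Module F V]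

/-- isometries of a bilinear form -/
def Iso (B : V →ₗ[F] V →ₗ[F] F) (g : End F V) : Prop := ∀ x y, B (g x) (g y) = B x y

/-- the real hypotheses -/
structure RH (B : V →ₗ[F] V →ₗ[F] F) (D : ES F (End F V) W) (M : Gp F (End F V)) : Prop where
  nd : ∀ x, (∀ y, B x y = 0) → x = 0
  hη : ∀ u, Iso B (D.η u)
  iso : ∀ g, M.mem g → ∃ c : F, c ≠ 0 ∧ ∀ x y, B (g x) (g y) = c * c * B x y

variable {B : V →ₗ[F] V →ₗ[F] F} {D : ES F (End F V) W} {M : Gp F (End F V)}

theorem Iso.mul {g k : End F V} (h : Iso B g) (h' : Iso B k) : Iso B (g * k) := fun x y => (h _ _).trans (h' x y)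

theorem sq_one_of (D : ES F (End F V) W) (nd : ∀ x, (∀ y, B x y = 0) → x = 0) {g a b : End F V} {c d : F} (d0 : d ≠ 0)
    (hg : ∀ x y, B (g x) (g y) = d * B x y) (ha : Iso B a) (hb : Iso B b) (e : g * a = c • (b * g)) : c * c = 1 := by
  by_contra hc
  refine D.nt (LinearMap.ext fun x => nd x fun y => ?_)
  have := congrArg₂ (fun x y => B x y) (LinearMap.congr_fun e x) (LinearMap.congr_fun e y)
  simp only [End.mul_apply, LinearMap.smul_apply, map_smul, smul_eq_mul, hg, ha x y, hb (g x)] at this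
  exact (mul_eq_zero.1 (show d * (c * c - 1) * B x y = 0 by linear_combination -this)).resolve_left
    (mul_ne_zero d0 (sub_ne_zero.2 hc))

theorem qadd_of (nd : ∀ x, (∀ y, B x y = 0) → x = 0) (hη : ∀ u, Iso B (D.η u)) (u v : W) :
    D.q (u + v) = D.q u + D.q v + D.f u v := by
  obtain ⟨c, -, e⟩ := D.mul u v
  have h1 := sq_one_of D nd (g := 1) one_ne_zero (by simp) ((hη u).mul (hη v)) (hη (u + v)) (by simpa using e)
  have h2 : D.η u * D.η v * (D.η u * D.η v) = _ := congrArg₂ (· * ·) e e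
  rw [mul_assoc, ← mul_assoc (D.η v), D.comm v] at h2
  simp only [smul_mul_assoc, mul_smul_comm, mul_assoc, D.sq, ← mul_assoc (D.η u) (D.η u), smul_smul, mul_one,
    one_mul] at h2
  refine sg_inj D.two ?_
  rw [sg_add, sg_add, D.symm u]
  linear_combination (-(sg F (D.q (u + v)))) * h1 - D.smul_inj h2

theorem RH.qadd (h : RH B D M) (u v : W) : D.q (u + v) = D.q u + D.q v + D.f u v := qadd_of h.nd h.hη u v

theorem RH.sq_one (h : RH B D M) {g : End F V} (hg : M.mem g) {u v : W} {c : F} (e : g * D.η u = c • (D.η v * g)) :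
    c * c = 1 := by
  obtain ⟨d, d0, hd⟩ := h.iso g hg
  exact sq_one_of D h.nd (mul_ne_zero d0 d0) hd (h.hη u) (h.hη v) e

theorem RH.hq (h : RH B D M) : D.Hq M := fun g u v hg ⟨c, e⟩ hu => by
  have := ES.cj_sq (Gp.isUnit hg) e
  rw [h.sq_one hg e, one_mul, hu] at this
  exact (sg_inj D.two this).symm

theorem Iso.half (h2 : (2 : F) ≠ 0) {Y Z : End F V} (hY : Y * Y = -1) (hZ : Z * Z = -1)
    (h : Iso B Y) (h' : Iso B Z) : Iso B ((2 : F)⁻¹ • ((1 + Y) * (1 + Z))) := fun a b => by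
  have : ∀ {Y : End F V}, Y * Y = -1 → Iso B Y → ∀ a b, B ((1 + Y) a) ((1 + Y) b) = 2 * B a b := fun {Y} hY h a b => by
    have : Y (Y a) = -a := LinearMap.congr_fun hY a
    simp [h a b, ← h (Y a) b, this]; ring
  simp only [LinearMap.smul_apply, End.mul_apply, map_smul, smul_eq_mul, this hY h, this hZ h']
  field_simp

theorem Iso.sg {g : End F V} (h : Iso B g) (ε : ZMod 2) : Iso B (sg F ε • g) := fun x y => by
  simp [h x y, ← mul_assoc]

theorem rh_ofSub (nd : ∀ x, (∀ y, B x y = 0) → x = 0) (hη : ∀ u, Iso B (D.η u)) {Y : Subgroup (V ≃ₗ[F] V)}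
    (h : ∀ g ∈ Y, Iso B (g : V →ₗ[F] V)) : RH B D (Gp.ofSub Y) :=
  ⟨nd, hη, by rintro _ ⟨g, hg, c, c0, rfl⟩; exact ⟨c, c0, fun x y => by simp [← h g hg x y, mul_assoc]⟩⟩

/-- the bilinear form of a symplectic space -/
def sB (S : PQ (FP.symp F) V) : V →ₗ[F] V →ₗ[F] F := LinearMap.mk₂ F S.B (by simp) (by simp) (by simp) (by simp)

@[simp] theorem sB_apply (S : PQ (FP.symp F) V) (x y : V) : sB S x y = S.B x y := rfl

/-- `M` contains all symplectic transvections -/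
def BigS (S : PQ (FP.symp F) V) (M : Gp F (End F V)) : Prop := ∀ d (c : F), M.mem (1 + (S.lin d).smulRight (c • d))

end real

section geo
variable {ι : Type} [Fintype ι] [DecidableEq ι] {F : Type u} [Field F] [Finite F] {R : Subgroup (GL ι F)}

theorem geo_real (hR : Geo.IsSymplecticTypeGroup 2 R) (hirr : Geo.ActsAbsolutelyIrreducibly (Geo.matrixSet R))
    (h2 : (2 : F) ≠ 0) (h4 : 2 ≤ Fintype.card ι) {B : (ι → F) →ₗ[F] (ι → F) →ₗ[F] F}
    (nd : ∀ x, (∀ y, B x y = 0) → x = 0) (hRD : ∀ r, Iso B (rep R r)) :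
    ∃ (W : Type u) (_ : AddCommGroup W) (_ : Module (ZMod 2) W) (_ : Finite W) (D : ES F (End F (ι → F)) W)
      (π : R →* Multiplicative W), From (rep R) D π ∧ Nat.card W = Fintype.card ι ^ 2 ∧ (∀ u, Iso B (D.η u)) ∧
      ∀ g, Iso B (toLE g : (ι → F) →ₗ[F] (ι → F)) →
        (g ∈ Geo.subgroupNormalizer R ↔ D.Nrm (toLE g : (ι → F) →ₗ[F] (ι → F))) := by
  have : Nonempty ι := Fintype.card_pos_iff.1 (by omega)
  obtain ⟨W, _, _, _, D, π, h, -⟩ := geo_datum hR hirr h2 (fun _ => True) fun r => ⟨1, by simp⟩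
  have hW : Nat.card W = Fintype.card ι ^ 2 := by rw [← D.finrank_sq, finrank_fintype_fun_eq_card]
  refine ⟨W, _, _, ‹_›, D, π, h, hW, fun u => ?_, fun g hg => h.mem_normalizer fun r s c e => ?_⟩
  · obtain ⟨r, e⟩ := h.hη u
    exact e ▸ hRD r
  rcases mul_self_eq_one_iff.1 (sq_one_of D nd one_ne_zero (fun x y => by rw [one_mul]; exact hg x y) (hRD r) (hRD s) e) with rfl | rfl
  · exact ⟨1, by simp⟩
  · have : Nontrivial W := Finite.one_lt_card_iff_nontrivial.1 (by nlinarith)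
    obtain ⟨u, hu⟩ := exists_ne (0 : W)
    obtain ⟨v, hv⟩ := D.nd u hu
    obtain ⟨a, ha⟩ := h.hη u
    obtain ⟨b, hb⟩ := h.hη v
    refine ⟨b * a * (a * b)⁻¹, ?_⟩
    have : rep R (a * b) * rep R (a * b)⁻¹ = 1 := by rw [← map_mul, mul_inv_cancel, map_one]
    rw [map_mul, map_mul, ← ha, ← hb, D.comm1 hv, ha, hb, ← map_mul]
    exact LinearMap.ext fun x => by simpa using LinearMap.congr_fun this x

theorem geo_Sp' {m : ℕ} (hm : 2 ≤ m) {R : Subgroup (GL (Fin m ⊕ Fin m) F)} (hR : Geo.IsSymplecticTypeGroup 2 R)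
    (hirr : Geo.ActsAbsolutelyIrreducibly (Geo.matrixSet R)) (h2 : (2 : F) ≠ 0) (hRD : R ≤ spGL m F)
    (main : ∀ (W : Type u) [AddCommGroup W] [Module (ZMod 2) W] [Finite W] (D : ES F (End F (Fin m ⊕ Fin m → F)) W)
      (π : R →* Multiplicative W), From (rep R) D π → Nat.card W = (2 * m) ^ 2 → ∀ M, D.Over M →
      RH (sB (spS m F)) D M → (∀ g, M.mem g → D.Nrm g) ∨ BigS (spS m F) M) :
    Geo.IsMaximalIn (spGL m F) (Geo.subgroupNormalizer R ⊓ spGL m F) := by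
  obtain ⟨W, _, _, _, D, π, h, hW, hη, hN⟩ := geo_real hR hirr h2 (by simp; omega) (B := sB (spS m F))
    (spS_nondeg m) fun r => PQ.B_isom ((mem_spGL_iff m _).1 (hRD r.2))
  refine sp_max _ (fun g => D.Nrm g) (fun g hg => hN g (PQ.B_isom ((mem_spGL_iff m _).1 hg)))
    (Sp_not_le_subgroupNormalizer hm hR.prime hR.pGroup hirr) fun M h1 h3 ⟨g, g1, g2⟩ v => ctr_iff.2 fun c => ?_
  refine mem_of_ofSub h1 h3 (tv_mem v c) ?_
  convert (main W D π h (by simp [hW, two_mul]) (Gp.ofSub M) ⟨fun u => ?_, fun y z hy hz => ?_⟩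
    (rh_ofSub (B := sB (spS m F)) (spS_nondeg m) hη fun g hg => PQ.B_isom (h1 hg))).resolve_left
      (fun h => g2 (h _ (Gp.mem_ofSub g1))) v c using 1
  · exact LinearMap.ext fun x => by simp [smul_smul, mul_comm]
  · obtain ⟨r, e⟩ := h.hη u
    exact e ▸ Gp.mem_ofSub (h3 _ ((mem_spGL_iff m _).1 (hRD r.2)) fun v => ⟨v, (e ▸ ES.cj_η u v : D.Cj (rep R r) v v)⟩)
  · simpa using over_of (ε := 0) (ε' := 0) h3 hy hz fun g hg => (PQ.symp_mem_isom _ g).2 fun a b =>
      (hg ▸ Iso.half D.two (sg_sq hy 0) (sg_sq hz 0) ((hη y).sg 0) ((hη z).sg 0) : Iso _ (g : _ →ₗ[F] _)) a b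

/-- class C6 in `Sp_4` -/
theorem geo_Sp4 {F : Type u} [Field F] [Fintype F] {p : ℕ} (hp : p.Prime) (hodd : Odd (Fintype.card F))
    (hF : Fintype.card F = p) {R : Subgroup (GL (Fin 2 ⊕ Fin 2) F)} (hR : Geo.IsSymplecticTypeGroup 2 R)
    (hirr : Geo.ActsAbsolutelyIrreducibly (Geo.matrixSet R)) (hRD : R ≤ spGL 2 F) :
    Geo.IsMaximalIn (spGL 2 F) (Geo.subgroupNormalizer R ⊓ spGL 2 F) :=
  geo_Sp' le_rfl hR hirr (two_ne_zero_of_odd hodd) hRD fun _ _ _ _ D _ _ hW _ h1 h2 =>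
    H8.C6.base_symp (by simpa [hF]) (spS_nondeg 2) (finrank_spS 2) D hW h2.hη h1 fun g hg =>
      let ⟨c, c0, e⟩ := h2.iso g hg; ⟨_, mul_ne_zero c0 c0, e⟩

end geo

end Cfsg.Agent.H4.E
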