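import Cfsg.Agent.H4.HC1

/-!
Groups with a homocyclic Sylow subgroup of order sixteen: the numerical data.
-/

set_option autoImplicit false
set_option synthInstance.maxSize 100000
set_option linter.unusedSectionVars false

namespace Cfsg.Agent.H4.HC

open Subgroup Cfsg.Agent.MH Cfsg.Agent.H1.Mit Cfsg.Agent.H1.N1

variable {T : Type*} [Group T] [Finite T]

open MulAction CAG ZKer in
theorem elem [IsSimpleGroup T] (hG : ¬ IsMulCommutative T) {A : Subgroup T} (h : H5.Zas1.CA A) {t : T} (ht : t ∈ A) (t1 : t ≠ 1)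
    (t2 : t * t = 1) : ∀ u ∈ A, u * u = 1 := by
  obtain ⟨ω, hω⟩ := exists_ne_pt hG h ht t1 t2
  let Z : ZK T (T ⧸ CAG.Nm A) :=
    { zt := zt hG h ht t1 t2
      a := ((1 : T) : T ⧸ CAG.Nm A)
      b := ω
      hab := hω.symm
      F := A
      le := fun u hu => fix_iff.2 (le_normalizer hu)
      norm := fun y hy u hu => CAG.conj_mem (fix_iff.1 hy) hu
      ex := fun y hy => trans_A hG h ht t1 t2 hω hy
      uniq := fun u hu e => free h hu hω e }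
  have : IsMulCommutative Z.F := ⟨⟨fun x y => Subtype.ext (h.comm x.2 y.2)⟩⟩
  obtain ⟨x, hx, e, hxA⟩ := exists_fix hG h ht t1 t2 hω
  exact (ZMS.elementary_of_even Z (H5.Odd.even_card_of_involution (X := A) ht t1 t2)
    fun e' => hxA (mem_bot.1 (e' ▸ show x ∈ Z.H from ⟨fix_iff.2 hx, e⟩) ▸ A.one_mem)).1

/-- the type of an element of the centraliser -/
def R (x y a : T) (p : A4) : Prop := ∃ o ∈ Cn (x * x), Od o ∧ a = o * e x y p

variable {x y a b o : T} {p q : A4} {S : Sylow 2 T} {Ro : T → Prop} {p0 : ℕ} (H : HCT S x y)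

theorem R.zero (h : o ∈ Cn (x * x)) (h' : Od o) : R x y o 0 := ⟨o, h, h', by simp [e0]⟩

theorem R.e (p : A4) : R x y (e x y p) p := ⟨1, one_mem _, .one, (one_mul _).symm⟩

include H

theorem sC (ha : a ∈ S) : a ∈ Cn (x * x) := mem_Cn.2 (comm H (mul_mem (xS H) (xS H)) ha)

theorem R.mem : R x y a p → a ∈ Cn (x * x)
  | ⟨_, h1, _, h3⟩ => h3 ▸ mul_mem h1 (sC H (e_mem H p))

theorem exists_R (ha : a ∈ Cn (x * x)) : ∃ p, R x y a p :=
  let ⟨_, h1, h2, _, h4, _⟩ := core H; let ⟨o, ho, p, e⟩ := h4 a ha; ⟨p, o, h1 ho, .of_mem h2 ho, e⟩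

variable (g : LG Ro p0)
include g

theorem cC (ha : a ∈ Cn (x * x)) (ho : o ∈ Cn (x * x)) : a * o * a⁻¹ ∈ Cn (x * x) := mul_mem (mul_mem ha ho) (inv_mem ha)

theorem R.mul : R x y a p → R x y b q → R x y (a * b) (p + q)
  | ⟨o, h1, h2, h3⟩, ⟨o', h4, h5, h6⟩ => by
    have h7 := cC H g (sC H (e_mem H p)) h4
    exact ⟨_, mul_mem h1 h7, h2.mul (h5.conj _) (oc H g h1 h7 h2 (h5.conj _)), by rw [h3, h6, e_add H]; group⟩

theorem R.uniq : R x y a p → R x y a q → p = q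
  | ⟨o, h1, h2, h3⟩, ⟨o', h4, h5, h6⟩ => by
    have h7 : o⁻¹ * o' = HC.e x y p * (HC.e x y q)⁻¹ := by rw [inv_mul_eq_iff_eq_mul, ← mul_assoc, ← h3, h6, mul_inv_cancel_right]
    exact e_inj H (mul_inv_eq_one.1 (h7 ▸ (h2.inv.mul h5 (oc H g (inv_mem h1) h4 h2.inv h5)).eq_one' (k := 2)
      (h7 ▸ four H (mul_mem (e_mem H p) (inv_mem (e_mem H q))))))

theorem R.pow (h : R x y a p) (n : ℕ) : R x y (a ^ n) (n • p) := by
  induction n with
  | zero => simpa using R.zero (one_mem _) .one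
  | succ n ih => rw [pow_succ, succ_nsmul]; exact ih.mul H g h

theorem winv (ho : o ∈ Cn (x * x)) (oo : Od o) : y * y * o * (y * y)⁻¹ = o⁻¹ := by
  have hw := mul_mem (yS H) (yS H)
  have h1 := cC H g (sC H hw) ho
  have h2 := oc H g ho h1 oo (oo.conj _)
  refine eq_inv_of_mul_eq_one_right (nf0 H g (oo.mul (oo.conj _) h2) (mul_mem ho h1) (mem_Cn_comm.1 (Cn_of_conj ?_)))
  have h3 : y * y * (y * y) = 1 := by rw [← H.y4]; simp [pow_succ, mul_assoc]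
  generalize y * y = w at *
  calc _ = w * o * w⁻¹ * (w * w * o * (w * w)⁻¹) := by group
    _ = _ := by rw [h3, h2]; group

theorem xx : (∀ o ∈ Cn (x * x), Od o → o ∈ Cn x) ∨ ∀ o ∈ Cn (x * x), Od o → o ∈ Cn (x * (y * y)) := by
  by_cases h : ∃ a ∈ Cn (x * x), Od a ∧ a ≠ 1 ∧ a ∈ Cn x
  · obtain ⟨a, h1, h2, h3, h4⟩ := h
    exact .inl fun o ho oo => H.ca x (.inl rfl) a o h2 h3 h4 (winv H g h1 h2) (mem_Cn.2 (oc H g h1 ho h2 oo))
      (mem_Cn.2 (oc H g (cC H g (sC H (yS H)) h1) ho (h2.conj _) oo))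
  push Not at h
  refine .inr fun o ho oo => mem_Cn_comm.1 (Cn_of_conj ?_)
  have h1 := cC H g (sC H (xS H)) ho
  have h2 := oc H g ho h1 oo (oo.conj _)
  have h3 : x * o * x⁻¹ = o⁻¹ := eq_inv_of_mul_eq_one_right (of_not_not fun k => h _ (mul_mem ho h1) (oo.mul (oo.conj _) h2) k
    (mem_Cn_comm.1 (Cn_of_conj (by
      calc _ = x * o * x⁻¹ * (x * x * o * (x * x)⁻¹) := by group
        _ = _ := by rw [conj_eq_of_Cn (mem_Cn_comm.1 ho), h2]))))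
  calc _ = x * (y * y * o * (y * y)⁻¹) * x⁻¹ := by group
    _ = _ := by rw [winv H g ho oo, ← conj_inv, h3, inv_inv]

theorem exists_odd : ∃ o ∈ Cn (x * x), Od o ∧ o ≠ 1 := by
  by_contra! h
  have := g.simple
  have h1 : Cn (x * x) = S := le_antisymm (fun a ha => by
    obtain ⟨p, o, h1, h2, rfl⟩ := exists_R H ha
    rw [h o h1 h2, one_mul]; exact e_mem H p) fun a => sC H
  refine (iz H).1 (elem (A := S) (fun k => ?_) (fun s hs s1 => le_antisymm (fun a ha => ?_) fun a ha => mem_Cn.2 (comm H hs ha))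
    (mul_mem (xS H) (xS H)) (iz H).1 (iz H).2 x (xS H))
  · exact (iz H).1 (fix_eq_one g.perf Nat.prime_two S (fun a ha b hb => comm H ha hb) (mul_mem (xS H) (xS H)) fun n _ => by
      rw [k.1.1 n, mul_inv_cancel_right])
  obtain ⟨k, hk⟩ := (od_or s).resolve_left fun o => s1 (o.eq_one' (k := 2) (four H hs))
  obtain ⟨n, hn, e⟩ := tr H g (pow_mem hs k) (mul_mem (xS H) (xS H)) hk (iz H)
  simpa [mul_assoc] using Nm_conj' hn (show n * a * n⁻¹ ∈ (S : Subgroup T) from h1 ▸ e ▸ conj_mem_Cn.2 (pow_mem_Cn ha k))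

variable (hx : ∀ o ∈ Cn (x * x), Od o → o ∈ Cn x)
include hx

theorem R.cen (h : R x y a p) (hp : p.2 = 0) (ho : o ∈ Cn (x * x)) (oo : Od o) : a ∈ Cn o := by
  obtain ⟨o', h1, h2, rfl⟩ := h
  exact mul_mem (mem_Cn.2 (oc H g ho h1 oo h2)) (by simpa [HC.e, hp] using pow_mem (mem_Cn_comm.1 (hx o ho oo)) _)

theorem R.inv (h : R x y a p) (hp : p.2 = 2) (ho : o ∈ Cn (x * x)) (oo : Od o) : a * o * a⁻¹ = o⁻¹ := by
  obtain ⟨o', h1, h2, rfl⟩ := h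
  have h3 := R.cen H g hx (p := (p.1, 0)) ⟨o', h1, h2, rfl⟩ rfl (inv_mem ho) oo.inv
  rw [show p = (p.1, 0) + (0, 2) by simp [← hp], e_add H, ew, ← conj_eq_of_Cn h3, ← winv H g ho oo]
  group

theorem R.sq (h : R x y a p) (hp : p.2 = 2) : a * a = HC.e x y (p + p) := by
  obtain ⟨o, h1, h2, rfl⟩ := h
  calc _ = o * (HC.e x y p * o * (HC.e x y p)⁻¹) * (HC.e x y p * HC.e x y p) := by group
    _ = _ := by rw [(R.e p).inv H g hx hp h1 h2, e_add H]; group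

theorem R.inv_iff (h : R x y a p) : MH.Inv a ↔ a = x * x ∨ p ∈ ({(0, 2), (2, 2)} : Finset A4) := by
  refine ⟨fun i => ?_, ?_⟩
  · have h1 := (h.mul H g h).uniq H g (i.2 ▸ R.zero (one_mem _) .one)
    obtain ⟨o, h2, h3, rfl⟩ := h
    rcases (by decide : ∀ p : A4, p + p = 0 → p = 0 ∨ p = (2, 0) ∨ p ∈ ({(0, 2), (2, 2)} : Finset A4)) p h1 with rfl | rfl | k
    · rw [e0, mul_one] at i
      exact absurd (h3.eq_one i.2) i.1
    · rw [ez] at i ⊢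
      rw [h3.eq_one (by rw [← i.2, mul_assoc, ← mul_assoc (x * x), mem_Cn.1 h2, mul_assoc o, (iz H).2, mul_one]), one_mul]
      exact .inl rfl
    · exact .inr k
  · rintro (rfl | k)
    · exact iz H
    obtain ⟨h1, h2, h3⟩ := (by decide : ∀ p ∈ ({(0, 2), (2, 2)} : Finset A4), p ≠ 0 ∧ p.2 = 2 ∧ p + p = 0) p k
    exact ⟨fun k => h1 (h.uniq H g (k ▸ R.zero (one_mem _) .one)), by rw [h.sq H g hx h2, h3, e0]⟩

theorem nf : NF T := fun u v iu iv ne c d od h1 h2 => by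
  obtain ⟨n, hn⟩ := cls H g u iu
  obtain ⟨p, hp⟩ := exists_R H (hn ▸ conj_mem_Cn.2 (mem_Cn.2 c) : n * v * n⁻¹ ∈ Cn (x * x))
  have h3 := hp.inv H g hx ((by decide : ∀ p ∈ ({(0, 2), (2, 2)} : Finset A4), p.2 = 2) p (((hp.inv_iff H g hx).1 (iv.conj n)).resolve_left
    fun k => ne (by simpa using hn.trans k.symm))) (hn ▸ conj_mem_Cn.2 h1) (od.conj n)
  rw [conj_eq_of_Cn (conj_mem_Cn.2 (mem_Cn_comm.1 h2))] at h3
  simpa using (od.conj n).eq_one (mul_eq_one_iff_eq_inv.2 h3)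

theorem uz (ho : o ∈ Cn (x * x)) (oo : Od o) (o1 : o ≠ 1) {s : T} (hs : MH.Inv s) (so : s ∈ Cn o) : s = x * x := by
  have N : ∀ u ∈ Cn o, ∀ v ∈ Cn o, MH.Inv u → MH.Inv v → u * v = v * u → u = v := fun u hu v hv iu iv c => of_not_not fun k =>
    o1 (nf H g hx u v iu iv k c o oo (mem_Cn_comm.1 hu) (mem_Cn_comm.1 hv))
  have t0 : ∀ o ∈ Cn (x * x), Od o → o ≠ 1 → ∀ a p, R x y a p → a ∈ Cn o → p.2 = 0 := fun o ho oo o1 a p h ha => by
    have : ∀ a p, R x y a p → a ∈ Cn o → p.2 ≠ 2 := fun a p h ha k =>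
      o1 (oo.eq_one (mul_eq_one_iff_eq_inv.2 ((conj_eq_of_Cn ha).symm.trans (h.inv H g hx k ho oo))))
    exact (by decide : ∀ p : A4, p.2 ≠ 2 → (p + p).2 ≠ 2 → p.2 = 0) p (this a p h ha) (this _ _ (h.mul H g h) (mul_mem ha ha))
  obtain ⟨Q, h1, h2, h3⟩ := exists_compl (Cn o) N fun u hu iu a ha b hb c1 c2 => by
    obtain ⟨n, hn⟩ := cls H g u iu
    have k := t0 _ (hn ▸ conj_mem_Cn.2 (mem_Cn_comm.1 hu)) (oo.conj n) (by simpa)
    obtain ⟨p, hp⟩ := exists_R H (hn ▸ conj_mem_Cn.2 c1 : n * a * n⁻¹ ∈ Cn (x * x))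
    obtain ⟨q, o', k1, k2, k3⟩ := exists_R H (hn ▸ conj_mem_Cn.2 c2 : n * b * n⁻¹ ∈ Cn (x * x))
    have k4 := k _ _ hp (conj_mem_Cn.2 ha)
    have k5 := k _ _ ⟨o', k1, k2, k3⟩ (conj_mem_Cn.2 hb)
    refine mem_Cn.1 ((conj_mem_Cn (g := n)).1 (k3 ▸ mul_mem (mem_Cn_comm.1 (hp.cen H g hx k4 k1 k2)) ?_))
    obtain ⟨o'', l1, l2, l3⟩ := hp
    exact l3 ▸ mem_Cn_comm.1 (mul_mem (mem_Cn_comm.1 ((R.e q).cen H g hx k5 l1 l2)) (mem_Cn.2 (comm H (e_mem H _) (e_mem H _))))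
  have zo := mem_Cn_comm.1 ho
  have sz := mul_mem so zo
  rcases od_or (s * (x * x)) with k | ⟨k, hk⟩
  · have k1 := cC H g (sC H (yS H)) ho
    have k2 := H.ca x (.inl rfl) o _ oo o1 (hx o ho oo) (winv H g ho oo) sz (mem_Cn.2 (g.oa o Q o1 h1 h2 _
      (h3 _ (mem_Cn.2 (oc H g ho k1 oo (oo.conj _))) (oo.conj _)) _ (h3 _ sz k)))
    have k3 := mem_Cn_comm.1 k2
    exact N _ so _ zo hs (iz H) (mem_Cn.1 ((mul_mem_cancel_right (self_mem_Cn _)).1 (mem_Cn_comm.1 (mul_mem k3 k3)))).symm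
  · have : ∀ v, v * (s * (x * x)) * v⁻¹ = (s * (x * x))⁻¹ → v ∈ Cn o → MH.Inv v → v = (s * (x * x)) ^ k := fun v h a b =>
      N _ a _ (pow_mem sz k) b hk (mul_inv_eq_iff_eq_mul.1 (by rw [← conj_pow, h, inv_pow, hk.inv_eq]))
    have z := iz H
    generalize x * x = z at *
    exact (this s (by simp [hs.inv_eq, z.inv_eq, ← mul_assoc, hs.2]) so hs).trans
      (this _ (by simp [hs.inv_eq, z.inv_eq, mul_assoc, z.2]) zo z).symm

theorem R.b1 (h : R x y a p) : a ∈ B1 (x * x) ↔ a ≠ 1 ∧ p ∈ ({0, (1, 0), (2, 0), (3, 0), (1, 2), (3, 2)} : Finset A4) := by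
  refine and_congr_right fun a1 => ⟨?_, fun hp => ⟨h.mem H, ?_⟩⟩
  · rintro ⟨h1, o | z⟩
    · simp [h.uniq H g (.zero h1 o)]
    obtain ⟨n, e⟩ := mem_powers_iff_mem_zpowers.2 z
    have := (h.pow H g n).uniq H g (p := n • p) ((show a ^ n = _ from e).trans (ez (y := y)).symm ▸ R.e _)
    rw [← Nat.div_add_mod n 4, add_nsmul, mul_nsmul, (by decide : ∀ p : A4, 4 • p = 0), nsmul_zero, zero_add] at this
    exact (by decide : ∀ n < 4, ∀ p : A4, n • p = (2, 0) → p ∈ ({0, (1, 0), (2, 0), (3, 0), (1, 2), (3, 2)} : Finset A4)) _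
      (Nat.mod_lt _ (by decide)) p this
  rcases (by decide : ∀ p ∈ ({0, (1, 0), (2, 0), (3, 0), (1, 2), (3, 2)} : Finset A4), p = 0 ∨ (p.2 = 2 ∧ p + p = (2, 0)) ∨
    p.2 = 0 ∧ ∃ n < 3, n • p = (2, 0)) p hp with rfl | ⟨k, k'⟩ | ⟨k, n, -, k'⟩
  · obtain ⟨o, -, h2, rfl⟩ := h
    exact .inl (by simpa [e0] using h2)
  · exact .inr (ez (y := y) ▸ k' ▸ h.sq H g hx k ▸ mul_mem (mem_zpowers a) (mem_zpowers a))
  obtain ⟨o, h1, h2, rfl⟩ := h
  have h3 : o ∈ zpowers (o * HC.e x y p) := h2.mem (k := 2) (by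
    have := pow_mem (mem_zpowers (o * HC.e x y p)) 4
    rwa [Commute.mul_pow (mem_Cn.1 ((R.e p).cen H g hx k h1 h2)), four H (e_mem H p), mul_one] at this)
  exact .inr (ez (y := y) ▸ k' ▸ e_smul H n p ▸ pow_mem ((mul_mem_cancel_left h3).1 (mem_zpowers _)) n)

theorem srs (h : R x y a p) (hb : a ∈ B1 (x * x)) {s : T} : MH.Inv s ∧ MH.Inv (s * a) ↔
    p ∈ ({0, (2, 0)} : Finset A4) ∧ ∃ q ∈ ({(0, 2), (2, 2)} : Finset A4), R x y s q := by
  have hp := ((h.b1 H g hx).1 hb).2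
  refine ⟨fun ⟨i1, i2⟩ => ?_, fun ⟨k, q, hq, r⟩ => ⟨(r.inv_iff H g hx).2 (.inr hq), ((r.mul H g h).inv_iff H g hx).2 (.inr ?_)⟩⟩
  swap
  · exact (by decide : ∀ p ∈ ({0, (2, 0)} : Finset A4), ∀ q ∈ ({(0, 2), (2, 2)} : Finset A4), q + p ∈ ({(0, 2), (2, 2)} : Finset A4))
      p k q hq
  have h1 : s * a * s⁻¹ = a⁻¹ := by rw [i1.inv_eq, eq_inv_iff_mul_eq_one, mul_assoc, i2.2]
  have h2 : s ∈ Cn (x * x) := Cn_of_conj (hb.2.2.elim (fun o => uz H g hx hb.2.1 o hb.1 ((iz H).conj s) (by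
    have := (conj_mem_Cn (g := s)).2 (mem_Cn_comm.1 (inv_mem hb.2.1))
    rwa [← conj_inv, h1, inv_inv] at this)) fun ⟨n, e⟩ => by
      refine Eq.trans ?_ (iz H).inv_eq
      rw [← (show a ^ n = _ from e), ← conj_zpow, h1, inv_zpow])
  obtain ⟨q, r⟩ := exists_R H h2
  have z : ∀ a q, R x y a q → a = x * x → q = (2, 0) := fun a q r e => r.uniq H g (e.trans (ez (y := y)).symm ▸ R.e _)
  have h3 := (r.inv_iff H g hx).1 i1
  have h4 := ((r.mul H g h).inv_iff H g hx).1 i2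
  have h5 := (by decide : ∀ p ∈ ({0, (1, 0), (2, 0), (3, 0), (1, 2), (3, 2)} : Finset A4), ∀ q : A4,
    (q = (2, 0) ∨ q ∈ ({(0, 2), (2, 2)} : Finset A4)) → (q + p = (2, 0) ∨ q + p ∈ ({(0, 2), (2, 2)} : Finset A4)) →
      (q ∉ ({(0, 2), (2, 2)} : Finset A4) ∧ q + p ∉ ({(0, 2), (2, 2)} : Finset A4)) ∨
        p ∈ ({0, (2, 0)} : Finset A4) ∧ q ∈ ({(0, 2), (2, 2)} : Finset A4)) p hp q (h3.imp_left (z _ _ r)) (h4.imp_left (z _ _ (r.mul H g h)))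
  exact h5.elim (fun k => absurd (mul_left_cancel ((h4.resolve_right k.2).trans ((h3.resolve_right k.1).symm.trans (mul_one s).symm))) hb.1)
    fun k => ⟨k.1, q, k.2, r⟩

theorem main : ∃ m, 3 ≤ m ∧ m % 2 = 1 ∧ Nat.card (Cn (x * x)) = 16 * m ∧ U1 (x * x) (6 * m - 1) (2 * m - 1) (2 * m) := by
  obtain ⟨O, h1, h2, h3, -, h5⟩ := core H
  have cnt : ∀ P : Finset A4, {a | ∃ p ∈ P, R x y a p}.ncard = P.card * Nat.card O := fun P => by
    rw [← mul_one (Set.ncard _), ← Set.ncard_coe_finset]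
    refine ncard_double (R x y) _ _ (fun a ⟨p, hp, h⟩ => Set.ncard_eq_one.2 ⟨p, Set.ext fun q => ⟨fun k => k.2.uniq H g h, ?_⟩⟩) fun p hp => ?_
    · rintro rfl; exact ⟨hp, h⟩
    rw [← ncard_coset O (e x y p)]
    refine congrArg _ (Set.ext fun a => ⟨?_, fun k => ?_⟩)
    · rintro ⟨-, o, k1, k2, rfl⟩
      simpa using h3 o k1 k2
    · have : R x y a p := ⟨_, h1 k, .of_mem h2 k, by simp⟩
      exact ⟨⟨p, hp, this⟩, this⟩
  have cnt' : ∀ P : Finset A4, 0 ∈ P → {a | a ≠ 1 ∧ ∃ p ∈ P, R x y a p}.ncard = P.card * Nat.card O - 1 := fun P hP => by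
    rw [← cnt, ← Set.ncard_sdiff_singleton_of_mem (a := 1) (s := {a | ∃ p ∈ P, R x y a p}) ⟨0, hP, .zero (one_mem _) .one⟩]
    exact congrArg _ (Set.ext fun a => and_comm)
  have hs : ∀ a p, R x y a p → a ∈ B1 (x * x) → sr a = if p ∈ ({0, (2, 0)} : Finset A4) then 2 * Nat.card O else 0 := fun a p h hb => by
    simp only [sr, srs H g hx h hb]
    split_ifs with k
    · simp only [k, true_and]; exact cnt {(0, 2), (2, 2)}
    · simp only [k, false_and, Set.ofPred_false, Set.ncard_empty]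
  obtain ⟨o, k1, k2, k3⟩ := exists_odd H g
  have h6 := two_le_card k3 (h3 o k1 k2)
  have h7 := Nat.odd_iff.1 h2
  refine ⟨_, by omega, h7, h5, iz H, cls H g, fun o ho oo o1 => nv_eq_one (iz H) (mem_Cn_comm.1 ho) fun s => uz H g hx ho oo o1,
    Eq.trans (congrArg _ (Set.ext fun a => ⟨fun k => ?_, ?_⟩)) (cnt' {0, (1, 0), (2, 0), (3, 0), (1, 2), (3, 2)} (by simp)),
    Eq.trans (congrArg _ (Set.ext fun a => ⟨fun k => ?_, ?_⟩)) (cnt' {0, (2, 0)} (by simp)), fun a ha k => ?_⟩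
  · obtain ⟨p, hp⟩ := exists_R H k.2.1
    exact ⟨k.1, p, ((hp.b1 H g hx).1 k).2, hp⟩
  · exact fun ⟨a1, p, hp, h⟩ => (h.b1 H g hx).2 ⟨a1, hp⟩
  · obtain ⟨p, hp⟩ := exists_R H k.1.2.1
    exact ⟨k.1.1, p, of_not_not fun n => k.2 (by rw [hs a p hp k.1, if_neg n]), hp⟩
  · rintro ⟨a1, p, hp, h⟩
    have := (h.b1 H g hx).2 ⟨a1, (by decide : ({0, (2, 0)} : Finset A4) ⊆ {0, (1, 0), (2, 0), (3, 0), (1, 2), (3, 2)}) hp⟩
    exact ⟨this, by rw [hs a p h this, if_pos hp]; omega⟩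
  · obtain ⟨p, hp⟩ := exists_R H ha.2.1
    rw [hs a p hp ha] at k ⊢
    exact if_pos (of_not_not fun n => k (if_neg n))

omit H hx in
theorem hc_u1 (H : HCT S x y) :
    ∃ m, 3 ≤ m ∧ m % 2 = 1 ∧ Nat.card (Cn (x * x)) = 16 * m ∧ U1 (x * x) (6 * m - 1) (2 * m - 1) (2 * m) :=
  (xx H g).elim (main H g) fun h => (swap H).2 ▸ main (swap H).1 g ((swap H).2.symm ▸ h)

end Cfsg.Agent.H4.HC
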