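import Cfsg.Agent.H1.N1r

/-! The class equations for the extensions by `S₄`. -/

set_option autoImplicit false

namespace Cfsg.Agent.H4.Ar

open Finset Cfsg.Agent.H1.N1

/-- density of one class -/
def tm (e n : ℕ) : ℚ := (e : ℚ)⁻¹ - (n : ℚ)⁻¹ * (e : ℚ)⁻¹

/-- a small class, or a dummy -/
def Sm (P : ℕ → Prop) (e a : ℕ) : Prop := P a ∧ a % 2 = 1 ∧ (e = 2 ∨ e = 3 ∧ a % 3 = 1 ∨ e = 4 ∧ a % 4 = 1)

theorem tm_eq {e n : ℕ} (he : 0 < e) (hn : 0 < n) : tm e n = (n - 1) / (e * n) := by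
  unfold tm; field_simp

theorem Sm.le {P : ℕ → Prop} {e a : ℕ} (h : Sm P e a) (ha : 1 < a) : 1 / 5 ≤ tm e a := by
  obtain ⟨-, h1, rfl | ⟨rfl, h2⟩ | ⟨rfl, h2⟩⟩ := h
  all_goals rw [tm_eq (by omega) (by omega), div_le_div_iff₀ (by norm_num) (by positivity)]
  · have : (3 : ℚ) ≤ a := by exact_mod_cast (by omega : 3 ≤ a)
    push_cast; linarith
  · have : (3 : ℚ) ≤ a := by exact_mod_cast (by omega : 3 ≤ a)
    push_cast; linarith
  · have : (5 : ℚ) ≤ a := by exact_mod_cast (by omega : 5 ≤ a)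
    push_cast; linarith

variable {ι : Type*} {s : Finset ι} {e n : ι → ℕ} {c N : ℕ}

theorem red (h : AR s e n c N) (P : ℕ → Prop) (P1 : P 1) (hP : ∀ i ∈ s, P (n i)) (ht : tau s e n < 3 / 5) :
    ∃ e1 a e2 b l q, Sm P e1 a ∧ Sm P e2 b ∧ a ≤ b ∧ a.Coprime b ∧ ∏ i ∈ s, n i = a * b * q ∧ tau s e n = tm e1 a + tm e2 b + tm l q ∧
      (q = 1 ∨ 4 < l ∧ 1 < q ∧ l ∣ q - 1 ∧ (2 ∣ l → l ∣ c) ∧ q * l ∣ N) := by
  classical
  have t1 : ∀ e, tm e 1 = 0 := fun e => by simp [tm]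
  have s1 : Sm P 4 1 := ⟨P1, rfl, .inr (.inr ⟨rfl, rfl⟩)⟩
  have hA : ∀ i ∈ s.filter (fun i => ¬ 4 < e i), Sm P (e i) (n i) := fun i hi => by
    obtain ⟨hi, h4⟩ := mem_filter.1 hi
    have := h.two i hi; have := h.gt i hi; have h5 := h.dvd i hi
    refine ⟨hP i hi, h.odd i hi, ?_⟩
    obtain h6 | h6 | h6 : e i = 2 ∨ e i = 3 ∨ e i = 4 := by omega
    all_goals rw [h6] at h5; omega
  obtain ⟨l, q, hq, p1, p2, p3⟩ : ∃ l q, (q = 1 ∨ 4 < l ∧ 1 < q ∧ l ∣ q - 1 ∧ (2 ∣ l → l ∣ c) ∧ q * l ∣ N) ∧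
      ∏ i ∈ s with 4 < e i, n i = q ∧ ∑ i ∈ s with 4 < e i, tm (e i) (n i) = tm l q ∧ 0 ≤ tm l q := by
    rcases (s.filter fun i => 4 < e i).eq_empty_or_nonempty with k | ⟨x, hx⟩
    · exact ⟨1, 1, .inl rfl, by simp [k], by simp [k, t1], (t1 1).ge⟩
    obtain ⟨h1, h2⟩ := mem_filter.1 hx
    have k := eq_singleton_iff_unique_mem.2 ⟨hx, fun y hy => h.four y (mem_filter.1 hy).1 x h1 (mem_filter.1 hy).2 h2⟩
    have := h.gt x h1
    refine ⟨e x, n x, .inr ⟨h2, this, h.dvd x h1, h.ev x h1, h.den x h1⟩, by simp [k], by simp [k], ?_⟩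
    have : (1 : ℚ) ≤ n x := by exact_mod_cast this.le
    rw [tm_eq (by omega) (by omega)]
    exact div_nonneg (by linarith) (by positivity)
  have q1 := prod_filter_mul_prod_filter_not s (fun i => 4 < e i) n
  have q2 : _ = tau s e n := sum_filter_add_sum_filter_not s (fun i => 4 < e i) fun i => tm (e i) (n i)
  rw [p1] at q1
  rw [p2] at q2
  have q3 := card_nsmul_le_sum _ _ _ fun i hi => (hA i hi).le (h.gt i (mem_filter.1 hi).1)
  have q4 : ∀ i ∈ s.filter (fun i => ¬ 4 < e i), i ∈ s := fun i hi => (mem_filter.1 hi).1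
  generalize s.filter (fun i => ¬ 4 < e i) = A at *
  have q5 : A.card < 3 := by
    rw [nsmul_eq_mul] at q3
    exact_mod_cast (by linarith : (A.card : ℚ) < 3)
  obtain k | k | k : A.card = 0 ∨ A.card = 1 ∨ A.card = 2 := by omega
  · rw [card_eq_zero.1 k] at q1 q2
    exact ⟨4, 1, 4, 1, l, q, s1, s1, le_rfl, by simp, by simp [← q1], by simp [← q2, t1], hq⟩
  · obtain ⟨x, rfl⟩ := card_eq_one.1 k
    exact ⟨4, 1, e x, n x, l, q, s1, hA x (by simp), (h.gt x (q4 x (by simp))).le, by simp, by simp [← q1, mul_comm],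
      by simp [← q2, t1, add_comm], hq⟩
  obtain ⟨x, y, xy, rfl⟩ := card_eq_two.1 k
  rw [prod_pair xy] at q1
  rw [sum_pair xy] at q2
  have co := h.co x (q4 x (by simp)) y (q4 y (by simp)) xy
  rcases le_total (n x) (n y) with le | le
  · exact ⟨_, _, _, _, l, q, hA x (by simp), hA y (by simp), le, co, by rw [← q1]; ring, by rw [← q2]; ring, hq⟩
  · exact ⟨_, _, _, _, l, q, hA y (by simp), hA x (by simp), le, co.symm, by rw [← q1]; ring, by rw [← q2]; ring, hq⟩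

/-- a small class after clearing denominators -/
def Su (g u a : ℕ) : Prop := a % 2 = 1 ∧ (u = 6 * g ∨ u = 4 * g ∧ a % 3 = 1 ∨ u = 3 * g ∧ a % 4 = 1)

theorem Sm.su {P : ℕ → Prop} {e a : ℕ} (h : Sm P e a) (g : ℕ) : ∃ u, Su g u a ∧ 12 * g * a * tm e a = u * (a - 1) := by
  obtain ⟨-, h1, rfl | ⟨rfl, h2⟩ | ⟨rfl, h2⟩⟩ := h
  all_goals
    have : (a : ℚ) ≠ 0 := by exact_mod_cast (by omega : a ≠ 0)
    rw [tm_eq (by omega) (by omega)]
  · exact ⟨_, ⟨h1, .inl rfl⟩, by push_cast; field_simp; ring⟩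
  · exact ⟨_, ⟨h1, .inr (.inl ⟨rfl, h2⟩)⟩, by push_cast; field_simp; ring⟩
  · exact ⟨_, ⟨h1, .inr (.inr ⟨rfl, h2⟩)⟩, by push_cast; field_simp; ring⟩

/-- the large class -/
def Bad (c : ℕ) (W K : ℤ) (l : ℕ) : Prop := 4 < l ∧ (2 ∣ l → l ∣ c) ∧ (l : ℤ) ∣ W ∧ (l : ℤ) ∣ K - 1 ∧ K * l < W ∧ W < K * (l + 1)

theorem core (h : AR s e n c N) (P : ℕ → Prop) (P1 : P 1) (hP : ∀ i ∈ s, P (n i)) (g κ : ℕ) (c0 : 0 < c) (hc : c < 12 * g)
    (hκ : 5 * κ ≤ 36 * g) (hN : N = 12 * g * ∏ i ∈ s, n i) (ht : tau s e n = κ / (12 * g) - (N : ℚ)⁻¹) :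
    ∃ (a b u v : ℕ) (K : ℤ), a ≤ b ∧ a.Coprime b ∧ P a ∧ P b ∧ Su g u a ∧ Su g v b ∧
      K = κ * a * b - u * (a - 1) * b - v * (b - 1) * a ∧ (K = 1 ∧ ∏ i ∈ s, n i = a * b ∨ ∃ l, Bad c (12 * g * a * b) K l) := by
  have g0 : (0 : ℚ) < g := by exact_mod_cast (by omega : 0 < g)
  have N0 : (0 : ℚ) < N := by exact_mod_cast h.pos
  obtain ⟨e1, a, e2, b, l, q, h1, h2, h3, h4, h5, h6, h7⟩ := red h P P1 hP (by
    have : (κ : ℚ) / (12 * g) ≤ 3 / 5 := by
      rw [div_le_div_iff₀ (by positivity) (by norm_num)]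
      exact_mod_cast (by omega : κ * 5 ≤ 3 * (12 * g))
    have := inv_pos.2 N0
    linarith)
  obtain ⟨u, u1, u2⟩ := h1.su g
  obtain ⟨v, v1, v2⟩ := h2.su g
  refine ⟨a, b, u, v, _, h3, h4, h1.1, h2.1, u1, v1, rfl, ?_⟩
  generalize hK : (κ * a * b - u * (a - 1) * b - v * (b - 1) * a : ℤ) = K
  have a0 : 0 < a := by have := u1.1; omega
  have b0 : 0 < b := by omega
  have q0 : 0 < q := by omega
  rw [h5] at hN ⊢
  have h8 : 12 * g * a * b * q * tm l q = K * q - 1 := by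
    have h9 : (N : ℚ) * (N : ℚ)⁻¹ = 1 := mul_inv_cancel₀ N0.ne'
    have h10 : (κ : ℚ) / (12 * g) * (12 * g) = κ := div_mul_cancel₀ _ (by positivity)
    rw [← hK]
    rw [hN] at h9
    rw [ht, hN] at h6
    push_cast at h6 h9 ⊢
    linear_combination (-12 * g * a * b * q) * h6 - h9 - b * q * u2 - a * q * v2 + a * b * q * h10
  rcases h7 with rfl | ⟨l1, l2, ⟨r, hr⟩, l3, l4⟩
  · refine .inl ⟨?_, mul_one _⟩
    simp only [tm, Nat.cast_one, inv_one, one_mul, sub_self, mul_zero, mul_one] at h8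
    exact_mod_cast (by linarith : (K : ℚ) = 1)
  obtain rfl : q = l * r + 1 := by omega
  have r0 : 0 < r := Nat.pos_of_ne_zero (by rintro rfl; omega)
  have l5 : l ∣ 12 * g * a * b := by
    rw [hN, show 12 * g * (a * b * (l * r + 1)) = (l * r + 1) * (12 * g * a * b) by ring] at l4
    exact Nat.dvd_of_mul_dvd_mul_left q0 l4
  have W0 : 12 * g ≤ 12 * g * a * b := by rw [mul_assoc]; exact Nat.le_mul_of_pos_right _ (mul_pos a0 b0)
  have W2 : 2 ∣ 12 * g * a * b := ⟨6 * g * a * b, by ring⟩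
  have hW : ((12 * g * a * b : ℕ) : ℤ) = 12 * g * a * b := by push_cast; rfl
  rw [← hW]
  have h9 : ((12 * g * a * b : ℕ) : ℤ) * r = K * (l * r + 1) - 1 := by
    rw [tm_eq (by omega) q0] at h8
    have : (l : ℚ) ≠ 0 := by exact_mod_cast (by omega : l ≠ 0)
    have : ((l * r + 1 : ℕ) : ℚ) ≠ 0 := by exact_mod_cast q0.ne'
    have : ((12 * g * a * b : ℕ) : ℚ) * r = K * (l * r + 1) - 1 := by
      push_cast at h8 this ⊢
      rw [← h8]
      field_simp
      ring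
    exact_mod_cast this
  generalize 12 * g * a * b = W at *
  have K0 : 0 < K := by
    by_contra k
    have : (0 : ℤ) ≤ W * r := by positivity
    nlinarith [mul_nonneg (neg_nonneg.2 (not_lt.1 k)) (by positivity : (0 : ℤ) ≤ l * r + 1)]
  have r1 : (1 : ℤ) ≤ r := by exact_mod_cast r0
  have l6 : (l : ℤ) ∣ W := by exact_mod_cast l5
  have h10 : K * l < W := by
    by_contra k
    have k1 : K = 1 := by nlinarith
    subst k1
    have : W = l := by exact_mod_cast (mul_right_cancel₀ (by omega : (r : ℤ) ≠ 0) (by linarith) : (W : ℤ) = l)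
    subst this
    have := Nat.le_of_dvd c0 (l3 W2)
    omega
  exact .inr ⟨l, l1, l3, l6, by
    rw [show K - 1 = W * r - l * (K * r) by linarith]; exact dvd_sub (l6.mul_right _) (dvd_mul_right _ _), h10, by nlinarith⟩

theorem Bad.lin {c l b : ℕ} {γ α β W K : ℤ} (h : Bad c W K l) (hW : W = γ * b) (hK : K = α * b + β) (hβ : 0 ≤ β) :
    (l : ℤ) ∣ γ * (β - 1) ∧ (0 < b → α * l < γ) := by
  obtain ⟨-, -, h1, h2, h3, -⟩ := h
  subst hW hK
  refine ⟨?_, fun b0 => ?_⟩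
  · rw [show γ * (β - 1) = γ * (α * b + β - 1) - α * (γ * b) by ring]
    exact dvd_sub (h2.mul_left _) (h1.mul_left _)
  · have : (0 : ℤ) < b := by exact_mod_cast b0
    have : (0 : ℤ) ≤ β * l := by positivity
    nlinarith

theorem dv1 : ∀ l < 1224, l ∣ 373320 → (2 ∣ l → l ∣ 24) →
    l ∈ [1, 2, 3, 4, 5, 6, 8, 9, 12, 15, 17, 24, 45, 51, 61, 85, 153, 183, 255, 305, 549, 765, 915, 1037] := by decide +kernel

theorem dv2 : ∀ l < 188, l ∣ 218088 → (2 ∣ l → l ∣ 24) → l ∈ [1, 2, 3, 4, 6, 8, 9, 12, 13, 24, 39, 117] := by decide +kernel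

theorem dv3 : ∀ l < 72, l ∣ 1224 → (2 ∣ l → l ∣ 24) → l ∈ [1, 2, 3, 4, 6, 8, 9, 12, 17, 24, 51] := by decide +kernel

theorem dv4 : ∀ l < 120, l ∣ 3480 → (2 ∣ l → l ∣ 40) → l ∈ [1, 2, 3, 4, 5, 8, 10, 15, 20, 29, 40, 87] := by decide +kernel

theorem dv5 : ∀ b < 36, ∀ l < 36, ¬ (4 < l ∧ l ∣ 72 * b ∧ l ∣ 35 - b ∧ (36 - b) * l < 72 * b ∧ 72 * b < (36 - b) * (l + 1)) := by
  decide +kernel

theorem arN.{u} : ArN.{u} := fun ι s e n c N h hc h3 hN ht => by
  obtain ⟨a, b, u, v, K, h1, h2, p1, p2, ⟨u0, u1⟩, ⟨v0, v1⟩, hK, h4⟩ := core h (fun a => a % 3 ≠ 0) (by norm_num) (fun i hi k => by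
    have := Nat.Coprime.eq_one_of_dvd (h3 i hi).symm (Nat.dvd_of_mod_eq_zero k); omega) (2 * c) (6 * c + 1) (by omega) (by omega) (by omega)
    (by rw [hN]; ring) (by rw [ht]; rcases hc with rfl | rfl <;> norm_num)
  have K0 : 0 < K := by
    rcases h4 with ⟨rfl, -⟩ | ⟨l, -, -, -, -, k1, k2⟩
    · norm_num
    · linarith
  have a1 : a = 1 := by
    by_contra k
    have a5 : (5 : ℤ) ≤ a := by omega
    have ab : (a : ℤ) ≤ b := by omega
    have : (6 * c : ℤ) ≤ u := by omega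
    have : (6 * c : ℤ) ≤ v := by omega
    have : (3 : ℤ) ≤ c := by omega
    push_cast at hK
    have e1 := mul_nonneg (by linarith : (0 : ℤ) ≤ u - 6 * c) (mul_nonneg (by linarith : (0 : ℤ) ≤ a - 1) (by linarith : (0 : ℤ) ≤ b))
    have e2 := mul_nonneg (by linarith : (0 : ℤ) ≤ v - 6 * c) (mul_nonneg (by linarith : (0 : ℤ) ≤ b - 1) (by linarith : (0 : ℤ) ≤ a))
    have e3 := mul_nonneg (by linarith : (0 : ℤ) ≤ a - 5) (by linarith : (0 : ℤ) ≤ b)
    rcases hc with rfl | rfl <;> push_cast at * <;> nlinarith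
  subst a1
  have hK' : K = 1 * b + 6 * c := by
    rcases hc with rfl | rfl <;> rcases v1 with rfl | ⟨rfl, _⟩ | ⟨rfl, _⟩ <;> omega
  have b4 : b % 4 = 1 := by
    rcases hc with rfl | rfl <;> rcases v1 with rfl | ⟨rfl, _⟩ | ⟨rfl, _⟩ <;> omega
  rcases h4 with ⟨k, -⟩ | ⟨l, k⟩
  · omega
  obtain ⟨k1, k2⟩ := k.lin (γ := 24 * c) (by push_cast; ring) hK' (by positivity)
  obtain ⟨l1, l2, l3, l4, l5, l6⟩ := k
  have k3 := k2 (by omega)
  subst hK'
  rcases hc with rfl | rfl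
  · have := dv3 l (by omega) (by norm_num at k1; exact_mod_cast k1) l2
    simp only [List.mem_cons, List.not_mem_nil, or_false] at this
    rcases this with rfl | rfl | rfl | rfl | rfl | rfl | rfl | rfl | rfl | rfl | rfl <;> omega
  · have := dv4 l (by omega) (by norm_num at k1; exact_mod_cast k1) l2
    simp only [List.mem_cons, List.not_mem_nil, or_false] at this
    rcases this with rfl | rfl | rfl | rfl | rfl | rfl | rfl | rfl | rfl | rfl | rfl | rfl <;> omega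

theorem arA.{u} : ArA.{u} := fun ι s e n N h hN ht => by
  obtain ⟨a, b, u, v, K, h1, h2, p1, p2, ⟨u0, u1⟩, ⟨v0, v1⟩, hK, h4⟩ := core h (fun a => a % 3 ≠ 0) (by norm_num) (fun i hi k => by
    have := Nat.Coprime.eq_one_of_dvd ((h.coc i hi).coprime_dvd_right (by norm_num : 3 ∣ 24)).symm (Nat.dvd_of_mod_eq_zero k); omega)
    6 35 (by omega) (by omega) (by omega) (by rw [hN]) (by rw [ht]; norm_num)
  have K0 : 0 < K := by
    rcases h4 with ⟨rfl, -⟩ | ⟨l, -, -, -, -, k1, k2⟩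
    · norm_num
    · linarith
  suffices H : (K = 1 → a * b = 35) ∧ ∀ l, Bad 24 (12 * (6 : ℕ) * a * b) K l → False by
    rcases h4 with ⟨k1, k2⟩ | ⟨l, k⟩
    · rw [hN, k2, H.1 k1]
    · exact (H.2 l k).elim
  have hl : ∀ l, Bad 24 (12 * (6 : ℕ) * a * b) K l → K ≠ 1 ∧ l ≤ K - 1 := fun l ⟨_, _, _, l4, l5, l6⟩ => by
    have : K ≠ 1 := by rintro rfl; omega
    exact ⟨this, Int.le_of_dvd (by omega) l4⟩
  clear h4
  push_cast at hK hl ⊢
  by_cases a1 : a = 1
  · subst a1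
    rcases v1 with rfl | ⟨rfl, _⟩ | ⟨rfl, _⟩
    · refine ⟨fun _ => by omega, fun l k => ?_⟩
      have := hl l k
      obtain ⟨l1, l2, l3, l4, l5, l6⟩ := k
      have e1 : K = (36 - b : ℕ) := by omega
      have e2 : K - 1 = (35 - b : ℕ) := by omega
      rw [e2] at l4
      rw [e1] at l5 l6
      refine dv5 b (by omega) l (by omega) ⟨l1, ?_, by exact_mod_cast l4, ?_, ?_⟩
      · exact_mod_cast l3
      · exact_mod_cast l5
      · exact_mod_cast l6
    · refine ⟨fun _ => by omega, fun l k => ?_⟩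
      have := (k.lin (γ := 72) (α := 11) (β := 24) (b := b) (by push_cast; ring) (by omega) (by norm_num)).2 (by omega)
      obtain ⟨l1, l2, l3, l4, l5, l6⟩ := k
      obtain rfl | rfl : l = 5 ∨ l = 6 := by omega
      all_goals omega
    · refine ⟨fun _ => by omega, fun l k => ?_⟩
      have := (k.lin (γ := 72) (α := 17) (β := 18) (b := b) (by push_cast; ring) (by omega) (by norm_num)).2 (by omega)
      have := k.1
      omega
  have ab : a ≠ b := fun k => a1 (by simpa [k] using h2)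
  have a5 : (5 : ℤ) ≤ a := by omega
  have ab : (a : ℤ) < b := by omega
  have e0 : (u + v - 35 : ℤ) * a < u + v := by
    refine lt_of_mul_lt_mul_right (a := (b : ℤ)) ?_ (by positivity)
    nlinarith [mul_nonneg (Int.natCast_nonneg v) (sub_nonneg.2 ab.le)]
  have e1 : u + v < 44 := by
    by_contra k
    have : (44 : ℤ) ≤ u + v := by omega
    nlinarith
  rcases u1 with rfl | ⟨rfl, _⟩ | ⟨rfl, _⟩ <;> rcases v1 with rfl | ⟨rfl, _⟩ | ⟨rfl, _⟩ <;> try omega
  · obtain rfl : a = 5 := by omega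
    obtain rfl : b = 7 := by omega
    exact ⟨fun _ => rfl, fun l k => (hl l k).1 (by omega)⟩
  obtain rfl | rfl | rfl | rfl | rfl : a = 5 ∨ a = 13 ∨ a = 17 ∨ a = 25 ∨ a = 29 := by omega
  all_goals refine ⟨fun _ => by omega, fun l k => ?_⟩
  · have := (k.lin (γ := 360) (α := 13) (β := 90) (b := b) (by push_cast; ring) (by omega) (by norm_num)).2 (by omega)
    obtain ⟨l1, l2, l3, l4, l5, l6⟩ := k
    obtain rfl : K = 13 * b + 90 := by omega
    have : l < 28 := by omega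
    interval_cases l <;> omega
  · obtain ⟨k1, k2⟩ := k.lin (γ := 936) (α := 5) (β := 234) (b := b) (by push_cast; ring) (by omega) (by norm_num)
    obtain ⟨l1, l2, l3, l4, l5, l6⟩ := k
    obtain rfl : K = 5 * b + 234 := by omega
    have := dv2 l (by omega) (by norm_num at k1; exact_mod_cast k1) l2
    simp only [List.mem_cons, List.not_mem_nil, or_false] at this
    rcases this with rfl | rfl | rfl | rfl | rfl | rfl | rfl | rfl | rfl | rfl | rfl | rfl <;> omega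
  · obtain ⟨k1, k2⟩ := k.lin (γ := 1224) (α := 1) (β := 306) (b := b) (by push_cast; ring) (by omega) (by norm_num)
    obtain ⟨l1, l2, l3, l4, l5, l6⟩ := k
    obtain rfl : K = b + 306 := by omega
    have := dv1 l (by omega) (by norm_num at k1; exact_mod_cast k1) l2
    simp only [List.mem_cons, List.not_mem_nil, or_false] at this
    rcases this with rfl | rfl | rfl | rfl | rfl | rfl | rfl | rfl | rfl | rfl | rfl | rfl | rfl | rfl | rfl | rfl | rfl | rfl | rfl |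
      rfl | rfl | rfl | rfl | rfl <;> omega
  · have := hl l k
    obtain ⟨l1, l2, l3, l4, l5, l6⟩ := k
    obtain rfl : K = 450 - 7 * b := by omega
    have : b < 65 := by omega
    have : 25 < b := by omega
    interval_cases b <;> first | omega | (obtain rfl : l = 211 := (by omega); omega)
  · have := hl l k
    obtain ⟨l1, l2, l3, l4, l5, l6⟩ := k
    obtain rfl : K = 522 - 11 * b := by omega
    have : b < 48 := by omega
    have : 29 < b := by omega
    interval_cases b <;> omega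

end Cfsg.Agent.H4.Ar
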