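import Cfsg.Agent.H1.N1b

/-! Two lifts commuting up to a fourth root of unity. -/

set_option autoImplicit false

namespace Cfsg.Agent.H4.G2

open Matrix Cfsg.Agent.MH Cfsg.Agent.H1.Mit Cfsg.Agent.H1.N1

variable {T K : Type*} [Group T] [Field K] {ρ : PR T K} {x y : T} {X Y A : M4 K} {i : K}

theorem cyc4 : ∀ σ : Equiv.Perm (Fin 4), σ 0 ≠ 0 → σ (σ 0) ≠ 0 → σ (σ (σ 0)) ≠ 0 → σ (σ (σ (σ 0))) = 0 ∧
    ∀ k, k = 0 ∨ k = σ 0 ∨ k = σ (σ 0) ∨ k = σ (σ (σ 0)) := by decide +kernel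

theorem diag_of {ι : Type*} {d : ι → Fin 4 → K} (h : ∀ k l, (∀ j, d j k = d j l) → k = l)
    (e : ∀ j, diagonal (d j) * A = A * diagonal (d j)) : A = diagonal fun k => A k k := by
  ext k l
  by_cases n : k = l
  · simp [n]
  obtain ⟨j, hj⟩ := not_forall.1 (mt (h k l) n)
  have := congrFun (congrFun (e j) k) l
  rw [mul_diagonal, diagonal_mul] at this
  rw [diagonal_apply_ne _ n]
  exact mul_left_cancel₀ (sub_ne_zero.2 hj) (by linear_combination this)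

theorem frame (h : ρ.Gm) (hX : ρ.L x X) (hY : ρ.L y Y) (hi : i * i = -1) (e : X * Y = i • (Y * X)) (x4 : x ^ 4 = 1) :
    ∃ (ρ' : PR T K) (d : Fin 4 → K) (Z : M4 K) (σ : Equiv.Perm (Fin 4)), ρ'.L x (diagonal d) ∧ ρ'.L y Z ∧ (∀ k, Z (σ k) k ≠ 0) ∧
      (∀ a A, ρ'.O a A → a ∈ Cn x → A = diagonal fun k => A k k) ∧ σ (σ (σ (σ 0))) = 0 ∧
      ∀ k, k = 0 ∨ k = σ 0 ∨ k = σ (σ 0) ∨ k = σ (σ (σ 0)) := by
  obtain ⟨c, c4, hc⟩ := (hX.pow 4).of_one x4
  obtain ⟨Q, hQ, k⟩ := sdiag (fun _ : Unit => X) (fun _ _ => rfl) (fun _ => h.spl _ _ hX) fun _ =>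
    ⟨4, c, by simpa [show (4 : K) = 2 * 2 by norm_num] using h.two, by rintro rfl; simp at c4, hc⟩
  obtain ⟨d, hd⟩ := k ()
  have h1 := hX.cj hQ hd
  have h2 := hY.cj hQ (Y := Q⁻¹ * Y * Q) (by simp only [mul_assoc, ri' hQ])
  have h3 : diagonal d * (Q⁻¹ * Y * Q) = i • (Q⁻¹ * Y * Q * diagonal d) := cl hQ (by
    simp only [← mul_assoc, ← hd, Matrix.mul_smul, ri hQ, one_mul]
    rw [mul_assoc X, ri hQ, mul_one, e, mul_assoc Y Q, ← hd, Matrix.smul_mul, mul_assoc])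
  generalize Q⁻¹ * Y * Q = Z at h2 h3
  obtain ⟨σ, -, hσ⟩ := Finset.exists_ne_zero_of_sum_ne_zero ((det_apply Z).symm.trans_ne h2.nz)
  have h4 : ∀ k, Z (σ k) k ≠ 0 := fun k => Finset.prod_ne_zero_iff.1 (right_ne_zero_of_smul hσ) k (Finset.mem_univ _)
  have h5 : ∀ k, d (σ k) = i * d k := fun k => by
    have := congrFun (congrFun h3 (σ k)) k
    rw [Matrix.smul_apply, mul_diagonal, diagonal_mul] at this
    exact mul_right_cancel₀ (h4 k) (this.trans (by simp; ring))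
  have h6 : d 0 ≠ 0 := Finset.prod_ne_zero_iff.1 (det_diagonal.symm.trans_ne h1.nz) 0 (Finset.mem_univ _)
  have two := h.two
  have a1 := h5 0
  have a2 := h5 (σ 0)
  have a3 := h5 (σ (σ 0))
  obtain ⟨h7, h8⟩ := cyc4 σ (fun k => by rw [k] at a1; grind) (fun k => by rw [k] at a2; grind) fun k => by rw [k] at a3; grind
  refine ⟨_, d, Z, σ, h1, h2, h4, fun a A hA ha => diag_of (d := fun _ : Unit => d) (fun k l e => ?_) fun _ => hA.comm h1 (mem_Cn.1 ha), h7, h8⟩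
  have := e ()
  rcases h8 k with rfl | rfl | rfl | rfl <;> rcases h8 l with rfl | rfl | rfl | rfl <;> first | rfl | grind

variable (h : ρ.Gm) (hX : ρ.L x X) (hY : ρ.L y Y) (hi : i * i = -1) (e : X * Y = i • (Y * X)) (x4 : x ^ 4 = 1)
include h hX hY hi e x4

theorem hcs : ∀ a, Od a → a ∈ Cn x → a ∈ Cn y → a = 1 := fun a ⟨n, hn, o⟩ h1 h2 => by
  obtain ⟨ρ', d, Z, σ, -, k2, k3, k4, -, k6⟩ := frame h hX hY hi e x4
  obtain ⟨A, hA, -⟩ := ρ'.exO hn o
  have h3 := k4 a A hA h1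
  have h4 := hA.comm k2 (mem_Cn.1 h2)
  have h5 : ∀ k, A (σ k) (σ k) = A k k := fun k => by
    have := congrFun (congrFun h4 (σ k)) k
    rw [h3, mul_diagonal, diagonal_mul] at this
    exact mul_left_cancel₀ (k3 k) (by linear_combination -this)
  refine hA.1.sc (c := A 0 0) (h3.trans ?_)
  rw [smul_one_eq_diagonal]
  exact congrArg _ (funext fun k => by rcases k6 k with rfl | rfl | rfl | rfl <;> simp only [h5])

theorem hca : ∀ a g, Od a → a ≠ 1 → a ∈ Cn x → y * y * a * (y * y)⁻¹ = a⁻¹ → g ∈ Cn a → g ∈ Cn (y * a * y⁻¹) → g ∈ Cn x :=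
  fun a g ⟨n, hn, o⟩ a1 h1 h2 g1 g2 => by
  have c : x * y = y * x := ((hY.mul hX).inj (hX.mul hY) e).symm
  obtain ⟨ρ', d, Z, σ, k1, k2, k3, k4, k5, k6⟩ := frame h hX hY hi e x4
  obtain ⟨A, hA, hA'⟩ := ρ'.exO hn o
  obtain ⟨G, hG⟩ := ρ'.exL g
  have hB := hA.conj k2
  have h3 := k4 a A hA h1
  have h4 := k4 _ _ hB (mul_mem (mul_mem (mem_Cn.2 c) h1) (inv_mem (mem_Cn.2 c)))
  have h5 := hA.conj_eq k2 hB rfl
  have h6 := congrArg (A * ·) (hB.conj_eq k2 hA.inv (by rw [← h2]; group))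
  have h7 := hA.comm hG (mem_Cn.1 g1).symm
  have h8 := hB.comm hG (mem_Cn.1 g2).symm
  simp only [ri' hA.1.nz] at h6
  generalize Z * A * Z⁻¹ = B at *
  generalize (fun k => A k k) = α at h3
  generalize (fun k => B k k) = β at h4
  subst h3 h4
  have e1 : ∀ k, β (σ k) = α k := fun k => by
    have := congrFun (congrFun h5 (σ k)) k
    rw [mul_diagonal, diagonal_mul] at this
    exact mul_left_cancel₀ (k3 k) (by linear_combination -this)
  have e2 : ∀ k, α (σ k) * β k = 1 := fun k => by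
    have := congrFun (congrFun h6 (σ k)) k
    rw [diagonal_mul, mul_diagonal] at this
    exact mul_left_cancel₀ (k3 k) (by linear_combination this)
  have e3 : ∀ k, α k * α k = 1 → α k = 1 := fun k e => PR.eq_one_of (by linear_combination (α k * α k + 1) * e) hn
    (by simpa [diagonal_pow] using congrFun (congrFun hA' k) k)
  have e4 : ¬ (α 0 * α 0 = 1 ∧ α (σ 0) * α (σ 0) = 1) := fun ⟨b1, b2⟩ => a1 (hA.eq_one.2 (diagonal_eq_one.2 (funext fun k => show α k = 1 by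
    clear k4
    have := e2 (σ 0); have := e2 (σ (σ 0)); have := e1 0; have := e1 (σ 0); have := e3 _ b1; have := e3 _ b2
    rcases k6 k with rfl | rfl | rfl | rfl <;> grind)))
  have := diag_of (d := ![α, β]) (A := G) (fun k l e => by
    have b1 : α k = α l := e 0
    have b2 : β k = β l := e 1
    have := e2 (σ 0); have := e2 (σ (σ 0)); have := e1 0; have := e1 (σ 0); have := e1 (σ (σ 0)); have := k5 ▸ e1 (σ (σ (σ 0)))
    rcases k6 k with rfl | rfl | rfl | rfl <;> rcases k6 l with rfl | rfl | rfl | rfl <;> first | rfl | exact absurd ⟨by grind, by grind⟩ e4)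
    (by simp [Fin.forall_fin_two, h7, h8])
  exact mem_Cn.2 (k1.comm_of hG (by rw [this, diagonal_mul_diagonal, diagonal_mul_diagonal]; simp only [mul_comm]))

end Cfsg.Agent.H4.G2
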