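import Cfsg.Agent.H4.L34e

/-!
The monomial groups of two frames: the characteristic is three and the group is `L₃(4)`.
-/

set_option autoImplicit false
set_option synthInstance.maxSize 100000
set_option maxRecDepth 100000
set_option linter.unusedSectionVars false
set_option linter.unnecessarySeqFocus false

namespace Cfsg.Agent.H4.L34

open Matrix Subgroup MH O6

variable {Γ T K : Type*} [Group Γ] [Group T] [Field K] {ψ : Γ →* M6 K} {π : Γ →* T} {z : Γ}

theorem top_of [Finite T] [IsSimpleGroup T] (hT : Nat.card T = 20160) {t : T} (ht : Nat.card (Cn t) = 64) {H : Subgroup T}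
    (h2 : Cn t ≤ H) (h3 : 3 ∣ Nat.card H) (h5 : 5 ∣ Nat.card H) (h7 : 7 ∣ Nat.card H) : H = ⊤ := by
  refine eq_top_of_index_le ((inferInstance : (commutator T).Normal).eq_bot_or_eq_top.resolve_left fun e => ?_) ?_
  · rw [show Cn t = ⊤ from eq_top_iff.2 fun y _ => mem_Cn.2 (commutatorElement_eq_one_iff_mul_comm.1
      (mem_bot.1 (e ▸ commutator_mem_commutator (mem_top _) (mem_top _)))), card_top, hT] at ht
    omega
  have h4 := H.card_mul_index
  have h6 := card_dvd_of_le h2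
  rw [ht] at h6
  obtain ⟨k, hk⟩ : 6720 ∣ Nat.card H := by omega
  have : 0 < k := Nat.pos_of_mul_pos_left (hk ▸ Nat.card_pos (α := H))
  rw [hT, hk] at h4
  nlinarith

namespace A

variable (h : A ψ π z) {e : K} (he : 2 * e * e = 1)
include h

variable [Finite T] [IsSimpleGroup T] (cn : ∀ s, MH.Inv s → ∃ g, g * s * g⁻¹ = π z)
include cn

theorem main1 (h1 : X ψ pa) (h2 : X (cj ψ _ (hH he)) pa) : Cc ψ T := by
  obtain ⟨a, ha⟩ := h.pm h1
  obtain ⟨b, hb⟩ := (h.conjH he).pm h2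
  have : Fact (Nat.Prime 5) := ⟨by norm_num⟩
  have ia := h.pm_inv ha (by decide)
  have o3 := h.ord (ha.mul (h.pm_β (c := 32) (by decide +kernel))) (n := 3) (by decide +kernel)
  have o5 := h.ord (ha.mul (h.pm_β (c := 16) (by decide +kernel))) (n := 5) (by decide +kernel)
  have r : ∀ c, c ≠ 0 ∧ mu c c = 0 → a * (a * h.β c) * a = (a * h.β c)⁻¹ := fun c hc => by
    rw [cancel ia, _root_.mul_inv_rev, ia.inv_eq, (h.inv_iff.2 hc).inv_eq]
  obtain ⟨hT, h4⟩ := (h.cit cn).main ⟨a, _, ia, r _ (by decide +kernel), o3⟩ ⟨a, _, ia, r _ (by decide +kernel), o5⟩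
  have h3 := h.char3 he ha hb h4
  have ha' := ha.l4 h3
  choose t ht using h.letters he h3 ha hb
  have mem : ∀ i < 6, ∀ s, Rp ψ π (to3 K (X3 i)) s → s ∈ cl t 6 := fun i hi s hs => by
    rw [← (h.eq_iff (ht i) hs).2 .rfl]; exact mem_cl t hi
  have hS : ∀ c, h.β c ∈ cl t 6 := gen4 (Q := fun c => h.β c ∈ cl t 6) (by rw [h.β0]; exact one_mem _)
    (fun a b ha hb => by rw [← h.β_mu]; exact mul_mem ha hb) (by
    simp only [List.forall_mem_cons]
    exact ⟨mem 0 (by decide) _ (h.l0 h3), mem 1 (by decide) _ (h.l1 h3),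
      mem 2 (by decide) _ (h.l2 h3), mem 3 (by decide) _ (h.l3 h3), by simp⟩)
  have hg : cl t 6 = ⊤ := top_of hT (h.cit cn).card (fun y hy => by obtain ⟨c, rfl⟩ := h.mem_iff.1 hy; exact hS c)
    (o3.symm.dvd.trans (orderOf_dvd_card_of_mem (mul_mem (mem 4 (by decide) _ ha') (hS 32))))
    (o5.symm.dvd.trans (orderOf_dvd_card_of_mem (mul_mem (mem 4 (by decide) _ ha') (hS 16)))) (h.seven h3 ht)
  exact ⟨h3, graph h h3 ht hT hg, h.rat h3 ht hg⟩

omit h cn in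
theorem comm {τ τ' : Z6} (hQ : cz K τ * cz K τ = 1) (hQ' : cz K τ' * cz K τ' = 1) (h1 : H0 * τ = τ' * H0) (h2 : τ * H0 = H0 * τ') :
    cj (cj ψ _ hQ) _ (hH he) = cj (cj ψ _ (hH he)) _ hQ' := MonoidHom.ext fun x => by
  change e • cz K H0 * (cz K τ * ψ x * cz K τ) * e • cz K H0 = cz K τ' * (e • cz K H0 * ψ x * e • cz K H0) * cz K τ'
  simp only [← mul_assoc, smul_mul_assoc, mul_smul_comm, ← map_mul, h1]
  simp only [mul_assoc, ← map_mul, h2]

theorem main2 (h1 : X ψ pa) (h2 : X (cj ψ _ (hH he)) pa ∨ X (cj ψ _ (hH he)) pb) : Cc ψ T := h2.elim (h.main1 he cn h1) fun h2 => by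
  refine Cc.of_cj ((h.conj1 hD (by decide +kernel) fun c => ⟨_, kD c⟩).main1 he cn (h1.conj hD) ?_)
  rw [comm he hD hW (by decide +kernel) (by decide +kernel)]
  exact (by decide : (![0, 1, 2, 3, 5, 4] ∘ pb) ∘ ![0, 1, 2, 3, 5, 4] = pa) ▸ h2.conj hW

theorem main3 (h1 : X ψ pa ∨ X ψ pb) (h2 : X (cj ψ _ (hH he)) pa ∨ X (cj ψ _ (hH he)) pb) : Cc ψ T :=
  h1.elim (h.main2 he cn · h2) fun h1 => by
  refine Cc.of_cj ((h.conj1 hW (by decide +kernel) fun c => ⟨_, kW c⟩).main2 he cn ?_ ?_)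
  · exact (by decide : (![0, 1, 2, 3, 5, 4] ∘ pb) ∘ ![0, 1, 2, 3, 5, 4] = pa) ▸ h1.conj hW
  rw [comm he hW hD (by decide +kernel) (by decide +kernel)]
  exact h2.imp (·.conj hD) (·.conj hD)

end A

variable (G : OG Γ K) {f : Fin 6 → W K}

theorem on_mul (hf : ON f) : of f * (of f)ᵀ = 1 := by
  ext i j
  simpa [mul_apply, one_apply, dotProduct] using hf i j

/-- change to the basis `f` -/
def Ψ (hf : ON f) : M6 K →* M6 K where
  toFun M := of f * M * (of f)ᵀ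
  map_one' := by rw [mul_one, on_mul hf]
  map_mul' M N := by simp only [mul_assoc, ← mul_assoc (of f)ᵀ, mul_eq_one_comm.1 (on_mul hf), one_mul]

theorem Ψ_apply (hf : ON f) (M : M6 K) (i j : Fin 6) : Ψ hf M i j = f i ⬝ᵥ M *ᵥ f j := by
  change (of f * M * (of f)ᵀ) i j = _
  rw [mul_assoc]; rfl

theorem Ψ_inj (hf : ON f) : Function.Injective (Ψ hf) := fun M N e => by
  simpa [Ψ, mul_assoc, ← mul_assoc (of f)ᵀ, mul_eq_one_comm.1 (on_mul hf)] using congrArg ((of f)ᵀ * · * of f) e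

theorem Ψ_neg (hf : ON f) (M : M6 K) : Ψ hf (-M) = -Ψ hf M := by simp [Ψ]

theorem Ψ_rf (hf : ON f) (i : Fin 6) : Ψ hf (rf (f i)) = cz K (sp id (· = i)) := by
  ext a b
  simp only [Ψ_apply, rf, sub_mulVec, smul_mulVec, vecMulVec_mulVec, one_mulVec, dotProduct_sub, dotProduct_smul, hf _ _, cz_apply, sp,
    op_smul_eq_smul]
  by_cases h1 : a = b <;> by_cases h2 : b = i <;> by_cases h3 : a = i <;> simp_all [eq_comm] <;> norm_num

theorem mp_sp (hf : ON f) {x : Γ} {σ : Equiv.Perm (Fin 6)} (h : G.Mp f x σ) : ∃ e, Ψ hf (G.φ x) = cz K (sp σ e) := by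
  have : ∀ j, ∃ b : Bool, G.φ x *ᵥ f j = (if b then -1 else 1 : K) • f (σ j) := fun j =>
    (h j).elim (fun e => ⟨false, by simp [e]⟩) fun e => ⟨true, by simp [e]⟩
  choose e he using this
  exact ⟨e, Matrix.ext fun i j => by
    by_cases h : e j <;> by_cases h' : i = σ j <;> simp [Ψ_apply, he, hf _ _, cz_apply, sp, h, h']⟩

theorem Ψ_pa (hf : ON f) (hp : ON (G.pa f)) : (Ψ hp).comp G.φ = cj ((Ψ hf).comp G.φ) _ (hH G.hh) := MonoidHom.ext fun x => by
  have e : of (G.pa f) = G.h • cz K H0 * of f := by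
    ext i j
    fin_cases i <;> simp [OG.pa, mul_apply, Fin.sum_univ_six, cz_apply, H0] <;> ring
  have e' : (cz K H0)ᵀ = cz K H0 := by
    ext i j
    exact congrArg Int.cast (congrFun (congrFun (by decide +kernel : H0ᵀ = H0) i) j)
  change of _ * G.φ x * (of _)ᵀ = _ * (of f * G.φ x * (of f)ᵀ) * _
  rw [e, transpose_mul, transpose_smul, e']
  simp only [mul_assoc]

theorem main [Finite Γ] (h : G.Out) : (3 : K) = 0 ∧ (∃ (L : Type) (_ : Field L) (_ : Fintype L), Fintype.card L = 4 ∧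
    ∃ π : Γ →* ProjectiveSpecialLinearGroup (Fin 3) L, Function.Surjective π ∧ ∀ x, π x = 1 ↔ x = 1 ∨ x = G.m) ∧
    ∃ f, G.Fr f ∧ ∀ x i j, (f i ⬝ᵥ G.φ x *ᵥ f j) ^ 3 = f i ⬝ᵥ G.φ x *ᵥ f j := by
  obtain ⟨f, z, hf, hp, hz, h1, h2, h3, h4⟩ := h
  have mc : ∀ x, x * G.m = G.m * x := fun x => G.inj (by simp [G.hm])
  have mm : G.m * G.m = 1 := G.inj (by simp [G.hm])
  let N : Subgroup Γ :=
    { carrier := {x | x = 1 ∨ x = G.m}
      one_mem' := .inl rfl
      mul_mem' := by rintro a b (rfl | rfl) (rfl | rfl) <;> simp [mm]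
      inv_mem' := by rintro a (rfl | rfl) <;> simp [inv_eq_of_mul_eq_one_right mm] }
  have : N.Normal := ⟨by rintro a (rfl | rfl) g <;> simp [N, mc]⟩
  let π := QuotientGroup.mk' N
  let ψ := (Ψ hf.1).comp G.φ
  have hi : Function.Injective ψ := (Ψ_inj hf.1).comp G.inj
  have hπ : ∀ x, π x = 1 ↔ x = 1 ∨ x = G.m := fun x => QuotientGroup.eq_one_iff x
  have hb : ∀ {g} (hg : G.Fr g) i j, ∃ x, Ψ hg.1 (G.φ x) = cz K (sp id (· = i) * sp id (· = j)) := fun hg i j =>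
    (hg.2 i j).imp fun x e => by rw [e, map_mul, map_mul, Ψ_rf, Ψ_rf]
  have hb' : ∀ i j c, H0 * (sp id (· = i) * sp id (· = j)) = Sz c * H0 → ∃ x, Sg (ψ x) (cz K (Sz c)) := fun i j c e =>
    (hb hp i j).imp fun x e' => .inl (by
      have := congrArg (cQ _ (hH G.hh)) ((DFunLike.congr_fun (Ψ_pa G hf.1 hp.1) x).symm.trans e')
      refine (cQ_cQ _ _ _).symm.trans (this.trans ?_)
      change G.h • cz K H0 * _ * G.h • cz K H0 = _
      rw [smul_mul_assoc, ← map_mul, e, map_mul, ← mul_smul_comm, mul_assoc, hH G.hh, mul_one])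
  have hA : A ψ π z := by
    refine ⟨G.two, QuotientGroup.mk'_surjective N, fun x y => ?_, ?_, fun x => ?_, gen4 ⟨1, .inl ?_⟩ ?_ ?_, fun x e => ?_⟩
    · rw [← mul_inv_eq_one, ← map_inv, ← map_mul, hπ, mul_inv_eq_one, mul_inv_eq_iff_eq_mul, ← hi.eq_iff, ← hi.eq_iff (b := _ * _), map_mul,
        show ψ G.m = -1 by simp [ψ, G.hm, Ψ_neg], neg_one_mul, Sg]
    · change Ψ hf.1 (G.φ z) = _
      rw [hz, map_mul, Ψ_rf, Ψ_rf, ← map_mul]
      exact congrArg _ (by decide +kernel)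
    · change (of f * G.φ x * (of f)ᵀ).det = 1
      rw [det_mul, det_mul, G.det, mul_one, ← det_mul, on_mul hf.1, det_one]
    · rw [show Sz 0 = 1 by decide +kernel, map_one, map_one]
    · rintro a b ⟨x, hx⟩ ⟨y, hy⟩
      exact ⟨x * y, map_mul ψ x y ▸ (hx.mul hy).trans (map_mul (cz K) _ _ ▸ (Sz_mul a b).map _)⟩
    · simp only [List.forall_mem_cons]
      exact ⟨(hb hf 0 2).imp fun x e => .inl (e.trans (congrArg _ (by decide +kernel))), hb' 1 3 _ (by decide +kernel),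
        (hb hf 0 4).imp fun x e => .inl (e.trans (congrArg _ (by decide +kernel))), hb' 1 5 _ (by decide +kernel), by simp⟩
    · obtain ⟨σ, hσ, hx⟩ := h1 x (hi (by rwa [map_mul, map_mul]))
      obtain ⟨d, hd⟩ := mp_sp G hf.1 hx
      obtain ⟨k, hk, e1, e2⟩ : ∃ k ∈ [0, 16, 32, 48], P k = σ ∧ σ.sign = 1 := by
        rcases hσ with rfl | rfl | rfl | rfl <;> decide +kernel
      refine (par G.two e2 (e := d) ?_ hk).imp fun c hc => (show ψ x = _ from hd) ▸ e1 ▸ hc.map _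
      rw [← hd]
      change (of f * G.φ x * (of f)ᵀ).det = 1
      rw [det_mul, det_mul, G.det, mul_one, ← det_mul, on_mul hf.1, det_one]
  have hs : Function.Surjective π := hA.surj
  have : Nontrivial (Γ ⧸ N) := ⟨_, _, (hA.inv_iff (c := 1).2 (by decide +kernel)).1⟩
  have : IsSimpleGroup (Γ ⧸ N) := ⟨fun H hH => (G.simp _ (hH.comap π)).imp
    (fun e => eq_bot_iff.2 fun t ht => by obtain ⟨x, rfl⟩ := hs t; exact (hπ x).2 (e x ht))
    fun e => eq_top_iff.2 fun t _ => by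
      obtain ⟨x, rfl⟩ := hs t
      exact (e x).elim id fun e => by simpa [(hπ _).2 (.inr rfl)] using e⟩
  have tr : ∀ {ψ : Γ →* M6 K} {g} (hg : ON g), ψ = (Ψ hg).comp G.φ → A ψ π z →
      (∀ i j, i ≠ j → ∃ x σ, G.Mp g x σ ∧ (σ 0 = i ∧ σ 1 = j ∨ σ 0 = j ∧ σ 1 = i)) → X ψ pa ∨ X ψ pb := fun hg e hA h =>
    let ⟨x, _, h1, h2⟩ := h 2 4 (by decide); hA.tr ⟨x, e ▸ mp_sp G hg h1⟩ h2
  obtain ⟨c3, ⟨L, _, _, hL, θ, hθ⟩, hr⟩ := hA.main3 G.hh (fun s hs' => by
      obtain ⟨x, rfl⟩ := hs s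
      have h5 := (hπ _).1 ((map_mul π x x).trans hs'.2)
      have h6 := not_or.1 (mt (hπ x).2 hs'.1)
      refine isConj_iff.1 (IsConj.symm ?_)
      rcases h2 x (h5.resolve_right fun e => G.h2 x (by rw [← map_mul, e, G.hm])) h6.1 h6.2 with e | e
      · exact π.map_isConj e
      · simpa [(hπ _).2 (.inr rfl)] using π.map_isConj e)
    (tr hf.1 rfl hA h3) (tr hp.1 (Ψ_pa G hf.1 hp.1).symm (hA.conjH G.hh) h4)
  refine ⟨c3, ⟨L, _, _, hL, θ.comp π, hθ.2.comp hs, fun x => (map_eq_one_iff θ hθ.1).trans (hπ x)⟩, f, hf, fun x i j => ?_⟩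
  obtain ⟨M, hM⟩ := hr x
  rw [← Ψ_apply hf.1, show Ψ hf.1 (G.φ x) = _ from hM, cz_apply]
  induction M i j using Int.induction_on with
  | zero => simp
  | succ n ih => push_cast at ih ⊢; linear_combination ih + (n ^ 2 + n) * c3
  | pred n ih => push_cast at ih ⊢; linear_combination ih - (n ^ 2 + n) * c3

end Cfsg.Agent.H4.L34
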