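import Cfsg.Agent.H4.NM1

/-! The class equation for the extension by `S₄`. -/

set_option autoImplicit false

namespace Cfsg.Agent.H4.NM

open Subgroup Cfsg.Agent.MH Cfsg.Agent.H1.Mit Cfsg.Agent.H1.N1 Equiv

universe u

variable {T : Type u} [Group T] [Finite T] {x t : T} {M Z : Subgroup T} {Ro : T → Prop} {p : ℕ} {ψ : M →* S4}

theorem NT.cdvd (h : NT Ro t M Z ψ) (G : LG Ro p) (x1 : x ≠ 1) (n : x ∉ CC T) : Nat.card (Cn x) ∣ 24 * Nat.card Z := by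
  have k : ∀ z ∈ Z, z ≠ 1 → Cn z ≤ M := fun z a b y c => (h.sg a b c).1
  rw [← h.card_M]
  by_cases o : x ∈ OO T
  · obtain ⟨y, hy, y1, oy, n⟩ := G.not_cc o n
    obtain ⟨g, hg⟩ := h.conj_Z oy y1 n
    exact (card_dvd_of_le fun a ha => mem_Cn.2 (G.oo_comm o hy ha)).trans (card_Cn_conj g y ▸ card_dvd_of_le (k _ hg (by simpa)))
  by_cases x2 : x * x = 1
  · exact card_Cn_inv h.cls ⟨x1, x2⟩ ▸ card_dvd_of_le h.ct
  obtain ⟨g, hg⟩ := h.cls.conj_mem fun e => o ⟨x2, e⟩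
  rw [← card_Cn_conj g]
  have x2 := mt (conj_mul_self (g := g)).1 x2
  generalize g * x * g⁻¹ = y at *
  refine card_dvd_of_le (le_trans (fun a ha => mem_Cn_comm.1 (mul_mem (mem_Cn_comm.1 ha) (mem_Cn_comm.1 ha))) ?_)
  rcases h.cases hg x2 with e | e
  exacts [k _ e.2.1 x2, e.2.2.2.2 ▸ h.ct]

theorem gnm (aN : ArN.{u}) (aA : ArA.{u}) : GNM.{u} := fun T _ _ Ro p t M Z ψ G (h : NT Ro t M Z ψ) => by
  classical
  obtain ⟨s, e, n, a1, a2, a3, a4, -⟩ := G.classes h.inv h.cls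
  have co : ∀ i ∈ s, (n i).Coprime (24 * Nat.card Z) := fun i hi => (a1 i hi).2.1 ▸ h.co (a1 i hi).1
  have hN : Nat.card T = 24 * Nat.card Z * ∏ i ∈ s, n i := Nat.dvd_antisymm (card_dvd_of_Cn fun x x1 => by
    by_cases o : x ∈ CC T
    · obtain ⟨i, hi, k⟩ := a2 x o
      exact k.2.1 ▸ (Finset.dvd_prod_of_mem n hi).mul_left _
    · exact (h.cdvd G x1 o).mul_right _) (a3.mul_dvd (h.card_M ▸ card_subgroup_dvd_card _) co)
  have eq : tau s e n = 7 / 12 + (Nat.card Z : ℚ)⁻¹ / 24 - (Nat.card T : ℚ)⁻¹ - ((OO T \ CC T).ncard : ℚ) / Nat.card T := by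
    rw [← a4, ← h.count, eq_sub_iff_add_eq, ← add_div, ← Nat.cast_add, add_comm,
      Set.ncard_sdiff_add_ncard_of_subset (fun _ a => a.1) (Set.toFinite _)]
  rw [h.card_ct] at a3
  rcases h.split G with k | ⟨c3, k, o3, z, hz, z1, w, w1, w3, g, g1, g2⟩ <;> rw [k] at eq
  · exact (aN T s e n _ _ a3 h.c35 (fun i hi => (co i hi).coprime_dvd_right (by omega)) hN (by linarith)).elim
  rw [c3] at a3 hN eq
  have N := aA T s e n _ a3 hN (by push_cast at eq; linarith)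
  obtain ⟨u1, u2, u3⟩ := h.tu
  obtain ⟨⟨s1, s2, s3⟩, -⟩ := s4_gen _ u1 u2 u3 _ w1 w3
  have tt := h.inv.2
  have sg : Perm.sign (ψ (w * ⟨t, h.tM⟩ * w⁻¹)) = 1 := by simp [u3]
  have c1 : z * t = t * z := mem_Cn.1 (h.cz u3 hz)
  have c2 : z * w = w * z := mem_Cn.1 (h.cz (s4_three _ w1 w3).1 hz)
  have nn : (w : T) * t * (w : T)⁻¹ ≠ t := fun k => s1 (by
    rw [← map_inv, ← map_mul, ← map_mul]; exact congrArg ψ (Subtype.ext k))
  have c3' : (w : T) * t * (w : T)⁻¹ * t = t * (w * t * (w : T)⁻¹) := by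
    have := h.ie (a := ⟨t, h.tM⟩ * (w * ⟨t, h.tM⟩ * w⁻¹) * (⟨t, h.tM⟩ : M)⁻¹) (b := w * ⟨t, h.tM⟩ * w⁻¹)
      (conj_mul_self.2 (conj_mul_self.2 tt)) (conj_mul_self.2 tt) sg (by
        rw [map_mul, map_mul, s4_v _ _ u3 u2 sg (by simpa using u2), map_inv, mul_inv_cancel_right])
    exact (mul_inv_eq_iff_eq_mul.1 this).symm
  have c5 : t * (w * t * (w : T)⁻¹) * (t * (w * t * (w : T)⁻¹)) = 1 := by
    rw [mul_assoc, ← mul_assoc _ t, c3', mul_assoc t, conj_mul_self.2 tt, mul_one, tt]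
  have c6 : Perm.sign (ψ (⟨t, h.tM⟩ * (w * ⟨t, h.tM⟩ * w⁻¹))) = 1 := by rw [map_mul, map_mul, sg, u3, one_mul]
  have c4 : (w : T) * (w * t * (w : T)⁻¹) * (w : T)⁻¹ = t * (w * t * (w : T)⁻¹) :=
    h.ie (a := w * (w * ⟨t, h.tM⟩ * w⁻¹) * w⁻¹) (b := ⟨t, h.tM⟩ * (w * ⟨t, h.tM⟩ * w⁻¹))
      (conj_mul_self.2 (conj_mul_self.2 tt)) c5 c6 (by simpa using s2)
  have ez : z = g⁻¹ * w * g := by rw [← g1]; group
  have ew : (w : T) = g⁻¹ * z⁻¹ * g := by rw [← g2]; group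
  have z3 : ∀ z ∈ Z, z ^ 3 = 1 := fun z a => c3 ▸ pow_card_mem a
  refine ⟨z, w, t, g⁻¹ * t * g, N, z1, z3 z hz, by rw [← g1]; simpa, by rw [← g1, conj_pow, z3 z hz]; simp, h.rot z hz,
    g1 ▸ G.ro_conj _ _ (h.rot z hz), c2, h.inv, by simpa using h.inv.conj g⁻¹, c1, ?_, nn, c3', c4,
    fun e => nn (mul_right_cancel (b := g) (by rw [ez] at e; simpa [mul_assoc] using e)),
    by rw [ez]; simpa [mul_assoc] using congrArg (· * g) c3',
    by rw [ez]; simpa only [mul_assoc, mul_inv_rev, inv_inv, mul_inv_cancel_left, mul_right_inj] using congrArg (· * g) c4,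
    fun a ha => ?_, fun a a5 ra => by_contra fun b1 => ?_⟩
  · rw [ew]; simp only [mul_assoc, mul_inv_cancel_left, mul_right_inj]
    rw [← mul_assoc, ← mul_assoc, (show Commute z t from c1).inv_left.eq]
  · let b : M := ⟨a, h.ct ha⟩ * (w * ⟨t, h.tM⟩ * w⁻¹) * ⟨a, h.ct ha⟩⁻¹
    have b2 : (b : T) * b = 1 := conj_mul_self.2 (conj_mul_self.2 tt)
    rcases s3 (ψ b) (by simp [b, u3]) ((h.sq b).2 (b2 ▸ Z.one_mem)) with k | k | k | k
    · exact absurd (h.zo ((h.ker b).1 k) b2) ((h.inv.conj _).conj a).1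
    · refine absurd ?_ nn
      simpa [b] using (h.ie (a := b) (b := ⟨t, h.tM⟩) b2 tt u3 k).trans (conj_eq_of_Cn ha).symm
    · exact .inl (h.ie (a := b) (b := w * ⟨t, h.tM⟩ * w⁻¹) b2 (conj_mul_self.2 tt) sg (by simpa using k))
    · exact .inr (h.ie (a := b) (b := ⟨t, h.tM⟩ * (w * ⟨t, h.tM⟩ * w⁻¹)) b2 c5 c6 (by simpa using k))
  have : Fact (Nat.Prime 5) := ⟨by norm_num⟩
  have o5 := orderOf_eq_prime a5 b1
  have n3 : a ^ 3 ≠ 1 := fun k => absurd (o5 ▸ orderOf_dvd_of_pow_eq_one k) (by decide)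
  have oa : Od a := ⟨5, by decide, a5⟩
  obtain ⟨i, hi, hx⟩ := a2 a (by_contra fun k => n3 (o3 a ⟨by_contra fun k => by
    obtain ⟨j, hj⟩ := h.conj_Z oa b1 k
    exact n3 (by simpa using z3 _ hj), k⟩))
  have d1 : n i ∣ 35 := (by omega : ∏ i ∈ s, n i = 35) ▸ Finset.dvd_prod_of_mem n hi
  have d2 : 5 ∣ n i := o5 ▸ hx.2.1 ▸ orderOf_dvd_card_of_mem (self_mem_Cn a)
  have d3 := hx.dvd
  have d4 := a3.two i hi
  have d5 := N ▸ a3.den i hi
  generalize n i = m, e i = l at *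
  obtain rfl | rfl : m = 5 ∨ m = 35 := by have := Nat.le_of_dvd (by decide) d1; interval_cases m <;> omega
  · obtain ⟨μ, k⟩ := hx.1.2.card_eq
    have ez : Cn a = zpowers a := (eq_of_le_of_card_ge (zpowers_le.2 (self_mem_Cn a)) (by rw [Nat.card_zpowers, o5, hx.2.1])).symm
    have iv : ∀ b ∈ Nm (Cn a), b ∉ Cn a → b * a * b⁻¹ = a⁻¹ := fun b hb k =>
      (G.rc a b ra oa (ez ▸ Nm_conj hb (self_mem_Cn a))).resolve_left fun e => k (Cn_of_conj e)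
    obtain ⟨b, hb, hb'⟩ := SetLike.not_le_iff_exists.1 fun k : Nm (Cn a) ≤ Cn a => by
      have := card_le_of_le k
      rw [hx.2.1, hx.2.2] at this
      omega
    have := card_two le_normalizer hb hb' fun c hc d hd k k' => Cn_of_conj (by
      rw [show c * d * a * (c * d)⁻¹ = c * (d * a * d⁻¹) * c⁻¹ by group, iv d hd k', ← conj_inv, iv c hc k, inv_inv])
    rw [this, hx.2.1, N] at k
    omega
  obtain rfl : l = 2 := by have := Nat.le_of_dvd (by decide) d3; interval_cases l <;> omega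
  have a1 := hx.1.2.real_le (by rw [hx.2.1]) (by rw [hx.2.2]; decide)
  have a2 := h.cls.card h.inv
  have a3 := hx.tau G.gd
  rw [h.card_ct, c3, N] at a2
  rw [N, div_eq_iff (by norm_num)] at a3
  have a4 : {y | y ∈ OO T ∧ Cj a y}.ncard = 1224 := Nat.cast_injective (R := ℚ) (a3.trans (by norm_num))
  rw [show cls (OO T) (Cn a) = {y | y ∈ OO T ∧ Cj a y} from rfl, a4, hx.2.1, show {s : T | MH.Inv s}.ncard = 105 by omega] at a1
  omega

end Cfsg.Agent.H4.NM
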