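import Cfsg.Agent.H3.S7b

/-! A reflection of order seven forces the special linear group. -/

set_option autoImplicit false
set_option linter.unusedSectionVars false
set_option linter.unusedSimpArgs false

namespace Cfsg.Agent.H3.S7

open Matrix Subgroup Finset MulAction Cfsg.Agent.H4 Cfsg.Agent.H4.Mob Cfsg.Agent.H4.MobCard Cfsg.Agent.H4.Dick H8.L5g

variable {F : Type*} [Field F] [Fintype F]

/-- basis of the plane -/
def plP (F : Type*) [Field F] : Matrix I (Fin 2) F := of fun x j => if (x = 0 ↔ j = 0) then 1 else 0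
/-- coordinates on the plane -/
def plQ (F : Type*) [Field F] : Matrix (Fin 2) I F :=
  of fun j x => if j = 0 then (if x = 0 then 1 else 0) else if x = 0 then 0 else 6⁻¹

theorem plQP (h6 : (6 : F) ≠ 0) : plQ F * plP F = 1 := by
  ext i j
  rw [mul_apply]
  rw [← add_sum_erase _ _ (mem_univ 0), sum_congr rfl (g := fun _ => plQ F i 1 * plP F 1 j) fun x hx => by
    simp +decide [plP, plQ, ne_of_mem_erase hx]]
  fin_cases i <;> fin_cases j <;> simp +decide [plP, plQ, h6]

theorem plY (Y : Matrix (Fin 2) (Fin 2) F) (x y : I) : (plP F * Y * plQ F) x y =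
    Y (if x = 0 then 0 else 1) (if y = 0 then 0 else 1) * if y = 0 then 1 else 6⁻¹ := by
  by_cases hx : x = 0 <;> by_cases hy : y = 0 <;> simp [mul_apply, Fin.sum_univ_two, plP, plQ, hx, hy]

/-- the elements acting on the plane and by a scalar on its complement -/
def plS (M : Subgroup (G7 F)) : Subgroup (G7 F) where
  carrier := {g | g ∈ M ∧ g.val * (plP F * plQ F) = plP F * plQ F * g.val ∧
    ∃ l : F, g.val * (1 - plP F * plQ F) = l • (1 - plP F * plQ F)}
  one_mem' := ⟨one_mem _, by simp, 1, by simp⟩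
  mul_mem' := fun {g k} ⟨a1, a2, l, a3⟩ ⟨b1, b2, m, b3⟩ => ⟨mul_mem a1 b1, by
    rw [Units.val_mul, mul_assoc, b2, ← mul_assoc, a2, mul_assoc], m * l, by
    rw [Units.val_mul, mul_assoc, b3, mul_smul_comm, a3, smul_smul]⟩
  inv_mem' := fun {g} ⟨a1, a2, l, a3⟩ => ⟨inv_mem a1, (Commute.units_inv_left a2).eq, l⁻¹, by
    have e := congrArg (g⁻¹.val * ·) a3
    simp only [Units.inv_mul_cancel_left, mul_smul_comm] at e
    by_cases h : l = 0
    · rw [h, zero_smul] at e; simp [e]
    · rw [eq_inv_smul_iff₀ h, ← e]⟩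

/-- the action on the plane -/
def plR (h6 : (6 : F) ≠ 0) (M : Subgroup (G7 F)) : plS M →* GL (Fin 2) F := MonoidHom.toHomUnits
  { toFun g := plQ F * g.1.val * plP F
    map_one' := by simp [plQP h6]
    map_mul' x y := by
      have := congrArg (plQ F * · * (y.1.val * plP F)) x.2.2.1
      simp only [Matrix.mul_assoc, ← Matrix.mul_assoc (plQ F) (plP F), plQP h6, Matrix.one_mul] at this
      simp only [Subgroup.coe_mul, Units.val_mul, Matrix.mul_assoc, this] }

theorem plmem (h6 : (6 : F) ≠ 0) {M : Subgroup (G7 F)} {g : G7 F} (hg : g ∈ M) {c : F} {Y : Matrix (Fin 2) (Fin 2) F}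
    (e : g.val = c • 1 + plP F * Y * plQ F) : ∃ k : plS M, (plR h6 M k).val = c • 1 + Y := by
  have a : ∀ {n : Type} (X : Matrix (Fin 2) n F), plQ F * (plP F * X) = X := fun X => by
    rw [← Matrix.mul_assoc, plQP h6, Matrix.one_mul]
  refine ⟨⟨g, hg, ?_, c, ?_⟩, show plQ F * g.val * plP F = _ from ?_⟩ <;>
    simp [e, Matrix.mul_add, Matrix.add_mul, mul_sub, Matrix.mul_assoc, a, plQP h6, smul_sub]

theorem Hyp.plane {o : Om7 F} {p : ℕ} {M : Subgroup (G7 F)} (H : Hyp o p M) (h6 : (6 : F) ≠ 0) {c ρ : F}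
    (hd : Dg M fun y => if y = 0 then c * ρ else c) (h7 : ρ ^ 7 = 1) (h1 : ρ ≠ 1) : Big M := by
  have c0 : c ≠ 0 := by simpa +decide using hd.ne 1
  have r0 : ρ ≠ 0 := by rintro rfl; simp at h7
  have s0 := o.h7
  have hr := H.dshift hd 1 (-1) one_ne_zero
  obtain ⟨k, k1, k2⟩ := hd
  have e0 : k.val = c • 1 + single 0 0 (c * (ρ - 1)) := by
    ext i j
    by_cases h : i = j
    · by_cases h' : i = 0 <;> simp [k2, ← h, h', eq_comm (a := (0 : I))]; ring
    · rw [k2, Matrix.add_apply, single_apply_of_ne (h := fun e => h (e.1.symm.trans e.2))]; simp [h]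
  obtain ⟨x, hx⟩ := plmem h6 k1 (c := c) (Y := !![c * (ρ - 1), 0; 0, 0]) (by
    rw [e0]; congr 1; ext i j
    by_cases h : i = 0 <;> by_cases h' : j = 0 <;> simp [plY, h, h', single_apply, eq_comm (a := (0 : I))])
  obtain ⟨y, hy⟩ := plmem h6 (mul_mem (mul_mem H.f k1) (inv_mem H.f)) (c := c)
    (Y := (c * (ρ - 1) / 7) • !![1, 6; 1, 6]) (by
    rw [Units.val_mul, Units.val_mul, e0, mul_add, add_mul, mul_smul_comm, mul_one, smul_mul_assoc, Units.mul_inv, o.f_inv]
    congr 1; ext i j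
    have := o.GG
    rw [plY, mul_apply, sum_eq_single 0 (fun l _ hl => by simp [mul_single_apply_of_ne _ _ _ _ _ hl]) (by simp)]
    simp only [mul_single_apply_same, Units.val_mul, S7.z, mul_mo, o.f_apply, mul_zero, zero_mul, o.e_zero]
    by_cases h : i = 0 <;> by_cases h' : j = 0 <;> simp [h, h'] <;> field_simp <;> grind)
  have k0 : c * (ρ - 1) / 7 ≠ 0 := div_ne_zero (mul_ne_zero c0 (sub_ne_zero.2 h1)) s0
  obtain ⟨g, hg⟩ := H.d7 (N := (ProjGenLinGroup.mk.comp (plR h6 M)).range) (r := c * ρ) (s := c)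
    (h := by simp [c0, r0]) ⟨x, (mk_eq_mob _).trans (mob_congr (by simp [hx]; ring) (by simp [hx]) (by simp [hx])
      (by simp [hx]))⟩ (by rw [mul_pow, h7, mul_one]) (by simpa [c0]) ⟨y, mk_eq_mob _⟩ (by simpa [hy, h6] using k0)
      (by simpa [hy] using k0) (by
        by_contra! h
        simp [hy] at h
        have a1 : ρ = -6 := mul_left_cancel₀ c0 (by have := h.1; field_simp at this; grind)
        have a2 : 6 * ρ = -1 := mul_left_cancel₀ c0 (by have := h.2; field_simp at this; grind)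
        grind) (tr_mem_LS 1)
  obtain ⟨d, d0, e⟩ := of_tr hg
  have q1 : ((Fintype.card F - 1 : ℕ) : F) = -1 := by
    rw [Nat.cast_pred Fintype.card_pos, FiniteField.cast_card_eq_zero, zero_sub]
  have e1 : (plR h6 M (g ^ (Fintype.card F - 1))).val = !![1, -1; 0, 1] := by
    rw [map_pow, Units.val_pow_eq_pow_val, e, _root_.smul_pow, FiniteField.pow_card_sub_one_eq_one d d0, unitri_pow, q1]
    simp
  have e2 : (g ^ (Fintype.card F - 1)).1.val * (1 - plP F * plQ F) = 1 - plP F * plQ F := by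
    obtain ⟨-, -, l, hl⟩ := g.2
    have : ∀ n : ℕ, (g ^ n).1.val * (1 - plP F * plQ F) = l ^ n • (1 - plP F * plQ F) := fun n => by
      induction n with
      | zero => simp
      | succ n ih => rw [pow_succ, Subgroup.coe_mul, Units.val_mul, mul_assoc, hl, mul_smul_comm, ih, smul_smul, pow_succ']
    by_cases h : l = 0
    · have e := congrArg (g.1⁻¹.val * ·) hl
      simp only [Units.inv_mul_cancel_left, h, zero_smul, mul_zero] at e
      simp [e]
    · rw [this, FiniteField.pow_card_sub_one_eq_one l h, one_smul]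
  generalize g ^ (Fintype.card F - 1) = t at e1 e2
  have e3 : t.1.val = 1 + plP F * !![0, (-1 : F); 0, 0] * plQ F := by
    have a : plP F * plQ F * t.1.val * (plP F * plQ F) = t.1.val * (plP F * plQ F) := by
      rw [← t.2.2.1, mul_assoc, Matrix.mul_assoc (plP F), ← Matrix.mul_assoc (plQ F), plQP h6, Matrix.one_mul]
    have b : plP F * (plQ F * t.1.val * plP F) * plQ F = plP F * !![1, (-1 : F); 0, 1] * plQ F :=
      congrArg (plP F * · * plQ F) e1
    rw [show (!![1, -1; 0, 1] : Matrix (Fin 2) (Fin 2) F) = 1 + !![0, -1; 0, 0] by simp [one_fin_two]] at b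
    simp only [Matrix.mul_add, Matrix.add_mul, Matrix.mul_one, mul_sub, Matrix.mul_assoc] at a b e2 ⊢
    rw [← sub_add_cancel t.1.val (t.1.val * (plP F * plQ F)), e2, ← a, b]; abel
  have n := hr.ne
  obtain ⟨r, r1, r2⟩ := hr
  refine H.root (i := 0) (j := 1) (c := (1 - ρ⁻¹) / 6) (by decide)
    (div_ne_zero (sub_ne_zero.2 fun e => h1 (inv_eq_one.1 e.symm)) h6)
    (mul_mem (mul_mem (mul_mem r1 t.2.1) (inv_mem r1)) (inv_mem t.2.1)) ?_
  rw [Units.val_mul, Units.mul_inv_eq_iff_eq_mul, Units.val_mul, Units.mul_inv_eq_iff_eq_mul, Units.val_mul, r2]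
  ext i j
  rw [add_mul, one_mul, mul_diagonal, diagonal_mul, Matrix.add_apply]
  by_cases hi : i = 0
  · subst hi
    rw [single_mul_apply_same, e3]
    by_cases a : j = 0
    · simp +decide [a, plY]
    by_cases b : j = 1
    · simp +decide [b, plY]; field_simp; ring
    simp +decide [plY, a, Ne.symm a, Ne.symm b, ← sub_eq_add_neg, sub_eq_zero, b, mul_comm]
  rw [single_mul_apply_of_ne _ _ _ _ _ hi, add_zero, mul_comm, e3]
  by_cases a : i = j
  · rw [a]
  by_cases b : j = 0 <;> simp [plY, hi, a, b]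

end Cfsg.Agent.H3.S7
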