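import Cfsg.Agent.H5.Odd
import Cfsg.Agent.H7.Basic

/-! Symplectic geometry over `ZMod 2`; sharply transitive sets; a dihedral lemma. -/

set_option autoImplicit false
set_option linter.unusedSectionVars false

namespace Cfsg.Agent.H4.E

open Module

theorem z2 (a : ZMod 2) : a = 0 ∨ a = 1 := by revert a; decide
theorem z2_ne {a : ZMod 2} : a ≠ 0 ↔ a = 1 := by revert a; decide
theorem z2_ne' {a : ZMod 2} : a ≠ 1 ↔ a = 0 := by revert a; decide
@[simp] theorem z2_add (a : ZMod 2) : a + a = 0 := by revert a; decide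
theorem z2_eq {a b : ZMod 2} : a + b = 0 ↔ a = b := by revert a b; decide

variable {W : Type*} [AddCommGroup W] [Module (ZMod 2) W]

@[simp] theorem aa (x : W) : x + x = 0 := ZModModule.add_self x
@[simp] theorem aa' (x y : W) : x + (x + y) = y := by rw [← add_assoc, aa, zero_add]
@[simp] theorem aa'' (x y : W) : x + y + y = x := by rw [add_assoc, aa, add_zero]
theorem add_eq_zero' {x y : W} : x + y = 0 ↔ x = y :=
  ⟨fun h => by rw [← aa'' x y, h, zero_add], fun h => h ▸ aa x⟩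
theorem eq_add_iff {x y z : W} : x = y + z ↔ x + y = z :=
  ⟨fun h => by rw [h, add_comm y, aa''], fun h => by rw [← h, add_comm x, aa']⟩

/-- a non-degenerate alternating form -/
structure Sp (W : Type*) [AddCommGroup W] [Module (ZMod 2) W] where
  f : W →ₗ[ZMod 2] W →ₗ[ZMod 2] ZMod 2
  alt : ∀ u, f u u = 0
  nd : ∀ u, u ≠ 0 → ∃ v, f v u = 1

namespace Sp
variable (S : Sp W)

attribute [simp] Sp.alt

theorem symm (u v : W) : S.f u v = S.f v u := by
  have := S.alt (u + v)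
  simp only [map_add, LinearMap.add_apply, S.alt, zero_add, add_zero] at this
  exact (z2_eq.1 this).symm

theorem step {P : W → Prop} (hP : ∀ u v, P u → P v → P (u + v)) {a b : W}
    (h1 : ∃ v, P v ∧ S.f v a = 1) (h2 : ∃ v, P v ∧ S.f v (a + b) = 1) :
    ∃ v, (P v ∧ S.f v b = 0) ∧ S.f v a = 1 := by
  obtain ⟨v, p1, e1⟩ := h1
  obtain ⟨w, p2, e2⟩ := h2
  rw [map_add] at e2
  rcases z2 (S.f v b) with e3 | e3
  · exact ⟨v, ⟨p1, e3⟩, e1⟩
  rcases z2 (S.f w b) with e4 | e4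
  · exact ⟨w, ⟨p2, e4⟩, by simpa [e4] using e2⟩
  · refine ⟨v + w, ⟨hP _ _ p1 p2, by simp [e3, e4]⟩, ?_⟩
    rw [e4, add_eq_right] at e2
    simp [e1, e2]

theorem ex2 {a b : W} (h0 : a ≠ 0) (h1 : a ≠ b) : ∃ v, S.f v b = 0 ∧ S.f v a = 1 := by
  simpa using S.step (P := fun _ => True) (by simp) (a := a) (b := b) (by simpa using S.nd a h0)
    (by simpa using S.nd _ (mt add_eq_zero'.1 h1))

theorem ex3 {a b c : W} (h0 : a ≠ 0) (h1 : a ≠ b) (h2 : a ≠ c) (h3 : a ≠ b + c) :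
    ∃ v, (S.f v b = 0 ∧ S.f v c = 0) ∧ S.f v a = 1 :=
  S.step (P := fun v => S.f v b = 0) (fun u v hu hv => by simp [hu, hv]) (S.ex2 h0 h1)
    (S.ex2 (mt add_eq_zero'.1 h2) fun e => h3 (by rw [← e, aa'']))

theorem ex4 {a b c d : W} (h0 : a ≠ 0) (h1 : a ≠ b) (h2 : a ≠ c) (h3 : a ≠ b + c)
    (h4 : a ≠ d) (h5 : a ≠ b + d) (h6 : a ≠ c + d) (h7 : a ≠ b + c + d) :
    ∃ v, ((S.f v b = 0 ∧ S.f v c = 0) ∧ S.f v d = 0) ∧ S.f v a = 1 :=
  S.step (P := fun v => S.f v b = 0 ∧ S.f v c = 0) (fun u v hu hv => by simp [hu, hv])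
    (S.ex3 h0 h1 h2 h3) (S.ex3 (mt add_eq_zero'.1 h4) (fun e => h5 (by rw [← e, aa'']))
      (fun e => h6 (by rw [← e, aa''])) fun e => h7 (by rw [← e, aa'']))

/-- prescribed values on two independent vectors -/
theorem ex22 {a b : W} (ha : a ≠ 0) (hb : b ≠ 0) (h : a ≠ b) (α β : ZMod 2) :
    ∃ v, S.f v a = α ∧ S.f v b = β := by
  obtain ⟨v, e1, e2⟩ := S.ex2 ha h
  obtain ⟨w, e3, e4⟩ := S.ex2 hb h.symm
  exact ⟨α • v + β • w, by simp [e2, e3], by simp [e1, e4]⟩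

theorem eq_of {a b : W} (h : ∀ v, S.f v a = S.f v b) : a = b := by
  by_contra e
  obtain ⟨v, hv⟩ := S.nd _ (mt add_eq_zero'.1 e)
  simp [h] at hv

theorem exists_Q [Module.Finite (ZMod 2) W] :
    ∃ Q : W → ZMod 2, Q 0 = 0 ∧ ∀ u v, Q (u + v) = Q u + Q v + S.f u v := by
  let b := finBasis (ZMod 2) W
  let B : W →ₗ[ZMod 2] W →ₗ[ZMod 2] ZMod 2 :=
    b.constr (ZMod 2) fun i => b.constr (ZMod 2) fun j => if i < j then S.f (b i) (b j) else 0
  have h : B + B.flip = S.f := b.ext fun i => b.ext fun j => by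
    simp only [B, LinearMap.add_apply, LinearMap.flip_apply, Basis.constr_basis]
    rcases lt_trichotomy i j with h | rfl | h
    · simp [h, h.not_gt]
    · simp
    · simp [h, h.not_gt, S.symm (b i)]
  refine ⟨fun u => B u u, by simp, fun u v => ?_⟩
  simp only [map_add, LinearMap.add_apply, ← h, LinearMap.flip_apply]; ring

theorem sum_Q [Fintype W] {Q : W → ZMod 2} (hQ : ∀ u v, Q (u + v) = Q u + Q v + S.f u v) {y z : W}
    (hy : y ≠ 0) (hz : z ≠ 0) (hyz : y ≠ z) (h : S.f y z = 0) : ∑ x, Q x = 0 := by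
  have h' : S.f z y = 0 := by rwa [S.symm]
  let u : W → W := fun x => if Q y + S.f x y = 0 then y else if Q z + S.f x z = 0 then z else y + z
  have h1 : ∀ x, u (x + u x) = u x := fun x => by
    have : S.f (u x) y = 0 ∧ S.f (u x) z = 0 := by
      simp only [u]; split_ifs <;> simp [h, h']
    conv_lhs => simp only [u, map_add, LinearMap.add_apply]
    change (if Q y + (_ + S.f (u x) y) = 0 then _ else if Q z + (_ + S.f (u x) z) = 0 then _ else _) = _
    rw [this.1, this.2, add_zero, add_zero]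
  refine Finset.sum_involution (fun x _ => x + u x) (fun x _ => ?_) (fun x _ _ => ?_)
    (fun _ _ => Finset.mem_univ _) fun x _ => by rw [h1, aa'']
  · rw [hQ, ← add_assoc, ← add_assoc, z2_add, zero_add]
    simp only [u]
    split_ifs with e1 e2
    · exact e1
    · exact e2
    · rw [hQ, map_add, h]
      linear_combination z2_ne.1 e1 + z2_ne.1 e2 + z2_add 1
  · simp only [u, ne_eq, add_eq_left]
    split_ifs
    exacts [hy, hz, mt add_eq_zero'.1 hyz]

/-- Müller–Nagy: no sharply transitive set of symplectic maps. -/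
theorem no_sharp [Finite W] {y z : W} (hy : y ≠ 0) (hz : z ≠ 0) (hyz : y ≠ z) (h : S.f y z = 0)
    {X : Type*} (φ : X → W → W) (h1 : ∀ g u v, φ g (u + v) = φ g u + φ g v)
    (h2 : ∀ g u v, S.f (φ g u) (φ g v) = S.f u v)
    (h3 : ∀ u v, u ≠ 0 → v ≠ 0 → ∃! g, φ g u = v) : False := by
  classical
  have := Fintype.ofFinite W
  obtain ⟨Q, Q0, hQ⟩ := S.exists_Q
  have h4 : ∀ g u, u ≠ 0 → φ g u ≠ 0 := fun g u hu e => by
    obtain ⟨v, hv⟩ := S.nd u hu
    rw [← h2 g, e] at hv; simp at hv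
  let e : ∀ u : W, u ≠ 0 → X ≃ {v : W // v ≠ 0} := fun u hu => Equiv.ofBijective (fun g => ⟨φ g u, h4 g u hu⟩)
    ⟨fun g g' e => (h3 u _ hu (h4 g u hu)).unique rfl (congrArg Subtype.val e).symm,
      fun v => (h3 u v hu v.2).exists.imp fun g hg => Subtype.ext hg⟩
  have : Fintype X := Fintype.ofEquiv _ (e y hy).symm
  have key : ∀ (R : W → ZMod 2) u, u ≠ 0 → ∑ g, R (φ g u) = ∑ v, R v - R 0 := fun R u hu => by
    rw [Fintype.sum_eq_add_sum_subtype_ne R 0, add_sub_cancel_left]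
    exact (e u hu).sum_comp fun v => R v
  obtain ⟨w, hw⟩ := S.nd y hy
  have hw0 : w ≠ 0 := by rintro rfl; simp at hw
  have e1 := key Q _ hy
  have e2 := key Q _ hw0
  have e3 := key Q (w + y) fun e => by rw [add_eq_zero'.1 e] at hw; simp at hw
  have e4 := key (fun _ => 1) _ hy
  simp only [h1, hQ, h2, hw, Finset.sum_add_distrib] at e3
  have e5 := S.sum_Q hQ hy hz hyz h
  have e6 : ∑ _v : W, (1 : ZMod 2) = 0 := Finset.sum_involution (fun x _ => x + y) (by simp)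
    (by simpa) (by simp) (by simp)
  rw [e1, e2, e4, e5, e6, Q0] at e3
  simp at e3

end Sp

/-! ### the dihedral lemma -/

section dih
variable {G : Type*} [Group G] [Finite G] {T : Subgroup G}

theorem sharp (hT : ∀ x ∈ T, x * x = 1)
    (hC : ∀ x ∈ T, x ≠ 1 → ∀ g, g * x = x * g → g ∈ Subgroup.normalizer (T : Set G))
    (hS : ∀ g, ∀ x ∈ T, g * x * g⁻¹ ∈ Subgroup.normalizer (T : Set G) → g * x * g⁻¹ ∈ T)
    {g : G} (hg : g ∉ Subgroup.normalizer (T : Set G)) :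
    ∃ X : Set G, X ⊆ Subgroup.normalizer (T : Set G) ∧
      ∀ s ∈ T, ∀ t ∈ T, s ≠ 1 → t ≠ 1 → ∃! h, h ∈ X ∧ h * s * h⁻¹ = t := by
  have hc : ∀ x ∈ T, ∀ y ∈ T, x * y = y * x := fun x hx y hy => by
    rw [← inv_eq_of_mul_eq_one_right (hT _ (T.mul_mem hx hy)), mul_inv_rev,
      inv_eq_of_mul_eq_one_right (hT _ hx), inv_eq_of_mul_eq_one_right (hT _ hy)]
  have hN : ∀ k x, x ∈ T → x ≠ 1 → k * x * k⁻¹ ∈ T → k ∈ Subgroup.normalizer (T : Set G) := by
    intro k x hx h1 h2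
    refine Subgroup.mem_normalizer_fintype fun y hy => hS _ _ hy (hC _ h2 (by simpa using h1) _ ?_)
    simp only [mul_assoc, inv_mul_cancel_left, ← mul_assoc y x, hc y hy x hx]
  -- the class of involutions
  let D : G → Prop := fun d => ∃ k, ∃ x ∈ T, x ≠ 1 ∧ d = k * x * k⁻¹
  have Dc : ∀ d k, D d → D (k * d * k⁻¹) := by
    rintro _ k ⟨l, x, hx, h1, rfl⟩; exact ⟨k * l, x, hx, h1, by group⟩
  have Dd : ∀ d, D d → d * d = 1 := by
    rintro _ ⟨l, x, hx, h1, rfl⟩; simp [mul_assoc, ← mul_assoc x x, hT x hx]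
  have hS' : ∀ d, D d → d ∈ Subgroup.normalizer (T : Set G) → d ∈ T := by
    rintro _ ⟨l, x, hx, -, rfl⟩; exact hS l x hx
  have Dm : ∀ d e, D d → D e → ∀ n : ℕ, D (d * (d * e) ^ n) := fun d e hd he n => by
    have h1 := inv_eq_of_mul_eq_one_right (Dd d hd)
    have h2 := inv_eq_of_mul_eq_one_right (Dd e he)
    have h3 : ∀ m : ℕ, d * (d * e) ^ m = ((d * e) ^ m)⁻¹ * d := fun m => by
      rw [← inv_pow, ← mul_inv_eq_iff_eq_mul, ← conj_pow, mul_inv_rev, h1, h2, ← mul_assoc, Dd d hd,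
        one_mul]
    rcases Nat.even_or_odd' n with ⟨m, rfl | rfl⟩
    · convert Dc d ((d * e) ^ m)⁻¹ hd using 1
      rw [two_mul, pow_add, ← mul_assoc, h3, inv_inv]
    · convert Dc e ((d * e) ^ m)⁻¹ he using 1
      rw [show 2 * m + 1 = m + (1 + m) by ring, pow_add, ← mul_assoc, h3, inv_inv, pow_add, pow_one]
      simp only [mul_assoc, ← mul_assoc d d, Dd d hd, one_mul]
  have half : ∀ d e u, D d → D e → d * u = u * d → (∃ n : ℕ, u = (d * e) ^ n) → ∀ k, k⁻¹ * d * k ∈ T →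
      k⁻¹ * u * k ∈ T := by
    rintro d e _ hd he h1 ⟨n, rfl⟩ k hk
    have h2 := Dc _ k⁻¹ (Dm d e hd he n)
    have h3 := hS' _ h2 (hC _ hk (by
      obtain ⟨l, x, -, h, e⟩ := Dc _ k⁻¹ hd
      rw [inv_inv] at e; simpa [e] using h) _ (by
        simpa [mul_assoc] using congrArg (· * k) h1.symm))
    simpa [mul_assoc] using T.mul_mem (T.inv_mem hk) h3
  have odd : ∀ d e k l, D d → D e → k⁻¹ * d * k ∈ T → l⁻¹ * e * l ∈ T →
      k⁻¹ * l ∉ Subgroup.normalizer (T : Set G) → Odd (orderOf (d * e)) := by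
    intro d e k l hd he h1 h2 h3
    by_contra h
    obtain ⟨m, m1, m2, m3, m4⟩ := H5.Odd.exists_central_involution (Dd d hd) (Dd e he) h
    have h4 := half d e _ hd he m3 ⟨m, rfl⟩ k h1
    have h5 := half e d _ he hd m4 ⟨m, by
      rw [← inv_eq_of_mul_eq_one_right m2, ← inv_pow, mul_inv_rev,
        inv_eq_of_mul_eq_one_right (Dd d hd), inv_eq_of_mul_eq_one_right (Dd e he)]⟩ l h2
    exact h3 (hN _ _ h5 (by simpa [mul_assoc, inv_mul_eq_one] using m1) (by simpa [mul_assoc] using h4))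
  refine ⟨{h | h ∈ Subgroup.normalizer (T : Set G) ∧ D (h * g⁻¹)}, fun h hh => hh.1,
    fun s hs t ht s1 t1 => ?_⟩
  have Ds : D (g * s * g⁻¹) := ⟨g, s, hs, s1, rfl⟩
  have Dt : D t := ⟨1, t, ht, t1, by simp⟩
  obtain ⟨n, v1, v2⟩ := H5.Odd.exists_conj_involution (Dd _ Ds) (Dd _ Dt)
    (odd _ _ g 1 Ds Dt (by simpa [mul_assoc]) (by simpa) (by simpa))
  have Dv := Dm _ _ Ds Dt n
  have hv : ∀ w, w * (g * s * g⁻¹) = (g * s * g⁻¹) * w → w * t = t * w →
      Commute w (g * s * g⁻¹ * (g * s * g⁻¹ * t) ^ n) := fun w (h1 : Commute _ _) (h2 : Commute _ _) =>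
    h1.mul_right ((h1.mul_right h2).pow_right n)
  generalize g * s * g⁻¹ * (g * s * g⁻¹ * t) ^ n = v at *
  have vi := inv_eq_of_mul_eq_one_right v1
  have e1 : v * g * s * (v * g)⁻¹ = t := by rw [← v2, mul_inv_rev, vi]; group
  refine ⟨v * g, ⟨⟨hN _ _ hs s1 (e1 ▸ ht), by simpa using Dv⟩, e1⟩, fun h ⟨⟨h1, h2⟩, h3⟩ => ?_⟩
  obtain ⟨v', rfl⟩ : ∃ v', h = v' * g := ⟨h * g⁻¹, by simp⟩
  rw [mul_inv_cancel_right] at h2
  have vi' := inv_eq_of_mul_eq_one_right (Dd _ h2)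
  have e2 : v' * (g * s * g⁻¹) * v' = t := by rw [← h3, mul_inv_rev, vi']; group
  have c1 : Commute (v * v') v := hv _ (by
      rw [mul_assoc v, eq_mul_inv_of_mul_eq e2, ← v2, vi']
      simp only [mul_assoc, ← mul_assoc v v, v1, one_mul]) (by
      conv_lhs => rw [← e2]
      conv_rhs => rw [← v2]
      simp only [mul_assoc, ← mul_assoc v' v', Dd _ h2, one_mul, ← mul_assoc v v, v1])
  obtain ⟨k, x, hx, x1, hk⟩ := id Dv
  obtain ⟨l, y, hy, y1, hl⟩ := id h2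
  by_contra hne
  have hne : v * v' ≠ 1 := fun e => hne (by rw [← vi', eq_inv_of_mul_eq_one_left e])
  have c2 : (v * v') ^ 2 = 1 := by
    rw [pow_two, ← mul_assoc, c1.eq, ← mul_assoc v v, v1, one_mul, Dd _ h2]
  refine absurd (odd v v' k l Dv h2 (by simpa [hk, mul_assoc]) (by simpa [hl, mul_assoc]) fun e => ?_)
    (by rw [orderOf_eq_prime c2 hne]; decide)
  have h4 : k⁻¹ * (v * v') * k ∈ T := by
    simpa [hk, hl, mul_assoc] using T.mul_mem hx ((Subgroup.mem_normalizer_iff.1 e y).1 hy)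
  have h5 := hN k _ h4 (fun e => hne (by simpa [mul_assoc] using congrArg (k * · * k⁻¹) e)) (by
    simpa [mul_assoc] using hS k _ h4 (by
      have := mul_mem (hN _ _ hs s1 (e1 ▸ ht)) (inv_mem h1)
      simpa [mul_assoc, vi'] using this))
  exact hg ((mul_mem_cancel_left (Subgroup.le_normalizer
    (hk ▸ (Subgroup.mem_normalizer_iff.1 h5 x).1 hx))).1 (hN _ _ hs s1 (e1 ▸ ht)))

end dih

end Cfsg.Agent.H4.E
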