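import Cfsg.Agent.H4.E9

/-! The real case: centralisers of non-singular vectors. -/

set_option autoImplicit false
set_option linter.unusedSectionVars false
set_option linter.unusedSimpArgs false

namespace Cfsg.Agent.H4.E

open Module Cfsg.Agent.Form QuadraticAlgebra

theorem unip_pow {F A : Type*} [Field F] [Ring A] [Algebra F A] {N : A} (h : N * N = 0) (k : ℕ) :
    (1 + N) ^ k = 1 + (k : F) • N := by
  induction k with
  | zero => simp
  | succ k ih => simp [pow_succ, ih, add_mul, mul_add, h, add_smul]; abel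

theorem cast_card_pred (F : Type*) [Field F] [Fintype F] : ((Fintype.card F - 1 : ℕ) : F) = -1 := by
  rw [Nat.cast_pred Fintype.card_pos]; simp

theorem Gp.pow {F A : Type*} [Field F] [Ring A] [Algebra F A] {M : Gp F A} {a : A} (h : M.mem a) (k : ℕ) :
    M.mem (a ^ k) := by
  induction k with
  | zero => simpa using M.one
  | succ k ih => exact pow_succ a k ▸ M.mul ih h

variable {W : Type*} [AddCommGroup W] [Module (ZMod 2) W] {F V : Type*} [Field F] [AddCommGroup V] [Module F V]
  {D : ES F (End F V) W} {M : Gp F (End F V)} {y w : W} {β : V →ₗ[F] V →ₗ[F] F}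

theorem pow_on {T U : End F V} {P : V → Prop} (hU : ∀ z, P z → P (U z)) {c : F} (h : ∀ z, P z → T z = c • U z)
    (k : ℕ) : ∀ z, P z → (T ^ k) z = c ^ k • (U ^ k) z := by
  induction k with
  | zero => simp
  | succ k ih => intro z hz; simp [pow_succ, h z hz, ih _ (hU z hz), smul_smul, mul_comm]

open Classical in
/-- the complex square function -/
noncomputable def cq (u : W) : ZMod 2 := if u = 0 then 0 else 1

section cx
variable {K V' : Type*} [Field K] [Algebra F K] [AddCommGroup V'] [Module K V']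

open Classical in
/-- the rescaling -/
noncomputable def cc (D : ES F (End F V) W) (i : K) (u : W) : K := if u ≠ 0 ∧ D.q u = 0 then i else 1

theorem cc_sq {i : K} (hi : i * i = -1) (u : W) : cc D i u * cc D i u * sg K (D.q u) = sg K (cq u) := by
  by_cases h : u = 0
  · simp [cc, cq, h, D.q0]
  · rcases z2 (D.q u) with e | e <;> simp [cc, cq, h, e, hi]

theorem RM.Rel.pow {R : RM D y K V'} {a : End F V} {a' : End K V'} (h : R.Rel a a') (k : ℕ) :
    R.Rel (a ^ k) (a' ^ k) := by
  induction k with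
  | zero => simpa using R.rel_one
  | succ k ih => simpa only [pow_succ] using ih.mul h

variable [Finite W]

/-- the complex datum on the centraliser -/
noncomputable abbrev RM.cx (R : RM D y K V') (hw : D.f w y = 1) {i : K} (hi : i * i = -1) :
    ES K (End K V') (D.pp y w) := R.res hw (cc D i) cq (by simp [cc]) (cc_sq hi)

theorem RM.cx_q (R : RM D y K V') (hw : D.f w y = 1) {i : K} (hi : i * i = -1) (u : D.pp y w) (hu : u ≠ 0) :
    (R.cx hw hi).q u = 1 := if_neg (by simpa using hu)

theorem RM.cx_over (R : RM D y K V') (hw : D.f w y = 1) {i : K} (hi : i * i = -1) (h : D.Over M) (hy : D.q y = 1)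
    (qadd : ∀ u v, D.q (u + v) = D.q u + D.q v + D.f u v) : (R.cx hw hi).Over (R.resG M) :=
  RM.res_over h fun u _ e => by rcases z2 (D.q u) with h | h <;> simp [qadd, *]

end cx

/-- the field `F[i]` -/
abbrev QK (F : Type*) [Field F] := QuadraticAlgebra F (-1) 0

/-- hypotheses on the centraliser of `η y` -/
structure CH (β : V →ₗ[F] V →ₗ[F] F) (D : ES F (End F V) W) (M : Gp F (End F V)) (y : W) : Prop where
  q : D.q y = 1
  symm : ∀ x z, β x z = β z x
  nd : ∀ x, (∀ z, β x z = 0) → x = 0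
  hη : ∀ u, D.f u y = 0 → Iso β (D.η u)
  iso : ∀ g, M.mem g → g * D.η y = D.η y * g → ∃ c : F, c ≠ 0 ∧ ∀ x z, β (g x) (g z) = c * c * β x z

/-- the nilpotent part of the root elements of the centraliser -/
def nil (β : V →ₗ[F] V →ₗ[F] F) (Y : End F V) (d : V) : End F V :=
  (β.flip d).smulRight (Y d) - (β.flip (Y d)).smulRight d

@[simp] theorem nil_apply (Y : End F V) (d x : V) : nil β Y d x = β x d • Y d - β x (Y d) • d := rfl

/-- `M` contains the root elements of the centraliser -/
def BigY (β : V →ₗ[F] V →ₗ[F] F) (Y : End F V) (M : Gp F (End F V)) : Prop :=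
  ∀ d (γ : F), β d d = 0 → M.mem (1 + γ • nil β Y d)

namespace CH
variable (h : CH β D M y)
include h

theorem YY (x : V) : D.η y (D.η y x) = -x := LinearMap.congr_fun (D.sq1 h.q) x
theorem skew (x z : V) : β (D.η y x) z = -β x (D.η y z) := by simp [← h.hη y (D.alt y) (D.η y x), h.YY]
theorem self (x : V) : β x (D.η y x) = 0 :=
  (mul_eq_zero.1 (show (2 : F) * _ = 0 by linear_combination h.skew x x + h.symm x (D.η y x))).resolve_left D.two

theorem dual {j c μ : F} (hj : j * j = -1) (c0 : c ≠ 0) {T U U' : End F V} (hT : T * D.η y = D.η y * T)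
    (hU : U * D.η y = D.η y * U) (h1 : U * U' = 1) (h2 : U' * U = 1) (iT : ∀ x z, β (T x) (T z) = μ * β x z)
    (iU : Iso β U) (e : ∀ z, (j • D.η y) z = z → T z = c • U z) (z : V) (hz : (j • D.η y) z = -z) :
    T z = (μ / c) • U z := by
  have e' : U' * D.η y = D.η y * U' := by rw [← mul_one (U' * _), ← h1, mul_assoc, ← rc hU, r1 h2]
  have cm : ∀ {T : End F V}, T * D.η y = D.η y * T → ∀ x, (j • D.η y) (T x) = T ((j • D.η y) x) := fun h x => by
    simp [← End.mul_apply, h]
  refine sub_eq_zero.1 (h.nd _ fun x => ?_)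
  refine LinearMap.congr_fun (ext_J D.two (J := j • D.η y) (by simp [smul_smul, D.sq1 h.q, hj]) (b := 0)
    (fun x hx => ?_) fun x hx => ?_) x
  · have a1 := e (U' x) (by rw [cm e', hx])
    have a2 : U (U' x) = x := LinearMap.congr_fun h1 x
    have a3 := iT z (U' x)
    have a4 := iU z (U' x)
    rw [a1, a2] at a3
    simp only [a2, map_smul, smul_eq_mul, map_sub, LinearMap.sub_apply, LinearMap.smul_apply] at a3 a4 ⊢
    field_simp
    simp only [LinearMap.zero_apply]
    linear_combination a3 - μ * a4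
  · have a1 : (j • D.η y) (T z - (μ / c) • U z) = -(T z - (μ / c) • U z) := by
      rw [map_sub, map_smul, cm hT, cm hU, hz]; simp; abel
    generalize T z - (μ / c) • U z = t at a1
    have a2 := congrArg (β · x) a1
    have a3 := congrArg (β t) hx
    simp only [LinearMap.smul_apply, map_smul, smul_eq_mul, h.skew, map_neg, LinearMap.neg_apply] at a2 a3
    exact (mul_eq_zero.1 (show 2 * β t x = 0 by linear_combination a2 + a3)).resolve_left D.two

theorem nil_sq {d : V} (hd : β d d = 0) : nil β (D.η y) d * nil β (D.η y) d = 0 :=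
  LinearMap.ext fun x => by simp [h.skew, h.YY, h.self, hd]

theorem nil_comm (d : V) : nil β (D.η y) d * D.η y = D.η y * nil β (D.η y) d :=
  LinearMap.ext fun x => by simp [h.skew, h.YY]; module

theorem nil_iso {d : V} (hd : β d d = 0) (γ : F) : Iso β (1 + γ • nil β (D.η y) d) := fun x z => by
  simp [h.skew d (D.η y d), h.skew d d, h.YY, h.self, hd, h.symm d z, h.symm (D.η y d) z]
  ring

variable [Finite W] [Finite F] [FiniteDimensional F V]

theorem split (hp : (Nat.card F).Prime) (hO : D.Over M) (qadd : ∀ u v, D.q (u + v) = D.q u + D.q v + D.f u v) {n : ℕ}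
    (hW : Nat.card W = 4 ^ (n + 3)) {j : F} (hj : j * j = -1) : D.Iw M y ∨ BigY β (D.η y) M := by
  have hy := D.ne_of_q h.q
  obtain ⟨w, hw⟩ := D.nd y hy
  have hj' : j * j * sg F (D.q y) = 1 := by simp [hj, h.q]
  have JJ : j • D.η y * j • D.η y = 1 := by simp [smul_smul, D.sq1 h.q, hj]
  refine (lin_main (fun V _ _ _ W _ _ D hq hW _ M hM => H8.C6.base_lin D hq hW hp hM) hj n _ _
    ((ES.rm hy hj').cx hw hj) (RM.cx_q _ hw hj) (by have := Sp.card_pp hw; rw [hW, pow_succ'] at this; omega) _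
    (RM.cx_over _ hw hj hO h.q qadd)).imp (fun H g hg e u hu => ?_) fun H d γ hd => ?_
  · obtain ⟨g', hg'⟩ := (ES.rm hy hj').ex g e
    obtain ⟨v, d, h1, h2⟩ := RM.pull ⟨e, hg'⟩ (H g' (RM.Rel.mem ⟨e, hg'⟩ hg)) hu
    obtain ⟨k, -, k1, k2⟩ := M.inv hg
    have e' : k * D.η y = D.η y * k := by rw [← mul_one (k * _), ← k1, mul_assoc, ← rc e, r1 k2]
    have kk : ∀ x, g (k x) = x := LinearMap.congr_fun k1
    have a1 : ∀ z, (j • D.η y) z = z → (g * D.η u * k) z = d • D.η v z := fun z hz => by
      have m : k z ∈ D.Vp y j := ES.mem_Vp.2 (by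
        rw [← End.mul_apply, ← e', End.mul_apply, ← map_smul]; exact congrArg k hz)
      have a1 := (RM.Rel.mul ⟨e, hg'⟩ ((ES.rm hy hj').rel_φ hu)).2 ⟨_, m⟩
      have a2 := ((((ES.rm hy hj').rel_φ h1).mul ⟨e, hg'⟩).smul d).2 ⟨_, m⟩
      exact a1.symm.trans ((h2 ▸ a2).trans (congrArg (d • D.η v ·) (kk z)))
    have a2 : ∀ z, (j • D.η y) ((1 + j • D.η y) z) = (1 + j • D.η y) z := fun z => ES.mem_Vp.1 (ES.proj_mem hj' z)
    have d0 : d ≠ 0 := by
      rintro rfl
      exact ES.proj_ne (D := D) hy j ((((Gp.isUnit hg).mul (D.isUnit u)).mul (.of_mul_eq_one _ k2)).mul_right_eq_zero.1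
        (LinearMap.ext fun z => (a1 _ (a2 z)).trans (zero_smul ..)))
    obtain ⟨c, -, hc⟩ := h.iso g hg e
    have a3 := h.dual (μ := 1) hj d0 (by rw [mul_assoc, e', ← mul_assoc, mul_assoc g, D.comm0 hu, ← mul_assoc, e,
      mul_assoc, mul_assoc, mul_assoc]) (D.comm0 h1) (D.η_ι v) (D.ι_η v)
      (fun x z => by rw [End.mul_apply, End.mul_apply, End.mul_apply, End.mul_apply, hc, h.hη u hu, ← hc, kk, kk,
        one_mul]) (h.hη v h1) a1
    exact ES.cj_of_conj k2 (ES.glue hy hj' ⟨sg F (D.q u), by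
      simp only [mul_assoc, r1 k2, ← mul_assoc (D.η u) (D.η u), D.sq, smul_mul_assoc, mul_smul_comm, one_mul, k1]⟩ h1
      (.inl rfl) (LinearMap.ext fun z => a1 _ (a2 z)) (LinearMap.ext fun z => a3 _ (by simp [h.YY, smul_smul, hj])))
  · have := Fintype.ofFinite F
    obtain ⟨T, t1, t2, t3⟩ := ES.lift_of_res hy hj' (a := 1 + (-γ) • nil β (D.η y) d)
      (H ((γ * j) • β.flip d ∘ₗ Submodule.subtype _) ⟨_, ES.proj_mem hj' d⟩ (by simp [hd, h.skew, h.self])) fun z => by
        have : β z (D.η y d) = j * β z d := by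
          nth_rewrite 1 [← ES.mem_Vp.1 z.2]; simp [h.hη y (D.alt y) _ _]
        simp [this]
        match_scalars <;> first | ring1 | linear_combination γ * β z d * hj
    have j0 : j ≠ 0 := by rintro rfl; simp at hj
    replace t2 : T * D.η y = D.η y * T := smul_right_injective _ j0 (by simpa using t2)
    obtain ⟨c, c0, hc⟩ := h.iso T t1 t2
    have N := h.nil_sq hd
    have UY : (1 + (-γ) • nil β (D.η y) d) * D.η y = D.η y * (1 + (-γ) • nil β (D.η y) d) := by
      simp only [add_mul, mul_add, one_mul, mul_one, smul_mul_assoc, mul_smul_comm, h.nil_comm]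
    have t4 := h.dual hj one_ne_zero t2 UY (by simpa using H8.C6.unip_inv N (-γ)) (H8.C6.unip_inv N γ) hc
      (h.nil_iso hd _) (by simpa using t3)
    have cm : ∀ z, (j • D.η y) ((1 + (-γ) • nil β (D.η y) d) z) = (1 + (-γ) • nil β (D.η y) d) ((j • D.η y) z) :=
      fun z => by simpa [smul_smul, -nil_apply] using congrArg (j • ·) (LinearMap.congr_fun UY z).symm
    have U : (1 + (-γ) • nil β (D.η y) d) ^ (Fintype.card F - 1) = 1 + γ • nil β (D.η y) d := by
      rw [unip_pow (F := F) (by simp [N]), cast_card_pred, smul_smul]; simp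
    convert Gp.pow t1 (Fintype.card F - 1) using 1
    refine ext_J D.two JJ (fun z hz => ?_) fun z hz => ?_
    · rw [pow_on (P := fun z => (j • D.η y) z = z) (fun z hz => by rw [cm, hz]) (c := 1) (by simpa using t3) _ z hz,
        U, one_pow, one_smul]
    · rw [pow_on (P := fun z => (j • D.η y) z = -z) (fun z hz => by rw [cm, hz, map_neg]) t4 _ z hz, U,
        FiniteField.pow_card_sub_one_eq_one _ (by simp [c0]), one_smul]

theorem nonsplit (hp : (Nat.card F).Prime) (hO : D.Over M) (qadd : ∀ u v, D.q (u + v) = D.q u + D.q v + D.f u v)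
    {n : ℕ} (hW : Nat.card W = 4 ^ (n + 3)) (hj : ∀ j : F, j * j ≠ -1) : D.Iw M y ∨ BigY β (D.η y) M := by
  have hy := D.ne_of_q h.q
  obtain ⟨w, hw⟩ := D.nd y hy
  have : Fact (∀ r : F, r ^ 2 ≠ -1 + 0 * r) := ⟨fun r => by simpa [pow_two] using hj r⟩
  let _ : Module (QK F) V := Module.compHom V (lift ⟨D.η y, by simp [D.sq1 h.q]⟩ : (QK F) →ₐ[F] End F V).toRingHom
  have sm : ∀ (k : (QK F)) (v : V), k • v = k.re • v + k.im • D.η y v := fun _ _ => rfl
  have : Finite V := Module.finite_of_finite F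
  have : Finite (QK F) := Finite.of_equiv _ (equivProd _ _).symm
  have : FiniteDimensional (QK F) V := Module.Finite.of_finite
  let R : RM D y (QK F) V :=
    { ι := AddMonoidHom.id V
      inj := Function.injective_id
      smul := fun c v => by simp [sm]
      κ := ω
      hκ := fun v => by simp [sm]
      ex := fun a e => ⟨⟨a.toAddHom, fun k v => by simp [sm, ← End.mul_apply, e]⟩, fun v => rfl⟩
      surj := fun a => ⟨⟨a.toAddHom, fun c v => by simpa [sm] using a.map_smul (algebraMap F (QK F) c) v⟩,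
        LinearMap.ext fun v => by simpa [sm] using a.map_smul ω v, fun v => rfl⟩
      nt := by
        by_contra hc
        rw [not_nontrivial_iff_subsingleton] at hc
        exact D.nt (Subsingleton.elim _ _) }
  have h2 : (2 : (QK F)) ≠ 0 := R.two
  let S : PQ (FP.unit (starRingEnd (QK F)) star_star) V := PQ.ofHerm _ _ 2⁻¹ (by
      rw [map_inv₀, map_ofNat, ← two_mul, mul_inv_cancel₀ h2]) (fun u v => ⟨β u v, β u (D.η y v)⟩)
    (fun u v x => by ext <;> simp) (fun c u v => by ext <;> simp [sm, h.skew, h.YY] <;> ring)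
    fun u v => by ext <;> simp [starRingEnd_apply, h.symm u v, h.symm v (D.η y u), h.skew]
  have SB : ∀ u v, S.B u v = ⟨β u v, β u (D.η y v)⟩ := fun _ _ => rfl
  have hω : (ω : (QK F)) * ω = -1 := by ext <;> simp
  have hσ : ∀ i : (QK F), i * i = -1 → starRingEnd (QK F) i = -i := fun i hi => by
    rcases mul_self_eq_mul_self_iff.1 (hi.trans hω.symm) with rfl | rfl <;> ext <;> simp [starRingEnd_apply]
  have hR : ∀ {a a'}, R.Rel a a' → ∀ c, (∀ x z, β (a x) (a z) = c * β x z) →
      ∀ x z, S.B (a' x) (a' z) = algebraMap F (QK F) c * S.B x z := fun {a a'} e c hc x z => by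
    have : ∀ x, a' x = a x := e.2
    ext <;> simp [SB, this, hc, ← show a (D.η y z) = D.η y (a z) from LinearMap.congr_fun e.1 z]
  have hne : ∃ a, starRingEnd (QK F) a ≠ a :=
    ⟨ω, fun e => h2 (by have := hσ _ hω; linear_combination ω * e - ω * this + 2 * hω)⟩
  refine (unit_main (fun _ _ _ _ _ _ _ D h1 hW _ _ hM _ h => H8.C6.base_unit hp
    (by rw [Nat.card_congr (equivProd _ _), Nat.card_prod, pow_two]) hne h.nd D h1 hW h.hη hM h.iso) hne hσ hω n _ _
    (R.cx hw hω) (RM.cx_q _ hw hω) (by have := Sp.card_pp hw; rw [hW, pow_succ'] at this; omega) _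
    (RM.cx_over _ hw hω hO h.q qadd) S ⟨fun x hx => h.nd x fun z => congrArg re (hx z), fun u x z => ?_, ?_⟩).imp
    (fun H g hg e u hu => ?_) fun H d γ hd => ?_
  · have := hR (R.rel_φ u.2.1) 1 (fun x z => by rw [one_mul, h.hη u u.2.1]) x z
    have c1 : cc D (ω : (QK F)) (u : W) * starRingEnd (QK F) (cc D ω (u : W)) = 1 := by
      unfold cc; split_ifs
      · rw [hσ _ hω]; linear_combination -hω
      · simp
    simp only [RM.res_η, LinearMap.smul_apply, PQ.B_smul_left, PQ.B_smul_right, FP.unit_σ, this, map_one]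
    linear_combination S.B x z * c1
  · rintro _ ⟨T, T', c, c0, h1, h2, rfl⟩
    obtain ⟨d, d0, h3⟩ := h.iso T h1 h2.1
    refine ⟨c * algebraMap F (QK F) d, mul_ne_zero c0 ((map_ne_zero _).2 d0), fun a b => ?_⟩
    have : starRingEnd (QK F) (algebraMap F (QK F) d) = algebraMap F (QK F) d := by ext <;> simp [starRingEnd_apply]
    simp only [LinearMap.smul_apply, PQ.B_smul_left, PQ.B_smul_right, FP.unit_σ, map_mul, hR h2 _ h3, this]
    ring
  · obtain ⟨g', hg'⟩ := R.ex g e
    obtain ⟨v, d, h1, h3⟩ := RM.pull ⟨e, hg'⟩ (H g' (RM.Rel.mem ⟨e, hg'⟩ hg)) hu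
    have h4 : ∀ x, g (D.η u x) = d.re • D.η v (g x) + d.im • D.η y (D.η v (g x)) := fun x => by
      rw [← sm]
      exact ((RM.Rel.mul ⟨e, hg'⟩ (R.rel_φ hu)).2 x).symm.trans ((LinearMap.congr_fun h3 x).trans
        (congrArg (d • ·) (((R.rel_φ h1).mul ⟨e, hg'⟩).2 x)))
    have h5 : sg (QK F) (D.q u) = d * d * sg (QK F) (D.q v) := by
      have : g' * R.φ u * R.φ u = d • (R.φ v * (g' * R.φ u)) := by rw [h3, smul_mul_assoc, mul_assoc, h3]
      rw [mul_assoc, R.φ_sq hu, h3] at this
      simp only [mul_smul_comm, ← mul_assoc, R.φ_sq h1, smul_mul_assoc, smul_smul, mul_one, one_mul] at this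
      exact (R.cx hw hω).smul_cancel (Gp.isUnit (RM.Rel.mem ⟨e, hg'⟩ hg)) this
    have h6 : d.re = 0 ∨ d.im = 0 := by
      have : ∀ a, (sg (QK F) a).im = 0 := fun a => by rcases z2 a with rfl | rfl <;> simp
      have h6 := congrArg (fun t => (t * sg (QK F) (D.q v)).im) h5
      simp only [mul_assoc, sg_mul_self, ← sg_add, this, mul_one] at h6
      exact mul_eq_zero.1 ((mul_eq_zero.1 (show 2 * (d.re * d.im) = 0 by
        simp at h6; linear_combination -h6)).resolve_left D.two)
    rcases h6 with h6 | h6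
    · obtain ⟨c, -, hc⟩ := D.mul y v
      exact ⟨y + v, d.im * c, LinearMap.ext fun x => by
        simpa [h4, h6, mul_smul] using congrArg (d.im • ·) (LinearMap.congr_fun hc (g x))⟩
    · exact ⟨v, d.re, LinearMap.ext fun x => by simp [h4, h6]⟩
  · have := Fintype.ofFinite (QK F)
    obtain ⟨T, T', c, c0, h1, h3, e⟩ := H d (algebraMap F (QK F) (-γ) * ω) (by ext <;> simp [SB, hd, h.self])
      (by ext <;> simp [starRingEnd_apply])
    convert Gp.pow h1 (Fintype.card (QK F) - 1) using 1
    refine LinearMap.ext fun x => Eq.trans ?_ ((h3.pow _).2 x)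
    replace e := congrArg (· ^ (Fintype.card (QK F) - 1)) e
    simp only [smul_pow, FiniteField.pow_card_sub_one_eq_one c c0, one_smul] at e
    rw [← e, unip_pow (F := (QK F)) (LinearMap.ext fun x => by simp [show S.B d d = 0 by ext <;> simp [SB, hd, h.self]]),
      cast_card_pred]
    simp [R, SB, sm, h.YY]
    module

theorem main (hp : (Nat.card F).Prime) (hO : D.Over M) (qadd : ∀ u v, D.q (u + v) = D.q u + D.q v + D.f u v)
    {n : ℕ} (hW : Nat.card W = 4 ^ (n + 3)) : D.Iw M y ∨ BigY β (D.η y) M := by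
  by_cases hj : ∃ j : F, j * j = -1
  · exact h.split hp hO qadd hW hj.choose_spec
  · exact h.nonsplit hp hO qadd hW (by simpa using hj)

end CH

end Cfsg.Agent.H4.E
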