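import Cfsg.Agent.H4.E10
import Cfsg.Agent.H8.Proper

/-! The real case: the main theorems for symplectic and orthogonal groups. -/

set_option autoImplicit false
set_option linter.unusedSectionVars false
set_option linter.unusedSimpArgs false

namespace Cfsg.Agent.H4.E

open Module Cfsg.Agent.Form Cfsg.Agent.H7
open scoped Matrix MatrixGroups

universe u

variable {W : Type*} [AddCommGroup W] [Module (ZMod 2) W]

theorem Sp.g3' (S : Sp W) [Finite W] {q : W → ZMod 2} (qadd : ∀ u v, q (u + v) = q u + q v + S.f u v)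
    (h : 64 < Nat.card W ∨ 64 ≤ Nat.card W ∧ ∀ A : AddSubgroup W, (∀ u ∈ A, q u = 0) → Nat.card A < 8) : S.G3 q := by
  classical
  intro w a b c
  by_contra hc
  let φ : W →+ ZMod 2 × ZMod 2 × ZMod 2 := AddMonoidHom.mk' (fun v => (S.f v a, S.f v b, S.f v c)) (by simp)
  have hU : ∀ u, u ∈ φ.ker ↔ S.f u a = 0 ∧ S.f u b = 0 ∧ S.f u c = 0 := fun u => by simp [φ]
  have h1 : ∀ u ∈ φ.ker, q (w + u) = 0 := fun u hu => z2_ne'.1 fun e => hc ⟨_, e, by simp [(hU u).1 hu]⟩
  have h2 : ∀ u ∈ φ.ker, q u = S.f w u := fun u hu => by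
    have := h1 u hu
    rwa [qadd, show q w = 0 by simpa using h1 0 (zero_mem _), zero_add, z2_eq] at this
  have h3 : ∀ u ∈ φ.ker, ∀ v ∈ φ.ker, S.f u v = 0 := fun u hu v hv => by
    simpa [qadd, h2 u hu, h2 v hv] using h2 _ (add_mem hu hv)
  have h4 := AddSubgroup.card_eq_card_quotient_mul_card_addSubgroup φ.ker
  rw [Nat.card_congr (QuotientAddGroup.quotientKerEquivRange φ).toEquiv] at h4
  have h5 : Nat.card φ.range ≤ 8 := by simpa using φ.range.card_le_card_addGroup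
  rcases h with h | ⟨h, h'⟩
  · obtain ⟨u, u1, u2⟩ := Set.exists_mem_notMem_of_ncard_lt_ncard (s := {0, a, b, a + b, c, a + c, b + c, a + b + c})
      (t := φ.ker) (lt_of_le_of_lt (by
        repeat refine (Set.ncard_insert_le _ _).trans (Nat.succ_le_succ ?_)
        simp) (show 8 < Nat.card φ.ker by nlinarith))
    simp only [Set.mem_insert_iff, Set.mem_singleton_iff, not_or] at u2
    obtain ⟨v, ⟨⟨v1, v2⟩, v3⟩, v4⟩ := S.ex4 u2.1 u2.2.1 u2.2.2.1 u2.2.2.2.1 u2.2.2.2.2.1 u2.2.2.2.2.2.1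
      u2.2.2.2.2.2.2.1 u2.2.2.2.2.2.2.2
    simp [h3 v ((hU v).2 ⟨v1, v2, v3⟩) u u1] at v4
  by_cases e : ∃ t ∈ φ.ker, S.f w t = 1
  · obtain ⟨t, t1, t2⟩ := e
    let ψ : φ.ker →+ W := AddMonoidHom.mk' (fun u => u + S.f w u • (t + w)) fun u v => by simp [add_smul]; abel
    have := h' ψ.range (by
      rintro _ ⟨u, rfl⟩
      rcases z2 (S.f w u) with e | e
      · simp [ψ, e, h2 u u.2]
      · simpa [ψ, e, add_comm, add_left_comm] using h1 _ (add_mem u.2 t1))
    rw [← Nat.card_congr (AddMonoidHom.ofInjective (f := ψ) ((injective_iff_map_eq_zero ψ).2 fun u hu => by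
      rcases z2 (S.f w u) with e | e
      · simpa [ψ, e] using hu
      · simp only [ψ, e, AddMonoidHom.mk'_apply, one_smul, ← add_assoc, add_eq_zero'] at hu
        simp [← hu, h3 _ u.2 _ t1] at t2)).toEquiv] at this
    nlinarith
  · have := h' φ.ker fun u hu => (h2 u hu).trans (z2_ne'.1 fun e' => e ⟨u, hu, e'⟩)
    nlinarith

variable {F V : Type*} [Field F] [AddCommGroup V] [Module F V] {B β β' : V →ₗ[F] V →ₗ[F] F} {D : ES F (End F V) W}
  {M : Gp F (End F V)}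

theorem BigY.map {Y Y' k : End F V} (h : BigY β Y M) (hk : M.mem k) {c ν : F} (c0 : c ≠ 0) (ν0 : ν ≠ 0)
    (e : k * Y = c • (Y' * k)) (e' : ∀ x z, β' (k x) (k z) = ν * β x z) : BigY β' Y' M := fun d γ hd => by
  obtain ⟨k', h1, h2, h3⟩ := M.inv hk
  have a1 : ∀ x, k (k' x) = x := LinearMap.congr_fun h2
  have a2 : ∀ x z, β (k' x) z = ν⁻¹ * β' x (k z) := fun x z => by
    rw [← inv_mul_cancel_left₀ ν0 (β _ z), ← e', a1]
  have a3 : ∀ x, k (Y x) = c • Y' (k x) := LinearMap.congr_fun e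
  convert M.mul (M.mul hk (h (k' d) (γ * ν / c) (by simp [a2, a1, hd]))) h1 using 1
  ext x
  simp [a1, a2, a3]
  match_scalars <;> field_simp

variable [Finite W] [Finite F] [FiniteDimensional F V]

theorem RH.main (hR : RH B D M) (hp : (Nat.card F).Prime) (hO : D.Over M) (h3 : D.G3 D.q) {n : ℕ}
    (hW : Nat.card W = 4 ^ (n + 3)) (β : W → V →ₗ[F] V →ₗ[F] F) (hβ : ∀ y, D.q y = 1 → CH (β y) D M y)
    (hc : ∀ y z k (c : F), M.mem k → c ≠ 0 → k * D.η y = c • (D.η z * k) → ∃ ν ≠ 0, ∀ x x', β z (k x) (k x') = ν * β y x x') :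
    (∀ g, M.mem g → D.Nrm g) ∨ ∀ y, D.q y = 1 → BigY (β y) (D.η y) M := by
  have : Finite (End F V) := Module.finite_of_finite F
  have h64 : 64 ≤ Nat.card W := hW ▸ Nat.pow_le_pow_right (n := 4) (i := 3) (by norm_num) (by omega)
  refine or_iff_not_imp_right.2 fun hn g hg => ?_
  have hS : ∀ y, D.q y = 1 → D.Iw M y := fun y hy => ((hβ y hy).main hp hO hR.qadd hW).resolve_right fun h =>
    hn fun z hz => by
      obtain ⟨k, hk, c, e⟩ := ES.exists_cj hO h3 hy hz fun u v _ _ _ => by simp [hR.qadd, *]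
      obtain ⟨ν, ν0, e'⟩ := hc y z k c hk (ES.cj_ne (Gp.isUnit hk) e) e
      exact h.map hk (ES.cj_ne (Gp.isUnit hk) e) ν0 e e'
  exact ES.core hO hR.hq h3 h64 (fun x hx => (z2 (D.q x)).elim (hR.sing hO h3 (by omega) hS hx) (hS x)) hg

/-! ### orthogonal groups -/

theorem om_main {Q : QuadraticForm F V} (hR : RH Q.polarBilin D M) (hp : (Nat.card F).Prime) (hO : D.Over M)
    (h3 : D.G3 D.q) {n : ℕ} (hW : Nat.card W = 4 ^ (n + 3)) : (∀ g, M.mem g → D.Nrm g) ∨ H8.Om Q ≤ M.sub := by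
  refine (hR.main hp hO h3 hW (fun _ => Q.polarBilin) (fun y hy => ⟨hy, QuadraticMap.polar_comm Q, hR.nd,
    fun u _ => hR.hη u, fun g hg _ => hR.iso g hg⟩) fun y z k c hk _ _ => ?_).imp_right fun h => ?_
  · obtain ⟨c, c0, e⟩ := hR.iso k hk
    exact ⟨_, mul_ne_zero c0 c0, e⟩
  refine H8.Om_le_of_siegel hR.nd (by
    have := D.finrank_sq
    by_contra hc
    have : finrank F V ^ 2 ≤ 4 ^ 2 := Nat.pow_le_pow_left (by omega) 2
    have : 4 ^ 3 ≤ 4 ^ (n + 3) := Nat.pow_le_pow_right (by norm_num) (by omega)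
    omega) fun u v hu huv => ?_
  by_cases u0 : u = 0
  · convert M.sub.one_mem
    ext x; rw [H8.siegel_apply hu huv]; simp [u0]
  have key : ∀ X : End F V, ∀ γ : F, ∃ t, (QuadraticMap.polar Q u t = 0 ∧ H8.siegel Q u t ∈ M.sub) ∧
      ∀ z, Q.polarBilin t z = γ * (Q.polarBilin (X u) z - Q.polarBilin u (X z)) := fun X => by
    have hX : X ∈ Submodule.span F (Set.range D.η) := D.span ▸ trivial
    have z0 : QuadraticMap.polar Q u 0 = 0 ∧ H8.siegel Q u 0 ∈ M.sub := ⟨by simp, H8.siegel_zero (Q := Q) u ▸ one_mem _⟩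
    induction hX using Submodule.span_induction with
    | mem X hX =>
      obtain ⟨y, rfl⟩ := hX
      intro γ
      have a1 : ∀ z, Q.polarBilin u (D.η y z) = sg F (D.q y) * Q.polarBilin (D.η y u) z := fun z => by
        rw [← hR.hη y u, show D.η y (D.η y z) = _ from LinearMap.congr_fun (D.sq y) z]; simp
      rcases z2 (D.q y) with e | e
      · exact ⟨0, z0, fun z => by rw [a1, e]; simp⟩
      have a2 : QuadraticMap.polar Q u (D.η y u) = 0 := (mul_eq_zero.1 (show (2 : F) * _ = 0 by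
        have := a1 u
        simp only [e, sg_one, QuadraticMap.polarBilin_apply_apply, QuadraticMap.polar_comm Q (D.η y u)] at this
        linear_combination this)).resolve_left D.two
      have a3 : Q (D.η y u) = 0 := (mul_eq_zero.1 (show (2 : F) * _ = 0 by
        rw [← H8.pol_self]; exact (hR.hη y u u).trans (by simp [H8.pol_self, hu]))).resolve_left D.two
      refine ⟨(2 * γ) • D.η y u, ⟨by simp [a2], ?_⟩, fun z => by rw [a1, e]; simp; ring⟩
      rw [Gp.mem_sub]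
      convert h y e u (2 * γ) (by simp [H8.pol_self, hu]) using 1
      ext x
      simp [H8.siegel_apply hu (show QuadraticMap.polar Q u ((2 * γ) • D.η y u) = 0 by simp [a2]), H8.Q_smul, a3]
      module
    | zero => exact fun _ => ⟨0, z0, by simp⟩
    | add X Y _ _ h1 h2 =>
      intro γ
      obtain ⟨s, s1, s2⟩ := h1 γ
      obtain ⟨t, t1, t2⟩ := h2 γ
      exact ⟨s + t, ⟨by simp [s1.1, t1.1], H8.siegel_mul hu s1.1 t1.1 ▸ mul_mem s1.2 t1.2⟩, fun z => by
        simp only [map_add, LinearMap.add_apply, s2, t2]; ring⟩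
    | smul c X _ h1 =>
      intro γ
      obtain ⟨s, s1, s2⟩ := h1 (γ * c)
      exact ⟨s, s1, fun z => by simp only [map_smul, LinearMap.smul_apply, s2, smul_eq_mul]; ring⟩
  obtain ⟨u', hu'⟩ : ∃ u', Q.polarBilin u u' ≠ 0 := by by_contra hc; exact u0 (hR.nd u (by simpa using hc))
  obtain ⟨t, t1, t2⟩ := key ((Q.polarBilin.flip u').smulRight v) (Q.polarBilin u u')⁻¹
  rw [show v = t from sub_eq_zero.1 (hR.nd _ fun z => by
    rw [map_sub, LinearMap.sub_apply, t2]; simp at hu'; simp [huv, hu'])]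
  exact t1.2

/-! ### symplectic groups -/

theorem iso_gen (h2 : (2 : F) ≠ 0) (hs : ∀ x z, β x z = β z x) {U : Submodule F V} {q z : V} (hq : q ∈ U) (hz : z ∈ U)
    (h0 : β q q = 0) (h1 : β z q ≠ 0) {P : V → Prop} (add : ∀ u v, P u → P v → P (u + v))
    (h : ∀ v ∈ U, β v v = 0 → P v) (v : V) (hv : v ∈ U) : P v := by
  have key : ∀ v ∈ U, β v q ≠ 0 → P v := fun v hv e => by
    simpa using add _ _ (h (v - (β v v / (2 * β v q)) • q) (U.sub_mem hv (U.smul_mem _ hq)) (by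
      simp [h0, hs q v]; field_simp; ring)) (h ((β v v / (2 * β v q)) • q) (U.smul_mem _ hq) (by simp [h0]))
  by_cases e : β v q = 0
  · simpa using add _ _ (key (v + z) (U.add_mem hv hz) (by simpa [e])) (key (-z) (U.neg_mem hz) (by simpa))
  · exact key v hv e

theorem sp_fill {S : PQ (FP.symp F) V} (hS : S.Nondeg) (h2 : (2 : F) ≠ 0) {K : Subgroup (V ≃ₗ[F] V)} {J Y : End F V}
    (JJ : ∀ x, J (J x) = x) (YY : ∀ x, Y (Y x) = -x) (YJ : ∀ x, J (Y x) = Y (J x))
    (hJ : ∀ x z, S.B (J x) z = S.B x (J z)) (hY : ∀ x z, S.B (Y x) z = -S.B x (Y z))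
    (h : ∀ p q hpq, J p = p → J q = -q → S.B p (Y p) = 0 → S.B q (Y q) = 0 → ev S p q 0 hpq ∈ K)
    (e1 : ∃ p, p ≠ 0 ∧ J p = p ∧ S.B p (Y p) = 0) (e2 : ∃ p, p ≠ 0 ∧ J p = -p ∧ S.B p (Y p) = 0) (v : V)
    (hv : v + J v ≠ 0) : Ctr S K v := by
  have nd : ∀ (ε : F) p c, ε * ε = 1 → p ≠ 0 → J p = ε • p → ∃ z, J z = ε • z ∧ S.B z p = c := fun ε p c hε h0 h1 => by
    obtain ⟨z, hz⟩ := hS.exists_eq h0 (c / 2)
    refine ⟨z + ε • J z, by simp [JJ, smul_smul, hε, add_comm], ?_⟩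
    simp [hJ, h1, ← mul_assoc, hε, hz]; field_simp; ring
  have gen : ∀ (ε : F), ε * ε = 1 → (∃ p, p ≠ 0 ∧ J p = ε • p ∧ S.B p (Y p) = 0) → ∀ {P : V → Prop},
      (∀ u v, P u → P v → P (u + v)) → (∀ v, J v = ε • v → S.B v (Y v) = 0 → P v) → ∀ v, J v = ε • v → P v := by
    rintro ε hε ⟨p, p0, p1, p2⟩ P a1 a2 v hv
    obtain ⟨z, z1, z2⟩ := nd ε (Y p) 1 hε (fun e => p0 (by simpa [e] using YY p)) (by simp [YJ, p1])
    exact iso_gen (β := (sB S).compl₂ Y) (U := End.eigenspace J ε) h2 (fun x z => by simp [sB_swap (Y x) z, hY])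
      (End.mem_eigenspace_iff.2 p1) (End.mem_eigenspace_iff.2 z1) p2 (by simp [z2]) a1
      (fun v hv => a2 v (End.mem_eigenspace_iff.1 hv)) v (End.mem_eigenspace_iff.2 hv)
  have perp : ∀ {p q}, J p = p → J q = -q → S.B p q = 0 := perp_of_adj h2 hJ
  have step : ∀ (ε : F) d, ε * ε = 1 → (∃ p, p ≠ 0 ∧ J p = ε • p ∧ S.B p (Y p) = 0) → (∀ p, J p = ε • p → S.B p d = 0) →
      (∀ p hp, J p = ε • p → S.B p (Y p) = 0 → ev S d p 0 hp ∈ K) →
      Ctr S K d ∧ ∀ p hp, J p = ε • p → ev S d p 0 hp ∈ K := fun ε d hε ex a1 a2 => by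
    have b1 := gen ε hε ex (P := fun p => ∃ r hp, ev S d p r hp ∈ K)
      (by rintro u v ⟨r, hr, h⟩ ⟨r', hr', h'⟩; exact ⟨_, _, ev_mul_mem h h'⟩) fun p h h' => ⟨0, a1 p h, a2 _ _ h h'⟩
    have b2 : ∀ c, tv S d c ∈ K := fun c => by
      obtain ⟨p, p0, p1, -⟩ := ex
      obtain ⟨z, z1, z2⟩ := nd ε p (c / 2) hε p0 p1
      obtain ⟨r, hr, h⟩ := b1 p p1
      obtain ⟨r', hr', h'⟩ := b1 z z1
      simpa [z2, mul_div_cancel₀ c h2] using ev_comm_mem h h'
    refine ⟨ctr_iff.2 b2, fun p hp h => ?_⟩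
    obtain ⟨r, hr, h⟩ := b1 p h
    exact ev_congr_mem (ev_mul_mem h (ev_zero d (-r) ▸ b2 (-r))) rfl (by simp) (by simp)
  have fin := fun p (hp : J p = p) => step (-1) p (by simp) (by simpa using e2)
    (fun q hq => S.B_comm_zero (perp hp (by simpa using hq))) fun q hq h1 h3 => by
      rw [ev_swap]
      exact (step 1 q (by simp) (by simpa using e1) (fun p hp => perp (by simpa using hp) (by simpa using h1))
        fun p hp a b => ev_swap p q (S.B_comm_zero hp) ▸ h p q _ (by simpa using a) (by simpa using h1) b h3).2 p _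
          (by simpa using hp)
  obtain ⟨p, p1, p2⟩ := nd 1 (v + J v) (-1) (by simp) hv (by simp [JJ, add_comm])
  have a1 : J (v - J v) = -(v - J v) := by simp [JJ]
  have a2 : J (v + J v) = v + J v := by simp [JJ, add_comm]
  have := (fin _ a2).1.map ((fin p (by simpa using p1)).2 (v - J v) (S.B_comm_zero (perp (by simpa using p1) a1))
    (by simpa using a1)) (ev_mem _ _ _ _)
  rw [ev_apply, perp a2 a1, sB_swap p, p2] at this
  exact Ctr.of_smul (a := 2) (by simpa [two_smul] using this) h2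

theorem sp_main {S : PQ (FP.symp F) V} (hR : RH (sB S) D M) (hp : (Nat.card F).Prime) (hO : D.Over M)
    (h3 : D.G3 D.q) {n : ℕ} (hW : Nat.card W = 4 ^ (n + 3)) : (∀ g, M.mem g → D.Nrm g) ∨ BigS S M := by
  have sk : ∀ {y}, D.q y = 1 → ∀ x z, S.B (D.η y x) z = -S.B x (D.η y z) := fun {y} hy x z => by
    simpa [show D.η y (D.η y x) = -x from LinearMap.congr_fun (D.sq1 hy) x] using (hR.hη y (D.η y x) z).symm
  refine (hR.main hp hO h3 hW (fun y => (sB S).compl₂ (D.η y)) (fun y hy => ⟨hy, fun x z => by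
      simp [sB_swap (D.η y x) z, sk hy],
    fun x hx => hR.nd x fun z => by simpa [← End.mul_apply] using hx (D.ι y z), fun u hu x z => by
      simpa [← End.mul_apply, ← D.comm0 hu] using hR.hη u x (D.η y z), fun g hg e => (hR.iso g hg).imp fun c hc =>
      ⟨hc.1, fun x z => by simpa [← End.mul_apply, e] using hc.2 x (D.η y z)⟩⟩)
    fun y z k c hk c0 e => ?_).imp_right fun h d c => ?_
  · obtain ⟨d, d0, e'⟩ := hR.iso k hk
    refine ⟨d * d / c, by simp [d0, c0], fun x x' => ?_⟩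
    have := e' x (D.η y x')
    rw [show k (D.η y x') = _ from LinearMap.congr_fun e x'] at this
    simp at this ⊢
    field_simp
    linear_combination this
  have h16 : 16 < Nat.card W := hW ▸ Nat.pow_lt_pow_right (a := 4) (m := 2) (by norm_num) (by omega)
  obtain ⟨y, hy, -⟩ := h3 0 0 0 0
  obtain ⟨w, hw⟩ := D.nd y (D.ne_of_q hy)
  obtain ⟨y', hy', y1, y2, -⟩ := h3 0 y w w
  obtain ⟨t, t1, t2⟩ := D.ex22 (D.ne_of_q hy) (D.ne_of_q hy') (by rintro rfl; simp [D.symm w, y2] at hw) 1 1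
  obtain ⟨s, hs, s1, s2, -⟩ := h3 t y y' y
  obtain ⟨s', hs', s3, s4, s5⟩ := h3 0 y y' s
  simp only [map_zero, LinearMap.zero_apply, t1, t2] at y1 s1 s2 s3 s4 s5
  obtain ⟨a, rfl⟩ : ∃ a, y' = y + a := ⟨y + y', by simp⟩
  obtain ⟨z, rfl⟩ : ∃ z, s' = s + z := ⟨s + s', by simp⟩
  have ya : D.f a y = 0 := by simpa using y1
  have qa : D.q a = 0 := by simpa [hR.qadd, hy, D.symm y, ya] using hy'
  have zs : D.f z s = 0 := by simpa using s5
  have qz : D.q z = 0 := by simpa [hR.qadd, hs, D.symm s, zs] using hs'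
  have zy : D.f z y = 1 := (z2_eq.1 (by simpa [s1] using s3)).symm
  have sa : D.f s a = 0 := by simpa [s1] using s2
  have za : D.f z a = 0 := by simpa [s1, zy, sa] using s4
  have a0 : a ≠ 0 := by rintro rfl; simp [D.symm w, y2] at hw y2; simp [y2] at hw
  have AA : ∀ {a}, D.q a = 0 → ∀ x, D.η a (D.η a x) = x := fun h => LinearMap.congr_fun (D.sq0 h)
  have YY : ∀ x, D.η y (D.η y x) = -x := LinearMap.congr_fun (D.sq1 hy)
  have YA : ∀ x, D.η a (D.η y x) = D.η y (D.η a x) := LinearMap.congr_fun (D.comm0 ya)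
  have ad : ∀ {a}, D.q a = 0 → ∀ x z, S.B (D.η a x) z = S.B x (D.η a z) := fun {a} h x z => by
    simpa [AA h] using (hR.hη a (D.η a x) z).symm
  have ex : ∀ ε : F, ε * ε = 1 → ∃ p, p ≠ 0 ∧ D.η a p = ε • p ∧ S.B p (D.η y p) = 0 := fun ε hε => by
    obtain ⟨x, hx⟩ := DFunLike.ne_iff.1 (ES.no_eig (D := D) (u := z) (by rintro rfl; simp at zy)
      (by rintro rfl; simp [ya] at zy) a0 ε (-1))
    have ZA : ∀ x, D.η a (D.η z x) = D.η z (D.η a x) := LinearMap.congr_fun (D.comm0 za).symm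
    refine ⟨(x + ε • D.η a x) + D.η z (x + ε • D.η a x), fun e => hx (by
      simpa [add_comm] using add_eq_zero_iff_eq_neg'.1 e), by simp [ZA, AA qa, smul_smul, hε, add_comm], ?_⟩
    generalize x + ε • D.η a x = x
    have a1 : D.η z (x + D.η z x) = x + D.η z x := by simp [AA qz, add_comm]
    generalize x + D.η z x = x at a1
    have := perp_of_adj D.two (ad qz) a1 (b := D.η y x) (by
      rw [← End.mul_apply, D.comm1 zy]; simp [a1])
    exact this
  have E : ∀ p q hpq, D.η a p = p → D.η a q = -q → S.B p (D.η y p) = 0 → S.B q (D.η y q) = 0 →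
      ev S p q 0 hpq ∈ M.sub := fun p q hpq h1 h2 h4 h5 => by
    obtain ⟨κ, -, e⟩ := D.mul y a
    have κ1 := sq_one_of D hR.nd (g := 1) one_ne_zero (by simp) ((hR.hη y).mul (hR.hη a)) (hR.hη (y + a))
      (by simpa using e)
    replace e : ∀ x, D.η (y + a) x = κ • D.η y (D.η a x) := fun x => by
      rw [show D.η y (D.η a x) = _ from LinearMap.congr_fun e x]; simp [smul_smul, κ1]
    have b1 := perp_of_adj D.two (ad qa) h1 (b := D.η y q) (by simp [YA, h2])
    have b2 := S.B_comm_zero (perp_of_adj D.two (ad qa) (a := D.η y p) (by simp [YA, h1]) h2)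
    have b3 := S.B_comm_zero hpq
    rw [Gp.mem_sub]
    convert M.mul (h y hy (D.η y (p + q)) 2⁻¹ (by simp [YY, sk hy, *]))
      (h _ hy' (D.η y (p + q)) (-2⁻¹) (by simp [YY, sk hy, e, YA, *])) using 1
    ext x
    simp [YY, sk hy, e, YA, *]
    have := D.two
    match_scalars <;> field_simp <;> rw [show κ ^ 2 = 1 by rw [pow_two, κ1]] <;> ring
  have : Ctr S M.sub d := by
    by_cases e : d + D.η a d = 0
    · by_cases d0 : d = 0
      · exact d0 ▸ ctr_zero
      refine sp_fill hR.nd D.two (J := -D.η a) (by simp [AA qa]) YY (by simp [YA]) (by simp [ad qa]) (sk hy)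
        (fun p q hpq h1 h2 h4 h5 => ev_swap q p (S.B_comm_zero hpq) ▸ E q p _ (by simpa using h2)
          (by simpa [neg_eq_iff_eq_neg] using h1) h5 h4) (by simpa [neg_eq_iff_eq_neg] using ex (-1) (by simp))
        (by simpa using ex 1 (by simp)) d fun e' => d0 (smul_right_injective V D.two ?_)
      simp only [LinearMap.neg_apply] at e'
      simp only [smul_zero]
      linear_combination (norm := module) e + e'
    · exact sp_fill hR.nd D.two (AA qa) YY YA (ad qa) (sk hy) E (by simpa using ex 1 (by simp))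
        (by simpa using ex (-1) (by simp)) d e
  convert Gp.mem_sub.1 (ctr_iff.1 this c) using 1
  exact LinearMap.ext fun x => by simp [smul_smul, mul_comm]

/-! ### matrix groups -/

section geo
variable {F : Type u} [Field F] [Fintype F]

theorem exists_pow (D : Sp W) (h : 16 < Nat.card W) : ∃ n, Nat.card W = 4 ^ (n + 3) := by
  obtain ⟨n, hn⟩ := D.exists_card
  rw [hn] at h
  have := (Nat.pow_lt_pow_iff_right (a := 4) (n := 2) (by norm_num)).1 h
  exact ⟨n - 3, by rw [hn]; congr 1; omega⟩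

/-- class C6 in `Sp_{2m}`, `m ≥ 5` -/
theorem geo_Sp {m p : ℕ} (hm : 5 ≤ m) (hp : p.Prime) (hodd : Odd p) (hF : Fintype.card F = p)
    {R : Subgroup (GL (Fin m ⊕ Fin m) F)} (hR : Geo.IsSymplecticTypeGroup 2 R)
    (hirr : Geo.ActsAbsolutelyIrreducibly (Geo.matrixSet R)) (hRD : R ≤ spGL m F) :
    Geo.IsMaximalIn (spGL m F) (Geo.subgroupNormalizer R ⊓ spGL m F) :=
  geo_Sp' (by omega) hR hirr (two_ne_zero_of_odd (hF ▸ hodd)) hRD fun _ _ _ _ D _ _ hW _ h1 h2 =>
    (exists_pow D.toSp (by nlinarith)).elim fun _ hn =>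
      sp_main h2 (by simpa [hF]) h1 (D.g3' h2.qadd (.inl (by nlinarith))) hn

/-- class C6 in `Sp_8` -/
theorem geo_Sp8 {p : ℕ} (hp : p.Prime) (hodd : Odd p) (hF : Fintype.card F = p)
    {R : Subgroup (GL (Fin 4 ⊕ Fin 4) F)} (hR : Geo.IsSymplecticTypeGroup 2 R)
    (hirr : Geo.ActsAbsolutelyIrreducibly (Geo.matrixSet R)) (hRD : R ≤ spGL 4 F) (hc : Nat.card R = 128)
    (hm : Geo.IsOfMinusType 3 R) : Geo.IsMaximalIn (spGL 4 F) (Geo.subgroupNormalizer R ⊓ spGL 4 F) := by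
  refine geo_Sp' (by omega) hR hirr (two_ne_zero_of_odd (hF ▸ hodd)) hRD fun W _ _ _ D π h hW _ h1 h2 =>
    sp_main (n := 0) h2 (by simpa [hF]) h1 (D.g3' h2.qadd (.inr ⟨hW.ge, fun A hA => ?_⟩)) hW
  have := hm (A.toSubgroup.comap π) ⟨⟨fun a b => Subtype.ext (rep_inj ?_)⟩⟩ fun r hr => rep_inj ?_
  · have e1 := (A.toSubgroup.comap π).card_mul_index
    have e2 := A.toSubgroup.card_mul_index
    rw [Subgroup.index_comap_of_surjective _ h.surj, hc] at e1
    rw [show Nat.card (Multiplicative W) = 64 from hW, show Nat.card A.toSubgroup = Nat.card A from rfl] at e2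
    by_contra hc
    have a1 := Nat.mul_le_mul_right A.toSubgroup.index (not_lt.1 hc)
    have a2 := Nat.mul_le_mul_right A.toSubgroup.index (Nat.le_of_lt_succ this)
    omega
  · obtain ⟨c, -, e⟩ := h.hπ a
    obtain ⟨d, -, e'⟩ := h.hπ b
    have := h2.qadd (π a).toAdd (π b).toAdd
    rw [hA _ (A.add_mem a.2 b.2), hA _ a.2, hA _ b.2, zero_add, zero_add] at this
    simp [e, e', D.comm0 this.symm, smul_comm c]
  · obtain ⟨c, -, e⟩ := h.hπ r
    have := sq_one_of D h2.nd (g := 1) one_ne_zero (by simp) (a := rep R r)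
      (PQ.B_isom ((mem_spGL_iff _ _).1 (hRD r.2))) (h2.hη _) (by simpa using e)
    simp [e, D.sq0 (hA _ hr), smul_smul, this]

theorem half_cube {A : Type*} [Ring A] [Algebra F A] (h2 : (2 : F) ≠ 0) {Y Z : A} (hY : Y * Y = -1) (hZ : Z * Z = -1)
    (h : Z * Y = -(Y * Z)) {s : A} (e : s = (2 : F)⁻¹ • ((1 + Y) * (1 + Z))) : s = Y * Y * (s * s * (s * s)) := by
  have : s * s = s - 1 := by
    simp only [e, mul_add, add_mul, smul_mul_assoc, mul_smul_comm, mul_assoc, mul_one, one_mul, mul_neg, neg_mul,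
      hY, hZ, rn hY, rn hZ, h, ra h, neg_neg]
    match_scalars <;> field_simp <;> ring
  rw [hY, this, sub_mul, mul_sub s, this]; noncomm_ring

/-- class C6 in `Ω_n`, `n ≥ 9` -/
theorem geo_Om {ι : Type} [Fintype ι] [DecidableEq ι] (hn : 9 ≤ Fintype.card ι) {Q : (ι → F) → F}
    (hQ : Geo.IsNondegenerateQuadraticForm Q) {p : ℕ} (hp : p.Prime) (hodd : Odd p) (hF : Fintype.card F = p)
    {R : Subgroup (GL ι F)} (hR : Geo.IsSymplecticTypeGroup 2 R)
    (hirr : Geo.ActsAbsolutelyIrreducibly (Geo.matrixSet R)) (hRD : R ≤ isometryGroup F Q) :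
    Geo.IsMaximalIn (Geo.omegaGL Q) (Geo.subgroupNormalizer R ⊓ Geo.omegaGL Q) := by
  have : Fact (Nat.Prime 2) := ⟨Nat.prime_two⟩
  have := hR.pGroup.isNilpotent
  have hne := H8.omega_not_le_subgroupNormalizer hQ (by omega) hRD (not_comm_of_absIrred (by omega) hirr)
  obtain ⟨Q, rfl, hN⟩ := H8.exists_quadraticForm hQ
  have h2 := two_ne_zero_of_odd (hF ▸ hodd)
  have h5 : 5 ≤ finrank F (ι → F) := by simp; omega
  rw [H8.isometryGroup_eq] at hRD
  obtain ⟨W, _, _, _, D, π, h, hW, hη, hN'⟩ := geo_real hR hirr h2 (by omega) (B := Q.polarBilin) hN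
    fun r => H8.OG_pol (hRD r.2)
  have og : ∀ g : (ι → F) ≃ₗ[F] (ι → F), Iso Q.polarBilin (g : _ →ₗ[F] _) → g ∈ H8.OG Q := fun g hg x =>
    mul_left_cancel₀ h2 (by rw [← H8.pol_self, ← H8.pol_self]; exact hg x x)
  have h3 := D.g3' (qadd_of (B := Q.polarBilin) hN hη) (.inl (by nlinarith))
  obtain ⟨n, hn'⟩ := exists_pow D.toSp (by nlinarith)
  refine isMaximalIn_of_equiv toLE _ _ (fun g => g ∈ H8.Om Q) (fun g => D.Nrm g ∧ g ∈ H8.Om Q)
    (fun g => by rw [H8.omegaGL_eq]; rfl) (fun g => by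
      rw [Subgroup.mem_inf, H8.omegaGL_eq]
      exact and_congr_left fun hg => hN' g (H8.OG_pol (H8.Om_le_OG hg)))
    (fun g h => h.2) (not_le_inf_of_not_le hne) fun M h1 h4 => ?_
  have h6 := fun g hg hg' => h1 g ⟨hg', hg⟩
  refine (om_main (rh_ofSub (B := Q.polarBilin) hN hη fun g hg => H8.OG_pol (H8.Om_le_OG (h4 g hg))) (by simpa [hF])
    (ES.Over.of_anti (fun y z ε ε' hy hz e => over_of h6 hy hz fun g hg => ?_) (fun y z hy hz => ?_)
      fun u hu e => ?_) h3 hn').imp (fun h g hg => ⟨h _ (Gp.mem_ofSub hg), h4 g hg⟩)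
    fun h g hg => mem_of_ofSub h4 h6 hg (h hg)
  · have g1 := og g (hg ▸ Iso.half D.two (sg_sq hy ε) (sg_sq hz ε') ((hη y).sg ε) ((hη z).sg ε'))
    obtain ⟨r, hr⟩ := h.hη y
    convert mul_mem (H8.sq_mem_Om hN h5 (hRD r.2)) (H8.sq_mem_Om hN h5 (mul_mem g1 g1)) using 1
    have := half_cube h2 (sg_sq hy ε) (sg_sq hz ε') (LinearMap.ext fun x => by
      simp [show D.η z (D.η y x) = _ from LinearMap.congr_fun (D.comm1 ((D.symm _ _).trans e)) x,
        smul_comm (sg F ε)]) hg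
    rw [sg_sq hy, ← D.sq1 hy, hr] at this
    exact LinearEquiv.toLinearMap_injective this
  · obtain ⟨x, h1, h2⟩ : ∃ x, D.f x y = 1 ∧ D.f x z = 1 := by
      by_cases e : y = z
      · simpa [e] using D.nd z (D.ne_of_q hz)
      · exact D.ex22 (D.ne_of_q hy) (D.ne_of_q hz) e 1 1
    obtain ⟨x, x1, x2, x3, -⟩ := h3 x y z z
    exact ⟨x, x1, x2.trans h1, x3.trans h2⟩
  · obtain ⟨y, y1, y2, -⟩ := h3 0 u u u
    exact ⟨y, y1, by simp [qadd_of (B := Q.polarBilin) hN hη, *]⟩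

end geo

end Cfsg.Agent.H4.E
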