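import Cfsg.Agent.H4.E1

/-! The group theoretic core: centralisers of elements of `T` normalise `T`, hence `T` is normal. -/

set_option autoImplicit false
set_option linter.unusedSectionVars false

namespace Cfsg.Agent.H4.E

open Module

variable {W : Type*} [AddCommGroup W] [Module (ZMod 2) W]

namespace Sp
variable (S : Sp W)

/-- transvection -/
def τ (y v : W) : W := v + S.f v y • y

theorem τ0 {y v : W} (h : S.f v y = 0) : S.τ y v = v := by simp [τ, h]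
theorem τ1 {y v : W} (h : S.f v y = 1) : S.τ y v = v + y := by simp [τ, h]

theorem τ0' {y v : W} (h : S.f y v = 0) : S.τ y v = v := S.τ0 ((S.symm _ _).trans h)
theorem τ1' {y v : W} (h : S.f y v = 1) : S.τ y v = v + y := S.τ1 ((S.symm _ _).trans h)

theorem repr [Finite W] (φ : W →+ ZMod 2) : ∃ r, ∀ v, S.f v r = φ v := by
  have h : Function.Injective S.f.flip := fun a b e => S.eq_of fun v => LinearMap.congr_fun e v
  obtain ⟨r, hr⟩ := (LinearMap.injective_iff_surjective_of_finrank_eq_finrank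
    (Subspace.dual_finrank_eq).symm).1 h (φ.toZModLinearMap 2)
  exact ⟨r, fun v => LinearMap.congr_fun hr v⟩

theorem exists_perp [Finite W] {I : AddSubgroup W} (h : I ≠ ⊤) : ∃ r, r ≠ 0 ∧ ∀ v ∈ I, S.f v r = 0 := by
  obtain ⟨φ, h1, h2⟩ := Submodule.exists_le_ker_of_lt_top (AddSubgroup.toZModSubmodule 2 I)
    (lt_top_iff_ne_top.2 (by simpa using h))
  obtain ⟨r, hr⟩ := S.repr φ.toAddMonoidHom
  exact ⟨r, fun e => h1 (by ext v; simpa [e] using (hr v).symm), fun v hv => (hr v).trans (h2 hv)⟩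

theorem ex11 {x v r : W} (h1 : v ≠ 0) (h2 : v ≠ x) (h3 : r ≠ 0) (h4 : r ≠ x) :
    ∃ w, S.f w x = 0 ∧ S.f w v = 1 ∧ S.f w r = 1 := by
  obtain ⟨w1, a1, a2⟩ := S.ex2 h1 h2
  obtain ⟨w2, b1, b2⟩ := S.ex2 h3 h4
  rcases z2 (S.f w1 r) with e | e
  · rcases z2 (S.f w2 v) with e' | e'
    · exact ⟨w1 + w2, by simp [*]⟩
    · exact ⟨w2, b1, e', b2⟩
  · exact ⟨w1, a1, a2, e⟩

/-- every affine subspace of codimension at most three contains a good vector -/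
def G3 (q : W → ZMod 2) : Prop :=
  ∀ w a b c, ∃ y, q y = 1 ∧ S.f y a = S.f w a ∧ S.f y b = S.f w b ∧ S.f y c = S.f w c

end Sp

theorem exists_fixed [Finite W] (h : 64 ≤ Nat.card W) (σ : W →+ W) (hσ : ∀ v, σ (σ v) = v) (a b : W) :
    ∃ v, σ v = v ∧ v ≠ 0 ∧ v ≠ a ∧ v ≠ b ∧ v ≠ a + b := by
  classical
  by_contra hc
  push Not at hc
  let φ := σ + AddMonoidHom.id W
  have h1 : Nat.card φ.ker ≤ 4 := by
    refine le_trans (Set.ncard_le_ncard (s := φ.ker) (t := {0, a, b, a + b}) fun v hv => ?_) ?_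
    · have := hc v (add_eq_zero'.1 hv)
      simp only [Set.mem_insert_iff, Set.mem_singleton_iff]; tauto
    · exact (Set.ncard_insert_le _ _).trans (Nat.succ_le_succ ((Set.ncard_insert_le _ _).trans
        (Nat.succ_le_succ ((Set.ncard_insert_le _ _).trans (by simp)))))
  have h2 : Nat.card φ.range ≤ Nat.card φ.ker := AddSubgroup.card_le_of_le (by
    rintro _ ⟨v, rfl⟩; simp [φ, hσ, add_comm])
  have h3 := AddSubgroup.card_eq_card_quotient_mul_card_addSubgroup φ.ker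
  rw [Nat.card_congr (QuotientAddGroup.quotientKerEquivRange φ).toEquiv] at h3
  nlinarith

/-- group datum -/
structure GD (G W : Type*) [Group G] [AddCommGroup W] [Module (ZMod 2) W] extends Sp W where
  ι : W → G
  q : W → ZMod 2
  q0 : q 0 = 0
  add : ∀ u v, ι (u + v) = ι u * ι v
  inj : ∀ u, ι u = 1 → u = 0
  hf : ∀ g u u' v v', g * ι u * g⁻¹ = ι u' → g * ι v * g⁻¹ = ι v' → f u' v' = f u v
  hq : ∀ g u u', g * ι u * g⁻¹ = ι u' → q u = 1 → q u' = 1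
  inner : ∀ g, (∀ u, g * ι u * g⁻¹ = ι u) → ∃ w, g = ι w
  c1 : ∀ y z, q y = 1 → q z = 1 → ∃ c, ∀ v, c * ι v * c⁻¹ = ι (toSp.τ y (toSp.τ z v))
  c2 : ∀ b w w', b * b = 1 → q w = 1 → b * ι w * b⁻¹ = ι w' → f w w' = 0 →
    ∃ c, c * b = b * c ∧ ∀ v, c * ι v * c⁻¹ = ι (toSp.τ w (toSp.τ w' v))

namespace GD
variable {G : Type*} [Group G] (D : GD G W)

@[simp] theorem ι0 : D.ι 0 = 1 := by simpa using (D.add 0 0).symm
@[simp] theorem ιι (u : W) : D.ι u * D.ι u = 1 := by rw [← D.add]; simp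
@[simp] theorem ι_inv (u : W) : (D.ι u)⁻¹ = D.ι u := inv_eq_of_mul_eq_one_right (D.ιι u)
theorem ι_inj {u v : W} (h : D.ι u = D.ι v) : u = v :=
  add_eq_zero'.1 (D.inj _ (by rw [D.add, h, D.ιι]))
theorem ι_comm (u v : W) : D.ι u * D.ι v = D.ι v * D.ι u := by rw [← D.add, add_comm, D.add]
theorem ι_conj (u v : W) : D.ι u * D.ι v * (D.ι u)⁻¹ = D.ι v := by rw [D.ι_comm]; group
theorem ne_of_q {y : W} (h : D.q y = 1) : y ≠ 0 := by rintro rfl; simp [D.q0] at h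

/-- the normaliser -/
def N (g : G) : Prop := ∀ u, ∃ v, g * D.ι u * g⁻¹ = D.ι v

/-- the action -/
noncomputable def σ (g : G) (u : W) : W := Classical.epsilon fun v => g * D.ι u * g⁻¹ = D.ι v

variable {D}
theorem σ_eq {g : G} {u v : W} (h : g * D.ι u * g⁻¹ = D.ι v) : D.σ g u = v :=
  D.ι_inj ((Classical.epsilon_spec (p := fun v => g * D.ι u * g⁻¹ = D.ι v) ⟨v, h⟩).symm.trans h)
theorem N.spec {g : G} (h : D.N g) (u : W) : g * D.ι u * g⁻¹ = D.ι (D.σ g u) := by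
  obtain ⟨v, hv⟩ := h u; rw [σ_eq hv, hv]
theorem N.add {g : G} (h : D.N g) (u v : W) : D.σ g (u + v) = D.σ g u + D.σ g v :=
  σ_eq (by rw [D.add, D.add, ← h.spec, ← h.spec]; group)
theorem N.f {g : G} (h : D.N g) (u v : W) : D.f (D.σ g u) (D.σ g v) = D.f u v :=
  D.hf g _ _ _ _ (h.spec u) (h.spec v)
theorem N.σ_mul {g k : G} (h : D.N g) (h' : D.N k) (u : W) : D.σ (g * k) u = D.σ g (D.σ k u) :=
  σ_eq (by rw [← h.spec, ← h'.spec]; group)
theorem N.mul {g k : G} (h : D.N g) (h' : D.N k) : D.N (g * k) := fun u =>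
  ⟨_, by rw [← h.spec (D.σ k u), ← h'.spec]; group⟩
theorem N_ι (w : W) : D.N (D.ι w) := fun u => ⟨u, D.ι_conj w u⟩
theorem σ_one (u : W) : D.σ 1 u = u := σ_eq (by simp)
theorem σ_zero (g : G) : D.σ g 0 = 0 := σ_eq (by simp)
theorem N.inj {g : G} (h : D.N g) : Function.Injective (D.σ g) := fun u v e => D.ι_inj (by
  have := h.spec u
  rw [e, ← h.spec] at this; simpa using this)
theorem N.inv [Finite W] {g : G} (h : D.N g) : D.N g⁻¹ := fun u => by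
  obtain ⟨v, rfl⟩ := Finite.injective_iff_surjective.1 h.inj u
  exact ⟨v, by rw [← h.spec]; group⟩
theorem N.q {g : G} (h : D.N g) (u : W) : D.q (D.σ g u) = D.q u := by
  rcases z2 (D.q u) with e | e
  · rw [e, ← z2_ne']
    intro e'
    simpa [e] using D.hq g⁻¹ _ u (by rw [← h.spec]; group) e'
  · rw [e, D.hq g _ _ (h.spec u) e]
theorem N.σσ {g : G} (h : D.N g) (hg : g * g = 1) (u : W) : D.σ g (D.σ g u) = u := by
  rw [← h.σ_mul h, hg, σ_one]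
/-- the action as an additive map -/
noncomputable def N.hom {g : G} (h : D.N g) : W →+ W := AddMonoidHom.mk' (D.σ g) h.add

variable (D)
/-- weak form of the centraliser condition -/
def Iw (x : W) : Prop := ∀ g, g * D.ι x * g⁻¹ = D.ι x → ∀ u, D.f u x = 0 → ∃ v, g * D.ι u * g⁻¹ = D.ι v
/-- the centraliser condition -/
def I (x : W) : Prop := ∀ g, g * D.ι x * g⁻¹ = D.ι x → D.N g
variable {D}

theorem I_of_Iw (h3 : D.G3 D.q) {x : W} (hx : x ≠ 0) (h : D.Iw x) (hS : ∀ y, D.q y = 1 → D.Iw y) : D.I x := by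
  intro g hg u
  obtain ⟨w, hw⟩ := D.nd x hx
  obtain ⟨w, w1, w2, -⟩ := h3 w x x x
  rw [hw] at w2
  obtain ⟨y, y1, y2, y3, -⟩ := h3 0 x w w
  simp only [map_zero, LinearMap.zero_apply] at y2 y3
  obtain ⟨y', hy⟩ := h g hg y y2
  obtain ⟨c, hc⟩ := D.c1 w y w1 y1
  have e1 := hc y
  have e2 := hc x
  rw [D.τ0 (D.alt y), D.τ0 y3] at e1
  rw [D.τ0' y2, D.τ1' w2] at e2
  obtain ⟨v, hv⟩ := hS y' (D.hq _ _ _ hy y1) (g * c * g⁻¹) (by rw [← hy]; nth_rewrite 2 [← e1]; group) x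
    ((D.hf g _ _ _ _ hg hy).trans ((D.symm _ _).trans y2))
  have e3 : g * D.ι w * g⁻¹ = D.ι (x + v) := by
    have : g⁻¹ * D.ι x * g = D.ι x := by nth_rewrite 1 [← hg]; group
    calc _ = g * D.ι x * g⁻¹ * (g * c * (g⁻¹ * D.ι x * g) * c⁻¹ * g⁻¹) := by
          rw [this, ← aa' x w, D.add x (x + w), ← e2]; group
      _ = _ := by rw [hg, D.add, ← hv]; group
  rcases z2 (D.f u x) with e | e
  · exact h g hg u e
  · obtain ⟨v', hv'⟩ := h g hg (u + w) (by simp [e, w2])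
    exact ⟨v' + (x + v), by rw [D.add, ← hv', ← e3, ← aa'' u w, D.add (u + w), aa'']; group⟩

variable [Finite W]

theorem TI (h3 : D.G3 D.q) (hI : ∀ x, x ≠ 0 → D.I x) {k : G} {u₀ x₀ : W} (h0 : u₀ ≠ 0)
    (hk : k * D.ι u₀ * k⁻¹ = D.ι x₀) : D.N k := by
  let J : AddSubgroup W :=
    { carrier := {v | ∃ u, k * D.ι u * k⁻¹ = D.ι v}
      zero_mem' := ⟨0, by simp⟩
      add_mem' := by rintro a b ⟨u, hu⟩ ⟨v, hv⟩; exact ⟨u + v, by rw [D.add, D.add, ← hu, ← hv]; group⟩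
      neg_mem' := fun h => by rwa [ZModModule.neg_eq_self] }
  have nz : ∀ {u x}, k * D.ι u * k⁻¹ = D.ι x → x ≠ 0 → u ≠ 0 := fun h hx e => hx (D.inj _ (by simp [← h, e]))
  have x0 : x₀ ≠ 0 := fun e => h0 (D.inj _ (by simpa [e] using hk))
  have ha : ∀ x ∈ J, ∀ v ∈ J, x ≠ 0 → ∀ y, D.q y = 1 → D.f y x = 0 → D.f y v = 1 → y ∈ J := by
    rintro x ⟨u, hu⟩ v ⟨u', hu'⟩ hx y y1 y2 y3
    obtain ⟨z, z1, z2, z3, -⟩ := h3 0 x v v
    simp only [map_zero, LinearMap.zero_apply] at z2 z3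
    obtain ⟨c, hc⟩ := D.c1 y z y1 z1
    have e1 := hc x
    have e2 := hc v
    rw [D.τ0' z2, D.τ0' y2] at e1
    rw [D.τ0' z3, D.τ1' y3] at e2
    obtain ⟨w, hw⟩ := hI u (nz hu hx) (k⁻¹ * c * k) (by
      rw [← mul_left_cancel_iff (a := k), ← mul_right_cancel_iff (a := k⁻¹), hu, ← e1, ← hu]; group) u'
    simpa using J.add_mem (⟨u', hu'⟩ : v ∈ J) (⟨w, by rw [← hw, ← e2, ← hu']; group⟩ : v + y ∈ J)
  by_cases hb : ∃ v ∈ J, v ≠ 0 ∧ v ≠ x₀
  · obtain ⟨v, v1, v2, v3⟩ := hb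
    have : J = ⊤ := by
      by_contra hc
      obtain ⟨r, r1, r2⟩ := D.exists_perp hc
      have : ∀ x ∈ J, ∀ v ∈ J, x ≠ 0 → v ≠ 0 → v ≠ x → r = x := fun x hx v hv a1 a2 a3 => by
        by_contra a4
        obtain ⟨w, b1, b2, b3⟩ := D.ex11 a2 a3 r1 a4
        obtain ⟨y, y1, y2, y3, y4⟩ := h3 w x v r
        simp [r2 y (ha x hx v hv a1 y y1 (y2.trans b1) (y3.trans b2)), b3] at y4
      exact v3 ((this v v1 x₀ ⟨_, hk⟩ v2 x0 v3.symm).symm.trans (this x₀ ⟨_, hk⟩ v v1 x0 v2 v3))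
    simpa using N.inv (g := k⁻¹) fun u => by
      obtain ⟨w, hw⟩ : u ∈ J := this ▸ trivial
      exact ⟨w, by rw [← hw]; group⟩
  push Not at hb
  exfalso
  have hN : ∀ w, D.N (k * D.ι w * k⁻¹) := fun w => hI _ x0 _ (by
    rw [← hk]; nth_rewrite 2 [← D.ι_conj w u₀]; group)
  have key : ∀ w, w ≠ 0 → w ≠ u₀ → ∀ v, D.σ (k * D.ι w * k⁻¹) v = D.τ x₀ v := fun w w1 w2 => by
    have h1 : ∀ v, ∃ l : ZMod 2, D.σ (k * D.ι w * k⁻¹) v = v + l • x₀ := fun v => by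
      obtain ⟨w', hw'⟩ := hI _ h0 (k⁻¹ * D.ι v * k) (by
        rw [← mul_left_cancel_iff (a := k), ← mul_right_cancel_iff (a := k⁻¹), hk, ← D.ι_conj v x₀, ← hk]
        group) w
      have := hb (D.σ (k * D.ι w * k⁻¹) v + v) ⟨w + w', by
        rw [D.add, D.add, ← (hN w).spec, ← hw']; simp [mul_assoc]⟩
      by_cases e : D.σ (k * D.ι w * k⁻¹) v + v = 0
      · exact ⟨0, by simpa using add_eq_zero'.1 e⟩
      · exact ⟨1, by rw [one_smul, ← this e, add_comm, aa'']⟩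
    obtain ⟨v₁, hv₁⟩ : ∃ v, D.σ (k * D.ι w * k⁻¹) v = v + x₀ := by
      by_contra hc
      obtain ⟨v, hv⟩ := D.inner (k * D.ι w * k⁻¹) fun v => by
        obtain ⟨l, hl⟩ := h1 v
        rcases z2 l with rfl | rfl
        · simpa [hl] using (hN w).spec v
        · exact absurd ⟨v, by simpa using hl⟩ hc
      refine w2 (D.ι_inj ?_)
      rw [hb v ⟨w, hv⟩ fun e => w1 (D.inj _ (by simpa [e] using hv)), ← hk] at hv
      simpa using hv
    have h2 : ∀ v l, D.σ (k * D.ι w * k⁻¹) v = v + l • x₀ → D.f v x₀ = l * D.f x₀ v₁ := fun v l hl => by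
      have := (hN w).f v v₁
      simp only [hl, hv₁, map_add, map_smul, LinearMap.add_apply, LinearMap.smul_apply, D.alt, smul_eq_mul] at this
      linear_combination this - z2_add (l * D.f x₀ v₁)
    intro v
    obtain ⟨v', hv'⟩ := D.nd _ x0
    obtain ⟨l', hl'⟩ := h1 v'
    obtain ⟨l, hl⟩ := h1 v
    have := h2 _ _ hl'
    rw [hl, Sp.τ, h2 _ _ hl, z2_ne.1 (right_ne_zero_of_mul_eq_one (this.symm.trans hv')), mul_one]
  obtain ⟨w, hw⟩ := D.nd _ h0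
  obtain ⟨y, y1, y2, y3, -⟩ := h3 0 u₀ w w
  simp only [map_zero, LinearMap.zero_apply] at y2 y3
  have n1 : ∀ {a}, D.f a u₀ = 1 → a ≠ 0 ∧ a ≠ u₀ := fun h => ⟨by rintro rfl; simp at h, by rintro rfl; simp at h⟩
  obtain ⟨v, hv⟩ := D.nd _ x0
  have e1 := key (w + y) (n1 (by simp [hw, y2])).1 (n1 (by simp [hw, y2])).2 v
  rw [show k * D.ι (w + y) * k⁻¹ = (k * D.ι w * k⁻¹) * (k * D.ι y * k⁻¹) by rw [D.add]; group,
    (hN w).σ_mul (hN y), key w (n1 hw).1 (n1 hw).2, key y (D.ne_of_q y1) (by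
      rintro rfl; simp [D.symm w, y3] at hw), D.τ1 hv, D.τ1 (by simp [hv])] at e1
  simp [x0] at e1

theorem SC (h3 : D.G3 D.q) (h64 : 64 ≤ Nat.card W) (hI : ∀ x, x ≠ 0 → D.I x) {k : G} {u : W}
    (hu : D.N (k * D.ι u * k⁻¹)) : ∃ v, k * D.ι u * k⁻¹ = D.ι v := by
  by_contra hc
  have hI0 : ∀ u v, k * D.ι u * k⁻¹ = D.ι v → v = 0 := fun u' v e => by
    by_contra h
    exact hc (TI h3 hI (fun e' => h (D.inj _ (by simp [← e, e']))) e u)
  have u0 : u ≠ 0 := by rintro rfl; exact hc ⟨0, by simp⟩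
  set b : W → G := fun u => k * D.ι u * k⁻¹ with hb
  replace hu : D.N (b u) := hu
  have badd : ∀ u v, b (u + v) = b u * b v := fun u v => by simp only [hb, D.add]; group
  have bb : ∀ u, b u * b u = 1 := fun u => by simp [hb]
  let A : W → Prop := fun v => D.N (k⁻¹ * D.ι v * k)
  have h1 : ∀ u, D.N (b u) → ∀ v, A v → D.σ (b u) v = v := fun u hu v hv => by
    obtain ⟨w, hw⟩ := hv u
    exact add_eq_zero'.1 (hI0 (u + w) _ (by rw [D.add, D.add, ← hu.spec, ← hw]; simp [hb, mul_assoc]))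
  have h2 : ∀ u, u ≠ 0 → D.N (b u) → ∀ v, D.σ (b u) v = v → A v := fun u u0 hu v hv => hI u u0 _ (by
    have := hu.spec v
    rw [hv, mul_inv_eq_iff_eq_mul] at this
    rw [mul_inv_eq_iff_eq_mul, ← mul_left_cancel_iff (a := k), ← mul_right_cancel_iff (a := k⁻¹)]
    simpa [hb, mul_assoc] using this.symm)
  have Aadd : ∀ v w, A v → A w → A (v + w) := fun v w hv hw => by
    simpa [A, D.add, mul_assoc] using hv.mul hw
  have hA : ∀ u, u ≠ 0 → D.N (b u) → ∀ x, A (x + D.σ (b u) x) := fun u u0 hu x =>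
    h2 u u0 hu _ (by rw [hu.add, hu.σσ (bb u), add_comm])
  have hP : ∀ u, D.N (b u) → ∀ x v, A v → D.f v (x + D.σ (b u) x) = 0 := fun u hu x v hv => by
    rw [map_add, ← hu.f v x, h1 u hu v hv, z2_add]
  have hne : ∀ x, ¬ A x → ∀ u v, D.N (b u) → D.N (b v) → D.σ (b u) x = D.σ (b v) x → u = v :=
    fun x hx u v hu hv e => by
      by_contra h
      exact hx (h2 (u + v) (mt add_eq_zero'.1 h) (badd u v ▸ hu.mul hv) x (by
        rw [badd, hu.σ_mul hv, ← e, hu.σσ (bb u)]))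
  obtain ⟨w₀, hw₀⟩ : ∃ w, ¬ A w := by
    by_contra h
    push Not at h
    exact hc (D.inner _ fun v => by rw [hu.spec, h1 u hu v (h v)])
  have N0 : D.N (b 0) := by simpa [hb] using N_ι (D := D) 0
  have s0 : ∀ x, D.σ (b 0) x = x := by simpa [hb] using σ_one
  have hB : ∀ u₁ u₂, ∃ v, D.N (b v) ∧ v ≠ 0 ∧ v ≠ u₁ ∧ v ≠ u₂ ∧ v ≠ u₁ + u₂ := fun u₁ u₂ => by
    have a1 := hA u u0 hu w₀
    have a0 : w₀ + D.σ (b u) w₀ ≠ 0 := fun e => hw₀ (h2 u u0 hu _ (add_eq_zero'.1 e).symm)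
    generalize w₀ + D.σ (b u) w₀ = a at a1 a0
    obtain ⟨v, hv, h⟩ := exists_fixed h64 a1.hom (a1.σσ (by simp [mul_assoc, ← mul_assoc (D.ι a)])) u₁ u₂
    refine ⟨v, hI a a0 _ ?_, h⟩
    have := a1.spec v
    rw [show D.σ _ v = v from hv, mul_inv_eq_iff_eq_mul] at this
    rw [mul_inv_eq_iff_eq_mul, ← mul_left_cancel_iff (a := k⁻¹), ← mul_right_cancel_iff (a := k)]
    simpa [hb, mul_assoc] using this.symm
  obtain ⟨u', hu', u1, u2, -⟩ := hB u u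
  obtain ⟨u'', hu'', u3, u4, u5, u6⟩ := hB u u'
  obtain ⟨r, hr⟩ := D.repr (AddMonoidHom.mk' (fun w => D.f w (D.σ (b u) w)) fun v w => by
    have := hu.f (D.σ (b u) v) w
    rw [hu.σσ (bb u), D.symm (D.σ _ v)] at this
    simp only [hu.add, map_add, LinearMap.add_apply, this]
    linear_combination z2_add (D.f w (D.σ (b u) v)))
  obtain ⟨w, w1, w2, w3⟩ : ∃ w, D.q w = 1 ∧ D.f w r = 0 ∧ ¬ A w := by
    have : ∀ v, v ≠ 0 → D.N (b v) → w₀ + D.σ (b v) w₀ ≠ r → ∃ w, D.q w = 1 ∧ D.f w r = 0 ∧ ¬ A w :=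
      fun v v0 hv e => by
        obtain ⟨w, a1, a2⟩ := D.ex2 (fun e => hw₀ (h2 v v0 hv _ (add_eq_zero'.1 e).symm)) e
        obtain ⟨y, y1, y2, y3, -⟩ := h3 w r (w₀ + D.σ (b v) w₀) r
        exact ⟨y, y1, y2.trans a1, fun h => by simp [hP v hv w₀ y h, a2] at y3⟩
    by_cases e : w₀ + D.σ (b u) w₀ = r
    · exact this u' u1 hu' fun e' => u2 (hne _ hw₀ _ _ hu' hu (add_left_cancel (e'.trans e.symm)))
    · exact this u u0 hu e
  rw [hr] at w2
  obtain ⟨c, c1, c2⟩ := D.c2 (b u) w _ (bb u) w1 (hu.spec w) w2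
  have hc' : D.N c := fun v => ⟨_, c2 v⟩
  obtain ⟨ρ, hρ⟩ := hI u u0 (k⁻¹ * c * k) (by
    rw [mul_inv_eq_iff_eq_mul, ← mul_left_cancel_iff (a := k), ← mul_right_cancel_iff (a := k⁻¹)]
    simpa [hb, mul_assoc] using c1) u'
  replace hρ : b ρ = c * b u' * c⁻¹ := by simp only [hb, ← hρ]; group
  obtain ⟨a, ha⟩ : ∃ a, D.σ (b u) w = w + a := ⟨_, (aa' _ _).symm⟩
  obtain ⟨a', ha'⟩ : ∃ a, D.σ (b u') w = w + a := ⟨_, (aa' _ _).symm⟩
  obtain ⟨a'', ha''⟩ : ∃ a, D.σ (b u'') w = w + a := ⟨_, (aa' _ _).symm⟩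
  have A1 : A a := by simpa [ha] using hA u u0 hu w
  have A2 : A a' := by simpa [ha'] using hA u' u1 hu' w
  have A3 : A a'' := by simpa [ha''] using hA u'' u3 hu'' w
  replace c2 : ∀ v, D.σ c v = v + D.f v a • w + D.f v (w + a) • a := fun v => by
    simp only [ha, AddMonoidHom.mk'_apply, map_add, D.alt, zero_add] at w2
    rw [σ_eq (c2 v), ha]
    simp [Sp.τ, D.symm a, w2, add_smul]; abel_nf; simp [two_smul]
  by_cases e : ρ = u'
  · obtain ⟨v, hv⟩ := D.nd a fun e => u0 (hne _ w3 _ _ hu N0 (by simp [ha, e, s0]))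
    have e1 := hc'.σ_mul hu' v
    have e2 : D.f (D.σ (b u') v) a = 1 := by rw [← hv, ← hu'.f v, h1 _ hu' a A1]
    rw [e, eq_mul_inv_iff_mul_eq] at hρ
    rw [← hρ, hu'.σ_mul hc', c2, c2, hv, e2, one_smul, hu'.add, hu'.add, ha', add_assoc, add_assoc, add_assoc,
      add_right_inj, add_right_inj] at e1
    have n1 : a' ≠ 0 := fun e => u1 (hne _ w3 _ _ hu' N0 (by simp [ha', e, s0]))
    have n2 : a' ≠ a := fun e => u2 (hne _ w3 _ _ hu' hu (by simp [ha', e, ha]))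
    rcases z2 (D.f v (w + a)) with e3 | e3 <;> rcases z2 (D.f (D.σ (b u') v) (w + a)) with e4 | e4 <;>
      simp [-map_add, e3, e4, σ_zero, h1 _ hu' a A1, add_eq_zero', n1, n2] at e1
  · have nw : ∀ x, A x → a'' ≠ w + x := fun x hx e => w3 (by simpa [e] using Aadd _ _ A3 hx)
    obtain ⟨v, ⟨⟨v1, v2⟩, v3⟩, v4⟩ := D.ex4 (a := a'') (b := w) (c := a) (d := a')
      (fun e => u3 (hne _ w3 _ _ hu'' N0 (by simp [ha'', e, s0]))) (fun e => w3 (e ▸ A3))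
      (fun e => u4 (hne _ w3 _ _ hu'' hu (by simp [ha'', e, ha]))) (nw _ A1)
      (fun e => u5 (hne _ w3 _ _ hu'' hu' (by simp [ha'', e, ha']))) (nw _ A2)
      (fun e => u6 (hne _ w3 _ _ hu'' (badd u u' ▸ hu.mul hu') (by
        rw [badd, hu.σ_mul hu', ha', hu.add, ha, h1 _ hu a' A2, ha'', e, add_assoc])))
      (add_assoc w a a' ▸ nw _ (Aadd _ _ A1 A2))
    have hρ' : D.N (b ρ) := hρ ▸ (hc'.mul hu').mul hc'.inv
    have e1 : D.σ c (D.σ (b u') v) = D.σ (b u') v := by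
      have e1 : D.f (D.σ (b u') v) a = 0 := by rw [← v2, ← hu'.f v, h1 _ hu' a A1]
      have e2 : D.f (D.σ (b u') v) w = 0 := by rw [← hu'.f, hu'.σσ (bb u'), ha', map_add, v1, v3, add_zero]
      simp [c2, e1, e2]
    have e2 : D.σ c v = v := by simp [c2, v1, v2]
    have := hP u'' hu'' w v (h2 (ρ + u') (mt add_eq_zero'.1 e) (badd _ _ ▸ hρ'.mul hu') v (by
      rw [badd, hρ'.σ_mul hu', ← e1, ← hρ'.σ_mul hc', hρ, inv_mul_cancel_right, hc'.σ_mul hu', hu'.σσ (bb u'), e2]))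
    simp [-map_add, ha'', v4] at this

theorem final [Finite G] (h3 : D.G3 D.q) (h64 : 64 ≤ Nat.card W) (hI : ∀ x, x ≠ 0 → D.I x) (g : G) : D.N g := by
  let T : Subgroup G :=
    { carrier := Set.range D.ι
      one_mem' := ⟨0, D.ι0⟩
      mul_mem' := by rintro _ _ ⟨u, rfl⟩ ⟨v, rfl⟩; exact ⟨_, D.add u v⟩
      inv_mem' := by rintro _ ⟨u, rfl⟩; exact ⟨u, by simp⟩ }
  have hN : ∀ g, g ∈ Subgroup.normalizer (T : Set G) ↔ D.N g := fun g =>
    ⟨fun h u => ((Subgroup.mem_normalizer_iff.1 h _).1 ⟨u, rfl⟩).imp fun _ e => e.symm, fun h =>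
      Subgroup.mem_normalizer_fintype (by rintro _ ⟨u, rfl⟩; exact ⟨_, (h.spec u).symm⟩)⟩
  by_contra hg
  obtain ⟨X, X1, X2⟩ := sharp (T := T) (by rintro _ ⟨u, rfl⟩; simp)
    (by rintro _ ⟨u, rfl⟩ h g e; exact (hN g).2 (hI u (by rintro rfl; simp at h) g (by rw [e]; group)))
    (by rintro g _ ⟨u, rfl⟩ h; exact (SC h3 h64 hI ((hN _).1 h)).imp fun _ e => e.symm) (mt (hN g).1 hg)
  obtain ⟨y, y1, -⟩ := h3 0 0 0 0
  obtain ⟨w, hw⟩ := D.nd _ (D.ne_of_q y1)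
  obtain ⟨z, z1, z2, z3, -⟩ := h3 0 y w w
  simp only [map_zero, LinearMap.zero_apply] at z2 z3
  refine D.no_sharp (D.ne_of_q z1) (D.ne_of_q y1) (by rintro rfl; simp [D.symm w, z3] at hw) z2
    (fun g : X => D.σ g) (fun g => ((hN _).1 (X1 g.2)).add) (fun g => ((hN _).1 (X1 g.2)).f) fun u v hu hv => ?_
  obtain ⟨h, ⟨h1, h2⟩, h4⟩ := X2 _ ⟨u, rfl⟩ _ ⟨v, rfl⟩ (mt (D.inj u) hu) (mt (D.inj v) hv)
  exact ⟨⟨h, h1⟩, σ_eq h2, fun g e => Subtype.ext (h4 _ ⟨g.2, e ▸ ((hN _).1 (X1 g.2)).spec u⟩)⟩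

end GD

end Cfsg.Agent.H4.E
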