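import Cfsg.Agent.H4.E1

/-! Extraspecial data in an algebra. -/

set_option autoImplicit false
set_option linter.unusedSectionVars false

namespace Cfsg.Agent.H4.E

open Module

/-- the sign `(-1)^a` -/
def sg (F : Type*) [Ring F] (a : ZMod 2) : F := if a = 0 then 1 else -1

section
variable {F : Type*} [Field F]
@[simp] theorem sg_zero : sg F 0 = 1 := if_pos rfl
@[simp] theorem sg_one : sg F 1 = -1 := if_neg (by decide)
theorem sg_add (a b : ZMod 2) : sg F (a + b) = sg F a * sg F b := by
  rcases z2 a with rfl | rfl <;> rcases z2 b with rfl | rfl <;> simp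
@[simp] theorem sg_mul_self (a : ZMod 2) : sg F a * sg F a = 1 := by rw [← sg_add]; simp
theorem sg_ne (a : ZMod 2) : sg F a ≠ 0 := left_ne_zero_of_mul_eq_one (sg_mul_self a)
theorem sg_inj (h2 : (2 : F) ≠ 0) {a b : ZMod 2} (h : sg F a = sg F b) : a = b := by
  rcases z2 a with rfl | rfl <;> rcases z2 b with rfl | rfl <;> simp only [sg_zero, sg_one] at h ⊢
  · exact absurd (by linear_combination h) h2
  · exact absurd (by linear_combination -h) h2
theorem exists_sg {c : F} (h : c * c = 1) : ∃ a, c = sg F a := by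
  rcases mul_self_eq_one_iff.1 h with h | h
  exacts [⟨0, by simp [h]⟩, ⟨1, by simp [h]⟩]
theorem map_sg {K : Type*} [Field K] (φ : F →+* K) (a : ZMod 2) : φ (sg F a) = sg K a := by
  rcases z2 a with rfl | rfl <;> simp
end

/-- A projective representation `η` of `W` spanning the algebra `A`, with commutator form `f` and squares `q`. -/
structure ES (F A W : Type*) [Field F] [Ring A] [Algebra F A] [AddCommGroup W] [Module (ZMod 2) W]
    extends Sp W where
  η : W → A
  q : W → ZMod 2
  η0 : η 0 = 1
  mul : ∀ u v, ∃ c : F, c ≠ 0 ∧ η u * η v = c • η (u + v)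
  comm : ∀ u v, η u * η v = sg F (f u v) • (η v * η u)
  sq : ∀ u, η u * η u = sg F (q u) • (1 : A)
  span : Submodule.span F (Set.range η) = ⊤
  two : (2 : F) ≠ 0
  nt : (1 : A) ≠ 0

/-- A group of units of `A` containing the scalars. -/
structure Gp (F A : Type*) [Field F] [Ring A] [Algebra F A] where
  mem : A → Prop
  one : mem 1
  mul : ∀ {a b}, mem a → mem b → mem (a * b)
  smul : ∀ {a} {c : F}, c ≠ 0 → mem a → mem (c • a)
  inv : ∀ {a}, mem a → ∃ b, mem b ∧ a * b = 1 ∧ b * a = 1

variable {F A W : Type*} [Field F] [Ring A] [Algebra F A] [AddCommGroup W] [Module (ZMod 2) W]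

namespace ES
variable (D : ES F A W)

/-- `g` normalises the group generated by the `η u` and the scalars. -/
def Nrm (g : A) : Prop := ∀ u, ∃ v, ∃ c : F, g * D.η u = c • (D.η v * g)

/-- `M` contains the `η u` and the products of two "transvections". -/
structure Over (M : Gp F A) : Prop where
  η : ∀ u, M.mem (D.η u)
  t : ∀ y z, D.q y = 1 → D.q z = 1 → M.mem ((1 + D.η y) * (1 + D.η z))

theorem smul_inj (D : ES F A W) {c d : F} (h : c • (1 : A) = d • 1) : c = d := smul_left_injective F D.nt h

theorem q0 : D.q 0 = 0 := by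
  have := D.sq 0
  rw [D.η0, mul_one] at this
  exact sg_inj D.two (D.smul_inj (by simpa using this.symm))

theorem ne_of_q {y : W} (h : D.q y = 1) : y ≠ 0 := by rintro rfl; simp [D.q0] at h

theorem comm0 {u v : W} (h : D.f u v = 0) : D.η u * D.η v = D.η v * D.η u := by simpa [h] using D.comm u v
theorem comm1 {u v : W} (h : D.f u v = 1) : D.η u * D.η v = -(D.η v * D.η u) := by simpa [h] using D.comm u v
theorem sq1 {u : W} (h : D.q u = 1) : D.η u * D.η u = -1 := by simpa [h] using D.sq u
theorem sq0 {u : W} (h : D.q u = 0) : D.η u * D.η u = 1 := by simpa [h] using D.sq u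

/-- the inverse of `η u` -/
def ι (u : W) : A := sg F (D.q u) • D.η u
@[simp] theorem η_ι (u : W) : D.η u * D.ι u = 1 := by simp [ι, D.sq, smul_smul]
@[simp] theorem ι_η (u : W) : D.ι u * D.η u = 1 := by simp [ι, D.sq, smul_smul]
theorem conj (u v : W) : D.η u * D.η v * D.ι u = sg F (D.f u v) • D.η v := by
  rw [D.comm, smul_mul_assoc, mul_assoc, η_ι, mul_one]
theorem isUnit (u : W) : IsUnit (D.η u) := ⟨⟨_, _, D.η_ι u, D.ι_η u⟩, rfl⟩
theorem η_ne (u : W) : D.η u ≠ 0 := fun e => D.nt (by rw [← D.η_ι u, e, zero_mul])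

theorem neg_eq (D : ES F A W) {a : A} (h : a = -a) : a = 0 := by
  have : (2 : F) • a = 0 := by rw [two_smul]; nth_rewrite 2 [h]; simp
  exact (smul_eq_zero.1 this).resolve_left D.two

/-- weight vectors -/
theorem weight (U : Finset W) (l : W → ZMod 2) {a : A} (h : ∀ u ∈ U, D.η u * a = sg F (l u) • (a * D.η u)) :
    a ∈ Submodule.span F (D.η '' {v | ∀ u ∈ U, D.f u v = l u}) := by
  classical
  induction U using Finset.induction_on with
  | empty => simp [D.span]
  | insert u U hu ih =>
    let φ : A →ₗ[F] A := (2 : F)⁻¹ • (LinearMap.id + sg F (l u) • LinearMap.mulLeftRight F (D.η u, D.ι u))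
    have h1 : φ a = a := by
      simp only [φ, LinearMap.smul_apply, LinearMap.add_apply, LinearMap.mulLeftRight_apply, LinearMap.id_apply,
        h u (by simp), smul_mul_assoc, mul_assoc, η_ι, mul_one, smul_smul, sg_mul_self, one_smul]
      rw [← two_smul F, smul_smul, inv_mul_cancel₀ D.two, one_smul]
    rw [← h1]
    refine Submodule.mem_comap.1 ((Submodule.span_le (p := Submodule.comap φ _)).2 ?_
      (ih fun v hv => h v (by simp [hv])))
    rintro _ ⟨v, hv, rfl⟩
    simp only [φ, SetLike.mem_coe, Submodule.mem_comap, LinearMap.smul_apply, LinearMap.add_apply,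
      LinearMap.mulLeftRight_apply, LinearMap.id_apply, D.conj, smul_smul, ← sg_add]
    refine Submodule.smul_mem _ _ ?_
    rcases z2 (l u + D.f u v) with e | e
    · have : D.η v ∈ Submodule.span F (D.η '' {v | ∀ u' ∈ insert u U, D.f u' v = l u'}) :=
        Submodule.subset_span ⟨v, by simpa [(z2_eq.1 e).symm] using hv, rfl⟩
      exact add_mem this (Submodule.smul_mem _ _ this)
    · simp [e]

theorem inner [Finite W] (l : W → ZMod 2) {a : A} (h : ∀ u, D.η u * a = sg F (l u) • (a * D.η u)) :
    ∃ w, ∃ c : F, a = c • D.η w := by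
  have := Fintype.ofFinite W
  have h1 := D.weight Finset.univ l fun u _ => h u
  by_cases e : ∃ w, ∀ u, D.f u w = l u
  · obtain ⟨w, hw⟩ := e
    have : D.η '' {v | ∀ u ∈ Finset.univ, D.f u v = l u} ⊆ {D.η w} := by
      rintro _ ⟨v, hv, rfl⟩
      rw [D.eq_of (a := v) (b := w) fun u => by rw [hw, hv u (by simp)]]; rfl
    obtain ⟨c, hc⟩ := Submodule.mem_span_singleton.1 (Submodule.span_mono this h1)
    exact ⟨w, c, hc.symm⟩
  · have : {v | ∀ u ∈ Finset.univ, D.f u v = l u} = ∅ := by simpa [Set.eq_empty_iff_forall_notMem] using e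
    rw [this] at h1
    exact ⟨0, 0, by simpa using h1⟩

theorem linInd : LinearIndependent F D.η := by
  classical
  rw [linearIndependent_iff']
  intro s
  induction s using Finset.strongInduction with
  | H s ih =>
    intro g hg i hi
    by_cases e : ∃ j ∈ s, j ≠ i
    · obtain ⟨j, hj, e⟩ := e
      obtain ⟨u, hu⟩ := D.nd _ (mt add_eq_zero'.1 e)
      refine ih (s.filter fun v => D.f u (v + i) = 0) (Finset.filter_ssubset.2 ⟨j, hj, by simp [hu]⟩) g ?_ i
        (by simpa)
      have h1 : ∑ v ∈ s, (g v • D.η v + sg F (D.f u i) • (D.η u * (g v • D.η v) * D.ι u)) = 0 := by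
        rw [Finset.sum_add_distrib, ← Finset.smul_sum, ← Finset.sum_mul, ← Finset.mul_sum, hg]; simp
      refine (smul_eq_zero.1 ?_).resolve_left D.two
      rw [← h1, Finset.sum_filter, Finset.smul_sum]
      refine Finset.sum_congr rfl fun v _ => ?_
      rw [mul_smul_comm, smul_mul_assoc, D.conj, smul_comm _ (g v), smul_smul (sg F _), ← sg_add, add_comm (D.f u i),
        ← map_add]
      rcases z2 (D.f u (v + i)) with e | e <;> simp [e, two_smul]
    · have : s = {i} := Finset.eq_singleton_iff_unique_mem.2 ⟨hi, by simpa using e⟩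
      simpa [this, D.η_ne] using hg

theorem finrank_eq (D : ES F A W) [Finite W] : finrank F A = Nat.card W := by
  have := Fintype.ofFinite W
  rw [finrank_eq_card_basis (Basis.mk D.linInd D.span.ge), Nat.card_eq_fintype_card]

theorem eq_of_smul {u v : W} {c : F} (h : D.η u = c • D.η v) : u = v := by
  by_contra e
  exact D.linInd.notMem_span_image (s := {v}) (x := u) e (by simp [h, Submodule.smul_mem])

end ES

end Cfsg.Agent.H4.E
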