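import Cfsg.Agent.H4.E2
import Cfsg.Agent.H4.E3

/-! From extraspecial data to group data; the complex step. -/

set_option autoImplicit false
set_option linter.unusedSectionVars false
set_option linter.unusedSimpArgs false

namespace Cfsg.Agent.H4.E

open Module

section rel
variable {A : Type*} [Ring A] {x y : A}
theorem rc (h : x * y = y * x) (t : A) : x * (y * t) = y * (x * t) := by rw [← mul_assoc, h, mul_assoc]
theorem ra (h : x * y = -(y * x)) (t : A) : x * (y * t) = -(y * (x * t)) := by rw [← mul_assoc, h, neg_mul, mul_assoc]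
theorem rn (h : x * y = -1) (t : A) : x * (y * t) = -t := by rw [← mul_assoc, h, neg_one_mul]
theorem r1 (h : x * y = 1) (t : A) : x * (y * t) = t := by rw [← mul_assoc, h, one_mul]
theorem sq_of {E Y e : A} (h1 : E * e = Y * e) (h2 : Y * e = e * Y) : E * E * e = Y * Y * e := by
  rw [mul_assoc, h1, h2, ← mul_assoc, h1, mul_assoc, mul_assoc, h2]
end rel

variable {F A W : Type*} [Field F] [Ring A] [Algebra F A] [AddCommGroup W] [Module (ZMod 2) W]

namespace Gp
variable (M : Gp F A)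

/-- the underlying group -/
def grp : Subgroup Aˣ where
  carrier := {u | M.mem u}
  one_mem' := M.one
  mul_mem' := M.mul
  inv_mem' {u} h := by
    obtain ⟨b, h1, h2, -⟩ := M.inv h
    rwa [← Units.inv_eq_of_mul_eq_one_right h2] at h1

/-- scalars -/
def sca : Subgroup M.grp where
  carrier := {u | ∃ c : F, c ≠ 0 ∧ (u.1 : A) = c • 1}
  one_mem' := ⟨1, one_ne_zero, by simp⟩
  mul_mem' := by
    rintro a b ⟨c, c0, h⟩ ⟨d, d0, h'⟩; exact ⟨c * d, mul_ne_zero c0 d0, by simp [h, h', smul_smul, mul_comm]⟩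
  inv_mem' := by
    rintro a ⟨c, c0, h⟩
    exact ⟨c⁻¹, inv_ne_zero c0, Units.inv_eq_of_mul_eq_one_right (by simp [h, smul_smul, c0])⟩

instance : M.sca.Normal := ⟨by rintro a ⟨c, c0, h⟩ g; exact ⟨c, c0, by simp [h]⟩⟩

/-- the projective group -/
abbrev PG := M.grp ⧸ M.sca

variable {M}

theorem π_eq {g k : M.grp} : (g : M.PG) = k ↔ ∃ c : F, c ≠ 0 ∧ (k.1 : A) = c • g.1 := by
  rw [QuotientGroup.eq]
  refine exists_congr fun c => and_congr_right fun c0 => ?_
  simp [Units.inv_mul_eq_iff_eq_mul]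

/-- a member as an element of the group -/
noncomputable def el {a : A} (h : M.mem a) : M.grp :=
  ⟨⟨a, (M.inv h).choose, (M.inv h).choose_spec.2.1, (M.inv h).choose_spec.2.2⟩, h⟩
@[simp] theorem el_val {a : A} (h : M.mem a) : ((el h).1 : A) = a := rfl

theorem neg {a : A} (h : M.mem a) : M.mem (-a) := by simpa using M.smul (c := -1) (by simp) h
theorem of_smul {a : A} {c : F} (hc : c ≠ 0) (h : M.mem (c • a)) : M.mem a := by
  simpa [smul_smul, hc] using M.smul (inv_ne_zero hc) h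
theorem isUnit {a : A} (h : M.mem a) : IsUnit a := ⟨(el h).1, rfl⟩
theorem of_mul_right {a b : A} (hb : M.mem b) (h : M.mem (a * b)) : M.mem a := by
  obtain ⟨c, h1, h2, -⟩ := M.inv hb
  simpa [mul_assoc, h2] using M.mul h h1
theorem of_mul_left {a b : A} (ha : M.mem a) (h : M.mem (a * b)) : M.mem b := by
  obtain ⟨c, h1, -, h2⟩ := M.inv ha
  simpa [← mul_assoc, h2] using M.mul h1 h

end Gp

namespace ES
variable (D : ES F A W) {M : Gp F A}

/-- `g` conjugates `η u` to a multiple of `η v` -/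
def Cj (g : A) (u v : W) : Prop := ∃ c : F, g * D.η u = c • (D.η v * g)

variable {D}

theorem Cj.mul {g k : A} {u v w : W} (h : D.Cj g v w) (h' : D.Cj k u v) : D.Cj (g * k) u w := by
  obtain ⟨c, h⟩ := h
  obtain ⟨d, h'⟩ := h'
  exact ⟨d * c, by rw [mul_assoc, h', mul_smul_comm, ← mul_assoc, h, smul_mul_assoc, smul_smul, mul_assoc]⟩

theorem Cj.smul {g : A} {u v : W} (h : D.Cj g u v) (c : F) : D.Cj (c • g) u v :=
  h.imp fun d e => by rw [smul_mul_assoc, e, mul_smul_comm, smul_comm]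

theorem cj_η (w u : W) : D.Cj (D.η w) u u := ⟨_, D.comm w u⟩

theorem smul_cancel (D : ES F A W) {g : A} (hg : IsUnit g) {c d : F} (h : c • g = d • g) : c = d :=
  smul_left_injective F (fun e => D.nt (isUnit_zero_iff.1 (e ▸ hg)).symm) h

theorem cj_ne {g : A} (hg : IsUnit g) {u v : W} {c : F} (h : g * D.η u = c • (D.η v * g)) : c ≠ 0 := by
  rintro rfl
  rw [zero_smul] at h
  exact D.nt (isUnit_zero_iff.1 (h ▸ hg.mul (D.isUnit u))).symm

theorem cj_sq {g : A} (hg : IsUnit g) {u v : W} {c : F} (h : g * D.η u = c • (D.η v * g)) :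
    sg F (D.q u) = c * c * sg F (D.q v) := by
  have : g * D.η u * D.η u = c • (D.η v * (g * D.η u)) := by rw [h, smul_mul_assoc, mul_assoc, h]
  rw [mul_assoc, D.sq, h] at this
  simp only [mul_smul_comm, ← mul_assoc, D.sq, smul_mul_assoc, smul_smul, mul_one, one_mul] at this
  exact D.smul_cancel hg this

theorem Cj.f {g : A} (hg : IsUnit g) {u u' v v' : W} (h : D.Cj g u u') (h' : D.Cj g v v') :
    D.f u' v' = D.f u v := by
  obtain ⟨c, h⟩ := h
  obtain ⟨d, h'⟩ := h'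
  have e1 : g * (D.η u * D.η v) = (c * d) • (D.η u' * D.η v' * g) := by
    rw [← mul_assoc, h, smul_mul_assoc, mul_assoc, h', mul_smul_comm, smul_smul, mul_assoc]
  have e2 : g * (D.η v * D.η u) = (c * d) • (D.η v' * D.η u' * g) := by
    rw [← mul_assoc, h', smul_mul_assoc, mul_assoc, h, mul_smul_comm, smul_smul, mul_assoc, mul_comm]
  rw [D.comm u, D.comm u', mul_smul_comm, e2, smul_mul_assoc, smul_smul, smul_smul] at e1
  have := D.smul_cancel (((D.isUnit _).mul (D.isUnit _)).mul hg) e1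
  exact sg_inj D.two (mul_left_cancel₀ (mul_ne_zero (cj_ne hg h) (cj_ne hg h')) (by rw [← this, mul_comm]))

theorem cj_t {y : W} (hy : D.q y = 1) (ε : ZMod 2) (v : W) : D.Cj (1 + sg F ε • D.η y) v (D.τ y v) := by
  rcases z2 (D.f v y) with e | e
  · exact ⟨1, by simp [D.τ0 e, mul_add, add_mul, D.comm0 e]⟩
  · obtain ⟨c, -, hc⟩ := D.mul y v
    refine ⟨sg F ε * c, ?_⟩
    rw [D.τ1 e, add_comm v, mul_smul, ← smul_mul_assoc c, ← hc]
    simp only [mul_add, add_mul, smul_mul_assoc, mul_smul_comm, mul_assoc, mul_one, one_mul, D.comm1 e, mul_neg,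
      rn (D.sq1 hy), neg_neg, smul_add, smul_smul, sg_mul_self, one_smul, add_comm]

theorem Over.t' (h : D.Over M) {y z : W} (hy : D.q y = 1) (hz : D.q z = 1) (ε ε' : ZMod 2) :
    M.mem ((1 + sg F ε • D.η y) * (1 + sg F ε' • D.η z)) := by
  have h1 := h.t y z hy hz
  have : M.mem ((1 + D.η y) * (1 + sg F ε' • D.η z)) := by
    rcases z2 ε' with rfl | rfl
    · simpa using h1
    · convert Gp.neg (M.mul h1 (h.η z)) using 1
      simp [mul_assoc, add_mul, D.sq1 hz, ← mul_neg, add_comm]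
  rcases z2 ε with rfl | rfl
  · simpa using this
  · convert Gp.neg (M.mul (h.η y) this) using 1
    simp [← mul_assoc, mul_add (D.η y), D.sq1 hy, ← neg_mul, add_comm]

theorem cj_iff (h : D.Over M) (g : M.grp) (u v : W) :
    (g : M.PG) * (Gp.el (h.η u) : M.PG) * (g : M.PG)⁻¹ = (Gp.el (h.η v) : M.PG) ↔ D.Cj g.1 u v := by
  rw [mul_inv_eq_iff_eq_mul, eq_comm, ← QuotientGroup.mk_mul, ← QuotientGroup.mk_mul, Gp.π_eq]
  exact ⟨fun ⟨c, _, e⟩ => ⟨c, e⟩, fun ⟨c, e⟩ => ⟨c, cj_ne g.1.isUnit e, e⟩⟩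

theorem inner' [Finite W] {g : A} (hg : IsUnit g) (h : ∀ u, D.Cj g u u) : ∃ w, ∃ c : F, c ≠ 0 ∧ g = c • D.η w := by
  have : ∀ u, ∃ l, D.η u * g = sg F l • (g * D.η u) := fun u => by
    obtain ⟨c, hc⟩ := h u
    obtain ⟨l, rfl⟩ := exists_sg (c := c) (by simpa [sg_ne] using (cj_sq hg hc).symm)
    exact ⟨l, by rw [hc, smul_smul, sg_mul_self, one_smul]⟩
  choose l hl using this
  obtain ⟨w, c, e⟩ := D.inner l hl
  exact ⟨w, c, by rintro rfl; exact D.nt (isUnit_zero_iff.1 (by simpa [e] using hg)).symm, e⟩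

/-- conjugation in `M` preserves the good vectors -/
def Hq (D : ES F A W) (M : Gp F A) : Prop := ∀ g u v, M.mem g → D.Cj g u v → D.q u = 1 → D.q v = 1

/-- the group datum -/
noncomputable def gd [Finite W] (h : D.Over M) (hq : D.Hq M) : GD M.PG W where
  toSp := D.toSp
  ι u := Gp.el (h.η u)
  q := D.q
  q0 := D.q0
  add u v := by
    obtain ⟨c, c0, e⟩ := D.mul u v
    exact Gp.π_eq.2 ⟨c, c0, e⟩
  inj u e := by
    obtain ⟨c, -, e⟩ := Gp.π_eq.1 (e.symm : ((1 : M.grp) : M.PG) = _)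
    exact D.eq_of_smul (c := c) (by rw [D.η0]; exact e)
  hf g u u' v v' := QuotientGroup.induction_on g fun g e e' =>
    ((cj_iff h ..).1 e).f g.1.isUnit ((cj_iff h ..).1 e')
  hq g u u' := QuotientGroup.induction_on g fun g e => hq _ _ _ g.2 ((cj_iff h ..).1 e)
  inner g := QuotientGroup.induction_on g fun g e => by
    obtain ⟨w, c, c0, e⟩ := inner' g.1.isUnit fun u => (cj_iff h ..).1 (e u)
    exact ⟨w, (Gp.π_eq.2 ⟨c, c0, e⟩).symm⟩
  c1 y z hy hz := ⟨Gp.el (h.t' hy hz 0 0), fun v => (cj_iff h ..).2 ((cj_t hy 0 _).mul (cj_t hz 0 _))⟩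
  c2 b w w' := QuotientGroup.induction_on b fun b bb hw e e' => by
    obtain ⟨c, hc⟩ := (cj_iff h ..).1 e
    have hw' := hq _ _ _ b.2 ⟨c, hc⟩ hw
    obtain ⟨l, rfl⟩ := exists_sg (c := c) (by simpa [hw, hw'] using (cj_sq b.1.isUnit hc).symm)
    obtain ⟨κ, -, hκ⟩ := Gp.π_eq.1 (bb.symm : ((1 : M.grp) : M.PG) = (b * b : M.grp))
    refine ⟨Gp.el (h.t' hw hw' 0 l), Gp.π_eq.2 ⟨1, one_ne_zero, ?_⟩,
      fun v => (cj_iff h ..).2 ((cj_t hw 0 _).mul (cj_t hw' l _))⟩
    simp only [Subgroup.coe_mul, Units.val_mul, Subgroup.coe_one, Units.val_one, Gp.el_val, sg_zero, one_smul]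
      at hκ ⊢
    have e1 : b.1.1 * (sg F l • D.η w') = D.η w * b.1.1 := b.1.mul_left_inj.1 (by
      rw [mul_assoc, smul_mul_assoc, ← hc, ← mul_assoc, mul_assoc (D.η w), hκ]; simp)
    rw [← smul_mul_assoc] at hc
    have e2 : D.η w * (sg F l • D.η w') = (sg F l • D.η w') * D.η w := by simp [D.comm0 e']
    generalize sg F l • D.η w' = Y at *
    simp only [mul_add, add_mul, mul_one, one_mul, hc, e1, ← mul_assoc]
    rw [mul_assoc Y, e1, ← mul_assoc, e2]; abel

/-- the weak centraliser condition -/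
def Iw (D : ES F A W) (M : Gp F A) (x : W) : Prop :=
  ∀ g, M.mem g → g * D.η x = D.η x * g → ∀ u, D.f u x = 0 → ∃ v, D.Cj g u v

variable [Finite W]

theorem Iw.gd (h : D.Over M) (hq : D.Hq M) {x : W} (hx : x ≠ 0) (hI : D.Iw M x) : (gd h hq).Iw x := by
  intro g
  induction g using QuotientGroup.induction_on with | H g => ?_
  intro e u hu
  obtain ⟨c, hc⟩ := (cj_iff h ..).1 e
  refine Exists.imp (fun v e => (cj_iff h ..).2 e) ?_
  rcases mul_self_eq_one_iff.1 (by simpa [sg_ne] using (cj_sq g.1.isUnit hc).symm : c * c = 1) with rfl | rfl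
  · exact hI _ g.2 (by simpa using hc) u hu
  · obtain ⟨w, hw⟩ := D.nd x hx
    obtain ⟨v, hv⟩ := hI _ (M.mul g.2 (h.η w)) (by
      rw [mul_assoc, D.comm1 hw, mul_neg, ← mul_assoc, hc]; simp [mul_assoc]) u hu
    exact ⟨v, by simpa [mul_assoc, D.sq, smul_smul] using (hv.mul (cj_η w u)).smul (sg F (D.q w))⟩

theorem nrm_of_Iw (h : D.Over M) (hq : D.Hq M) (h3 : D.G3 D.q) {x : W} (hx : x ≠ 0) (hI : D.Iw M x)
    (hS : ∀ y, D.q y = 1 → D.Iw M y) {g : A} (hg : M.mem g) (e : D.Cj g x x) : D.Nrm g := fun u =>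
  (GD.I_of_Iw (D := gd h hq) h3 hx (hI.gd h hq hx) (fun y hy => (hS y hy).gd h hq (D.ne_of_q hy))
    (Gp.el hg) ((cj_iff h ..).2 e) u).imp fun _ e => (cj_iff h (Gp.el hg) ..).1 e

theorem core [Finite A] (h : D.Over M) (hq : D.Hq M) (h3 : D.G3 D.q) (h64 : 64 ≤ Nat.card W)
    (hI : ∀ x, x ≠ 0 → D.Iw M x) {g : A} (hg : M.mem g) : D.Nrm g := fun u =>
  (GD.final (D := gd h hq) h3 h64 (fun x hx => GD.I_of_Iw h3 hx ((hI x hx).gd h hq hx)
    fun y hy => (hI y (D.ne_of_q hy)).gd h hq (D.ne_of_q hy)) (Gp.el hg) u).imp fun _ e =>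
      (cj_iff h (Gp.el hg) ..).1 e

theorem no_eig {u x : W} (h0 : u ≠ 0) (h1 : u ≠ x) (hx : x ≠ 0) (j κ : F) :
    D.η u * (1 + j • D.η x) ≠ κ • (1 + j • D.η x) := fun e => by
  obtain ⟨c, -, hc⟩ := D.mul u x
  refine D.linInd.notMem_span_image (s := {0, x, u + x}) (x := u) (by simp [*]) ?_
  rw [mul_add, mul_one, mul_smul_comm, hc, ← D.η0, ← eq_sub_iff_add_eq] at e
  rw [e]
  exact sub_mem (Submodule.smul_mem _ _ (add_mem (Submodule.subset_span (by simp))
    (Submodule.smul_mem _ _ (Submodule.subset_span (by simp)))))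
    (Submodule.smul_mem _ _ (Submodule.smul_mem _ _ (Submodule.subset_span (by simp))))

theorem proj_ne {x : W} (hx : x ≠ 0) (j : F) : 1 + j • D.η x ≠ 0 := fun e =>
  hx (D.eq_of_smul (c := -j) (by rw [D.η0, neg_smul, eq_neg_iff_add_eq_zero, e])).symm

end ES

theorem Sp.exists_perp3 (S : Sp W) [Finite W] (h : 16 < Nat.card W) (a b c x : W) :
    ∃ v, v ≠ 0 ∧ v ≠ x ∧ S.f v a = 0 ∧ S.f v b = 0 ∧ S.f v c = 0 := by
  classical
  have := Fintype.ofFinite W
  obtain ⟨y, hy⟩ := Fintype.exists_lt_card_fiber_of_mul_lt_card (n := 2)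
    (fun v => (S.f v a, S.f v b, S.f v c)) (by simpa [← Nat.card_eq_fintype_card] using h)
  obtain ⟨p, q, r, h1, h2, h3, h4, h5, h6⟩ := Finset.two_lt_card_iff.1 hy
  simp only [Finset.mem_filter, Finset.mem_univ, true_and, Prod.ext_iff] at h1 h2 h3
  by_cases e : p + q = x
  · exact ⟨p + r, mt add_eq_zero'.1 h5, by simpa [← e] using h6.symm, by simp [*]⟩
  · exact ⟨p + q, mt add_eq_zero'.1 h4, e, by simp [*]⟩

theorem Sp.g3 (S : Sp W) [Finite W] (h : 16 < Nat.card W) {q : W → ZMod 2} (hq : ∀ u, u ≠ 0 → q u = 1) :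
    S.G3 q := fun w a b c => by
  obtain ⟨v, -, h1, h2⟩ := S.exists_perp3 h a b c w
  exact ⟨v + w, hq _ (mt add_eq_zero'.1 h1), by simp [h2]⟩

namespace ES
variable {D : ES F A W} {M : Gp F A} [Finite W]

/-- the centraliser condition on one eigenspace -/
def Iww (D : ES F A W) (M : Gp F A) (x : W) (j : F) : Prop :=
  ∀ g, M.mem g → g * D.η x = D.η x * g → ∀ u, D.f u x = 0 → ∃ v, ∃ c : F, D.f v x = 0 ∧
    g * D.η u * (1 + j • D.η x) = c • (D.η v * g * (1 + j • D.η x))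

theorem Iww.conj {x : W} {j : F} (h : D.Iww M x j) {g g' : A} (hg : M.mem g) (e : g * D.η x = D.η x * g)
    (h1 : g * g' = 1) (h2 : g' * g = 1) {u : W} (hu : D.f u x = 0) : ∃ v, ∃ c : F, D.f v x = 0 ∧
    g * D.η u * g' * (1 + j • D.η x) = (c • D.η v) * (1 + j • D.η x) := by
  obtain ⟨v, c, h3, h4⟩ := h g hg e u hu
  have e' : g' * D.η x = D.η x * g' := by rw [← mul_one (g' * _), ← h1, mul_assoc, ← rc e, r1 h2]
  have : g' * (1 + j • D.η x) = (1 + j • D.η x) * g' := by simp [mul_add, add_mul, e']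
  exact ⟨v, c, h3, by rw [mul_assoc, this, ← mul_assoc, h4]; simp only [smul_mul_assoc, mul_assoc, ← this, r1 h1]⟩

/-- gluing of the two halves -/
theorem glue {x y y' : W} {j c c' : F} {E : A} (hx : x ≠ 0) (hj : j * j * sg F (D.q x) = 1)
    (hE : ∃ ε : F, E * E = ε • 1) (hy : D.f y x = 0) (hyy : y' = y ∨ y' = y + x)
    (h1 : E * (1 + j • D.η x) = (c' • D.η y') * (1 + j • D.η x))
    (h2 : E * (1 + (-j) • D.η x) = (c • D.η y) * (1 + (-j) • D.η x)) : ∃ v, ∃ c : F, E = c • D.η v := by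
  obtain ⟨d, -, hd⟩ := D.mul y x
  have j0 : j ≠ 0 := by rintro rfl; simp at hj
  obtain ⟨c', h1⟩ : ∃ c' : F, E * (1 + j • D.η x) = (c' • D.η y) * (1 + j • D.η x) := by
    rcases hyy with rfl | rfl
    · exact ⟨_, h1⟩
    obtain ⟨d, -, hd⟩ := D.mul (y + x) x
    obtain ⟨d', -, hd'⟩ := D.mul (y + x + x) x
    refine ⟨c' * j * d, ?_⟩
    have : (1 + j • D.η x) = j • (D.η x * (1 + j • D.η x)) := by
      simp only [mul_add, mul_one, mul_smul_comm, D.sq, smul_add, smul_smul, ← mul_assoc, hj, one_smul, add_comm]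
    rw [h1]; nth_rewrite 1 [this]
    rw [mul_smul_comm, ← mul_assoc, smul_mul_assoc c', hd, aa'', smul_smul, ← smul_mul_assoc, smul_smul]
    congr 2; ring
  obtain ⟨ε, hE⟩ := hE
  have s : ∀ (c j : F), E * (1 + j • D.η x) = (c • D.η y) * (1 + j • D.η x) → ε = c * c * sg F (D.q y) :=
    fun c j h => by
      have := sq_of h (by simp [mul_add, add_mul, D.comm0 hy, smul_comm c])
      simp only [hE, smul_mul_assoc, mul_smul_comm, one_mul, D.sq, smul_smul] at this
      exact smul_left_injective F (proj_ne hx j) (by simpa only [mul_assoc] using this)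
  have h3 : (2 : F) • E = (c' + c) • D.η y + ((c' - c) * j * d) • D.η (y + x) := by
    simp only [mul_add, mul_one, smul_mul_assoc, mul_smul_comm, hd] at h1 h2
    linear_combination (norm := module) h1 + h2
  replace h3 := congrArg ((2 : F)⁻¹ • ·) h3
  simp only [smul_smul, inv_mul_cancel₀ D.two, one_smul, smul_add] at h3
  rcases mul_self_eq_mul_self_iff.1 (mul_right_cancel₀ (sg_ne _) ((s _ _ h1).symm.trans (s _ _ h2))) with e | e
  · exact ⟨y, _, by rw [h3, e, sub_self, zero_mul, zero_mul, mul_zero, zero_smul, add_zero]⟩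
  · exact ⟨y + x, _, by rw [h3, e, neg_add_cancel, mul_zero, zero_smul, zero_add]⟩

theorem half_sq {x y u : W} {j c : F} {g g' : A} (hx : x ≠ 0) (hj : j * j * sg F (D.q x) = 1)
    (e : g * D.η x = D.η x * g) (h1 : g * g' = 1) (h2 : g' * g = 1) (u0 : u ≠ 0) (ux : u ≠ x) (hy : D.f y x = 0)
    (h : g * D.η u * g' * (1 + j • D.η x) = (c • D.η y) * (1 + j • D.η x)) :
    y ≠ 0 ∧ y ≠ x ∧ sg F (D.q u) = c * c * sg F (D.q y) := by
  have e' : g * (1 + j • D.η x) = (1 + j • D.η x) * g := by simp [mul_add, add_mul, e]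
  have n : ∀ κ : F, (c • D.η y) * (1 + j • D.η x) ≠ κ • (1 + j • D.η x) := fun κ h' =>
    no_eig (D := D) u0 ux hx j κ (by
      have := congrArg (g' * · * g) (h.trans h')
      simpa only [mul_assoc, ← e', r1 h2, mul_smul_comm, smul_mul_assoc] using this)
  refine ⟨by rintro rfl; exact n c (by simp [D.η0]), ?_, ?_⟩
  · rintro rfl
    refine n (c * j * sg F (D.q y)) ?_
    simp only [mul_add, mul_one, smul_mul_assoc, mul_smul_comm, D.sq]
    match_scalars
    · linear_combination (-c) * hj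
    · ring
  · have := sq_of h (by simp [mul_add, add_mul, D.comm0 hy, smul_comm c])
    simp only [mul_assoc g, mul_assoc (D.η u), r1 h2, ← mul_assoc (D.η u) (D.η u), D.sq, smul_mul_assoc,
      mul_smul_comm, one_mul, h1, smul_smul] at this
    exact smul_left_injective F (proj_ne hx j) (by simpa only [mul_assoc] using this)

theorem cj_of_conj {g g' : A} (h2 : g' * g = 1) {u : W} (h : ∃ v, ∃ c : F, g * D.η u * g' = c • D.η v) :
    ∃ v, D.Cj g u v := h.imp fun v h => h.imp fun c h => by rw [← smul_mul_assoc, ← h, mul_assoc, h2, mul_one]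

theorem Iw_of_Iww (h : D.Over M) (hq : ∀ u, u ≠ 0 → D.q u = 1) (h64 : 16 < Nat.card W) {i : F} (hi : i * i = -1)
    (hI : ∀ x, x ≠ 0 → ∀ i : F, i * i = -1 → D.Iww M x i) {x : W} (hx : x ≠ 0) : D.Iw M x := by
  intro g hg e u hu
  by_cases u0 : u = 0
  · exact ⟨0, 1, by simp [u0, D.η0]⟩
  by_cases ux : u = x
  · exact ⟨x, 1, by simp [ux, e]⟩
  obtain ⟨g', hg', g1, g2⟩ := M.inv hg
  have hj : ∀ x, x ≠ 0 → i * i * sg F (D.q x) = 1 := fun x hx => by simp [hi, hq x hx]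
  obtain ⟨y, c, y1, y2⟩ := (hI x hx i hi).conj hg e g1 g2 hu
  obtain ⟨z, d, z1, z2⟩ := (hI x hx (-i) (by simpa)).conj hg e g1 g2 hu
  have EE : g * D.η u * g' * (g * D.η u * g') = -1 := by simp [mul_assoc, r1 g2, rn (D.sq1 (hq u u0)), g1]
  refine cj_of_conj g2 ?_
  by_contra hc
  have hyz : ¬ (y = z ∨ y = z + x) := fun h' => hc (glue hx (hj x hx) ⟨-1, by simp [EE]⟩ z1 h' y2 z2)
  push Not at hyz
  obtain ⟨y3, y4, y5⟩ := half_sq hx (hj x hx) e g1 g2 u0 ux y1 y2
  obtain ⟨z3, z4, z5⟩ := half_sq hx (by simpa using hj x hx) e g1 g2 u0 ux z1 z2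
  rw [hq _ u0, hq _ ‹_›] at y5 z5
  obtain ⟨l, rfl⟩ := exists_sg (c := d) (by simpa using z5.symm)
  obtain ⟨x', x1, x2, x3, x4, x5, v, ⟨⟨v1, v2⟩, v3⟩, v4⟩ : ∃ x', x' ≠ 0 ∧ x' ≠ x ∧ D.f x' x = 0 ∧ D.f x' y = 0 ∧
      D.f x' z = 0 ∧ ∃ v, ((D.f v x = 0 ∧ D.f v z = 0) ∧ D.f v x' = 0) ∧ D.f v y = 1 := by
    have n := hyz.2
    rw [add_comm] at n
    rcases E.z2 (D.f z y) with e | e
    · obtain ⟨v, v1, v2⟩ := D.ex3 y3 y4 hyz.1 n
      exact ⟨z, z3, z4, z1, e, D.alt z, v, ⟨v1, v1.2⟩, v2⟩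
    · obtain ⟨x', x1, x2, x3, x4, x5⟩ := D.exists_perp3 h64 x y z x
      have : ∀ a, D.f z a = 0 → y ≠ a := by rintro a h rfl; simp [h] at e
      have x6 := (D.symm _ _).trans x5
      exact ⟨x', x1, x2, x3, x4, x5, D.ex4 y3 y4 hyz.1 n (this _ x6) (this _ (by simp [*])) (this _ (by simp [*]))
        (this _ (by simp [*]))⟩
  have m1 : M.mem ((1 + g * D.η u * g') * (1 - sg F l • D.η z)) := by
    have a1 := M.mul (M.mul hg (h.t u x (hq u u0) (hq x hx))) hg'
    have a2 := h.t' (hq x hx) (hq z z3) 1 (l + 1)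
    refine Gp.of_smul D.two ?_
    convert M.mul a1 a2 using 1
    have e' : D.η x * g' = g' * D.η x := by rw [← mul_one (g' * _), ← g1, mul_assoc, ← rc e, r1 g2]
    simp only [sg_add, mul_add, add_mul, mul_sub, smul_mul_assoc, mul_smul_comm, mul_assoc, mul_one, one_mul,
      mul_neg, neg_mul, sg_one, neg_smul, one_smul, g1, r1 g1, e', rc e', D.sq1 (hq x hx), rn (D.sq1 (hq x hx))]
    module
  have a2 : (c • D.η y) * (c • D.η y) = -1 := by
    simp only [smul_mul_assoc, mul_smul_comm, D.sq1 (hq y y3), smul_smul]; simp [show c * c = 1 by simpa using y5.symm]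
  have b2 : (sg F l • D.η z) * (sg F l • D.η z) = -1 := by simp [D.sq1 (hq z z3), smul_smul]
  have J2 : (i • D.η x) * (i • D.η x) = 1 := by simp [D.sq1 (hq x hx), smul_smul, hi]
  have Ja : (i • D.η x) * (c • D.η y) = (c • D.η y) * (i • D.η x) := by simp [D.comm0 y1, smul_comm c]
  have Jb : (i • D.η x) * (sg F l • D.η z) = (sg F l • D.η z) * (i • D.η x) := by simp [D.comm0 z1, smul_comm i]
  have cm : ∀ {r}, D.f r x = 0 → D.f r z = 0 → D.η r * (i • D.η x) = (i • D.η x) * D.η r ∧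
      D.η r * (sg F l • D.η z) = (sg F l • D.η z) * D.η r := fun h1 h2 => by simp [D.comm0 h1, D.comm0 h2]
  obtain ⟨XJ, Xb⟩ := cm v1 v2
  obtain ⟨PJ, Pb⟩ := cm x3 x5
  have Xa : D.η v * (c • D.η y) = -((c • D.η y) * D.η v) := by simp [D.comm1 v4]
  have Pa : D.η x' * (c • D.η y) = (c • D.η y) * D.η x' := by simp [D.comm0 x4]
  rw [neg_smul, ← sub_eq_add_neg] at z2
  have n := no_eig (D := D) hx x2.symm x1 i
  have hJ : D.η x = (-i) • i • D.η x := by simp [smul_smul, hi]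
  rw [hJ] at n
  generalize i • D.η x = J at *
  generalize c • D.η y = a at *
  generalize sg F l • D.η z = b at *
  generalize g * D.η u * g' = E at *
  have hE : (2 : F) • E = a * (1 + J) + b * (1 - J) := by rw [← y2, ← z2, ← mul_add, two_smul]; noncomm_ring
  obtain ⟨H, hH, hH'⟩ : ∃ H, M.mem H ∧ H = ((2 : F) • 1 + (a * (1 + J) + b * (1 - J))) * (1 - b) :=
    ⟨_, M.smul D.two m1, by rw [← hE, ← smul_add, smul_mul_assoc]⟩
  have PH : H * D.η x' = D.η x' * H := by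
    simp only [hH', mul_add, add_mul, mul_sub, sub_mul, smul_mul_assoc, mul_smul_comm, mul_assoc, mul_one, one_mul,
      PJ, rc PJ, Pa, rc Pa, Pb, rc Pb]
  have key : (2 : F) • (H * D.η v) = (a * (1 + J) + (1 - J)) * D.η v * H := by
    simp only [hH', mul_add, add_mul, mul_sub, sub_mul, smul_mul_assoc, mul_smul_comm, mul_assoc, mul_one, one_mul,
      mul_neg, neg_mul, XJ, rc XJ, Xa, ra Xa, Xb, rc Xb, Ja, rc Ja, Jb, rc Jb, J2, r1 J2, a2, rn a2, b2, rn b2]
    module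
  obtain ⟨H', -, H1, H2⟩ := M.inv hH
  obtain ⟨r, κ, r1', r2⟩ := (hI x' x1 i hi).conj hH PH H1 H2 v3
  obtain ⟨κ', -, hκ⟩ := D.mul r v
  have e3 : (a * (1 + J) + (1 - J)) * (1 + i • D.η x') =
      ((2 * κ * κ' * sg F (D.q v)) • D.η (r + v)) * (1 + i • D.η x') := by
    have t1 : D.η v * (1 + i • D.η x') = (1 + i • D.η x') * D.η v := by simp [mul_add, add_mul, D.comm0 v3]
    have t2 := congrArg (fun t => (2 : F) • t * D.η v) r2
    simp only [← smul_mul_assoc, key] at t2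
    simp only [mul_assoc, r1 H1, ← t1] at t2
    simp only [← mul_assoc (D.η v), D.sq, smul_mul_assoc, mul_smul_comm, one_mul, ← mul_assoc (D.η r), hκ] at t2
    replace t2 := congrArg (sg F (D.q v) • ·) t2
    simp only [smul_smul, sg_mul_self, one_smul] at t2
    rw [t2, smul_mul_assoc]; congr 1; ring
  have e4 := sq_of e3 (by simp [mul_add, add_mul, D.comm0 (show D.f (r + v) x' = 0 by simp [r1', v3]),
    smul_comm i])
  have e5 : (a * (1 + J) + (1 - J)) * (a * (1 + J) + (1 - J)) = (-4 : F) • J := by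
    simp only [mul_add, add_mul, mul_sub, sub_mul, mul_assoc, mul_one, one_mul,
      mul_neg, neg_mul, Ja, rc Ja, J2, r1 J2, a2, rn a2]
    module
  simp only [e5, smul_mul_assoc, mul_smul_comm, D.sq, smul_smul, one_mul] at e4
  have h4 : (-4 : F) ≠ 0 := by simpa using (by norm_num : (4 : F) = 2 * 2) ▸ mul_ne_zero D.two D.two
  replace e4 := congrArg ((-i * (-4 : F)⁻¹) • ·) e4
  simp only [smul_smul, mul_assoc, inv_mul_cancel₀ h4, mul_one] at e4
  exact n _ (by rw [smul_mul_assoc, e4])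

theorem cx_core [Finite A] (h : D.Over M) (hq : ∀ u, u ≠ 0 → D.q u = 1) (h64 : 64 ≤ Nat.card W) {i : F}
    (hi : i * i = -1) (hI : ∀ x, x ≠ 0 → ∀ i : F, i * i = -1 → D.Iww M x i) {g : A} (hg : M.mem g) : D.Nrm g :=
  core h (fun g u v hg ⟨c, e⟩ hu => hq v (by
      rintro rfl
      rw [D.η0, one_mul, ← mul_one g, mul_assoc, ← mul_smul_comm, (Gp.isUnit hg).mul_right_inj, one_mul,
        ← D.η0] at e
      exact D.ne_of_q hu (D.eq_of_smul e)))
    (D.g3 (by omega) hq) h64 (fun x hx => Iw_of_Iww h hq (by omega) hi hI hx) hg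

end ES

end Cfsg.Agent.H4.E
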