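import Cfsg.Agent.H4.E4

/-! Restriction of an extraspecial datum to the centraliser of an element. -/

set_option autoImplicit false
set_option linter.unusedSectionVars false
set_option linter.unusedSimpArgs false

namespace Cfsg.Agent.H4.E

open Module

variable {W : Type*} [AddCommGroup W] [Module (ZMod 2) W]

namespace Sp
variable (S : Sp W)

/-- the perpendicular of two vectors -/
def pp (x w : W) : Submodule (ZMod 2) W where
  carrier := {u | S.f u x = 0 ∧ S.f u w = 0}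
  zero_mem' := by simp
  add_mem' h h' := by simp [h.1, h.2, h'.1, h'.2]
  smul_mem' c u h := by simp [h.1, h.2]

variable {S} {x w : W}

/-- projection -/
def pr (h : S.f w x = 1) (v : W) : S.pp x w :=
  ⟨v + S.f v w • x + S.f v x • w, by simp [h], by simp [S.symm x, h]⟩

theorem pr_val (h : S.f w x = 1) (v : W) : (pr h v : W) = v + S.f v w • x + S.f v x • w := rfl

/-- the form on the perpendicular of a hyperbolic pair -/
def sub (h : S.f w x = 1) : Sp (S.pp x w) where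
  f := S.f.domRestrict₁₂ _ _
  alt u := S.alt u
  nd u hu := by
    obtain ⟨v, hv⟩ := S.nd u (by simpa using hu)
    exact ⟨pr h v, by
      change S.f (pr h v : W) u = 1
      simp [pr_val, hv, S.symm x, S.symm w, u.2.1, u.2.2]⟩

@[simp] theorem sub_f (h : S.f w x = 1) (u v : S.pp x w) : (sub h).f u v = S.f u v := rfl

theorem card_pp (h : S.f w x = 1) : Nat.card W = 4 * Nat.card (S.pp x w) := by
  let e : W ≃ (ZMod 2 × ZMod 2) × S.pp x w :=
    { toFun := fun v => ((S.f v w, S.f v x), pr h v)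
      invFun := fun p => p.2 + p.1.1 • x + p.1.2 • w
      left_inv := fun v => by simp only [pr_val]; rw [add_right_comm _ _ (_ • x), aa'', aa'']
      right_inv := fun p => by
        have a1 : S.f (p.2 + p.1.1 • x + p.1.2 • w) w = p.1.1 := by simp [S.symm x, h, p.2.2.2]
        have a2 : S.f (p.2 + p.1.1 • x + p.1.2 • w) x = p.1.2 := by simp [h, p.2.2.1]
        ext
        · exact a1
        · exact a2
        · simp only [pr_val, a1, a2]; rw [add_right_comm _ _ (_ • x), aa'', aa''] }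
  simp [Nat.card_congr e]

theorem dec (h : S.f w x = 1) {u : W} (hu : S.f u x = 0) : ∃ v : S.pp x w, u = v ∨ u = v + x := by
  refine ⟨pr h u, ?_⟩
  rcases z2 (S.f u w) with e | e <;> simp [pr_val, hu, e]

end Sp

variable {F V : Type*} [Field F] [AddCommGroup V] [Module F V]

/-- a module for the centraliser of `η x` -/
structure RM (D : ES F (End F V) W) (x : W) (K V' : Type*) [Field K] [Algebra F K] [AddCommGroup V']
    [Module K V'] where
  ι : V' →+ V
  inj : Function.Injective ι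
  smul : ∀ (c : F) v, ι (algebraMap F K c • v) = c • ι v
  κ : K
  hκ : ∀ v, ι (κ • v) = D.η x (ι v)
  ex : ∀ a, a * D.η x = D.η x * a → ∃ a' : End K V', ∀ v, ι (a' v) = a (ι v)
  surj : ∀ a' : End K V', ∃ a, a * D.η x = D.η x * a ∧ ∀ v, ι (a' v) = a (ι v)
  nt : Nontrivial V'

namespace RM
variable {D : ES F (End F V) W} {x w : W} {K V' : Type*} [Field K] [Algebra F K] [AddCommGroup V'] [Module K V']
  (R : RM D x K V') {M : Gp F (End F V)}

/-- `a'` is the restriction of `a` -/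
def Rel (a : End F V) (a' : End K V') : Prop := a * D.η x = D.η x * a ∧ ∀ v, R.ι (a' v) = a (R.ι v)

variable {R} {a b : End F V} {a' b' : End K V'}
theorem Rel.uniq (h : R.Rel a a') (h' : R.Rel a b') : a' = b' :=
  LinearMap.ext fun v => R.inj (by rw [h.2, h'.2])
theorem Rel.mul (h : R.Rel a a') (h' : R.Rel b b') : R.Rel (a * b) (a' * b') :=
  ⟨by rw [mul_assoc, h'.1, ← mul_assoc, h.1, mul_assoc], fun v => by simp [h.2, h'.2]⟩
theorem Rel.add (h : R.Rel a a') (h' : R.Rel b b') : R.Rel (a + b) (a' + b') :=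
  ⟨by rw [add_mul, mul_add, h.1, h'.1], fun v => by simp [h.2, h'.2]⟩
theorem Rel.smul (h : R.Rel a a') (c : F) : R.Rel (c • a) (algebraMap F K c • a') :=
  ⟨by simp [h.1], fun v => by simp [R.smul, h.2]⟩
theorem Rel.sg (h : R.Rel a a') (c : ZMod 2) : R.Rel (sg F c • a) (sg K c • a') := by
  simpa [map_sg] using h.smul (E.sg F c)
variable (R)
theorem rel_one : R.Rel 1 1 := ⟨by simp, by simp⟩
theorem rel_κ : R.Rel (D.η x) (R.κ • 1) := ⟨rfl, by simp [R.hκ]⟩
theorem two (_ : RM D x K V') : (2 : K) ≠ 0 := by rw [← map_ofNat (algebraMap F K) 2]; exact (map_ne_zero _).2 D.two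
theorem one_ne (R : RM D x K V') : (1 : End K V') ≠ 0 := by have := R.nt; exact one_ne_zero
theorem κ_sq : R.κ * R.κ = E.sg K (D.q x) := by
  have := (R.rel_κ.mul R.rel_κ).uniq (D.sq x ▸ R.rel_one.sg _)
  exact smul_left_injective K R.one_ne (by simpa [smul_smul] using this)
theorem κ_ne : R.κ ≠ 0 := fun e => sg_ne (F := K) (D.q x) (by rw [← R.κ_sq, e, zero_mul])

open Classical in
/-- the restriction of `η u` -/
noncomputable def φ (u : W) : End K V' := if h : D.f u x = 0 then (R.ex _ (D.comm0 h)).choose else 0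

theorem rel_φ {u : W} (h : D.f u x = 0) : R.Rel (D.η u) (R.φ u) :=
  ⟨D.comm0 h, by rw [φ, dif_pos h]; exact (R.ex _ (D.comm0 h)).choose_spec⟩

theorem φ_mul {u v : W} (h : D.f u x = 0) (h' : D.f v x = 0) :
    ∃ c : K, c ≠ 0 ∧ R.φ u * R.φ v = c • R.φ (u + v) := by
  obtain ⟨c, c0, e⟩ := D.mul u v
  exact ⟨_, (map_ne_zero _).2 c0, ((R.rel_φ h).mul (R.rel_φ h')).uniq (e ▸ (R.rel_φ (by simp [h, h'])).smul c)⟩

theorem φ_sq {u : W} (h : D.f u x = 0) : R.φ u * R.φ u = E.sg K (D.q u) • 1 :=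
  ((R.rel_φ h).mul (R.rel_φ h)).uniq (D.sq u ▸ R.rel_one.sg _)

theorem φ_add {u : W} (h : D.f u x = 0) : ∃ c : K, c ≠ 0 ∧ R.φ (u + x) = c • R.φ u := by
  obtain ⟨c, c0, e⟩ := R.φ_mul h (D.alt x)
  rw [(R.rel_φ (D.alt x)).uniq R.rel_κ] at e
  exact ⟨c⁻¹ * R.κ, mul_ne_zero (inv_ne_zero c0) R.κ_ne, by
    rw [mul_smul, eq_inv_smul_iff₀ c0, ← e]; simp⟩

theorem φ_dec (hw : D.f w x = 1) {u : W} (h : D.f u x = 0) :
    ∃ v : D.pp x w, ∃ c : K, c ≠ 0 ∧ R.φ u = c • R.φ v ∧ (u = v ∨ u = v + x) := by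
  obtain ⟨v, e | e⟩ := Sp.dec hw h
  · exact ⟨v, 1, one_ne_zero, by simp [e], .inl e⟩
  · obtain ⟨c, c0, e'⟩ := R.φ_add v.2.1
    exact ⟨v, c, c0, e ▸ e', .inr e⟩

/-- the restricted datum -/
noncomputable def res [Finite W] (hw : D.f w x = 1) (c : W → K) (q : W → ZMod 2) (c0 : c 0 = 1)
    (hc : ∀ u, c u * c u * E.sg K (D.q u) = E.sg K (q u)) : ES K (End K V') (D.pp x w) where
  toSp := Sp.sub hw
  η u := c u • R.φ u
  q u := q u
  η0 := by simpa [c0] using (R.rel_φ (u := 0) (by simp)).uniq (D.η0 ▸ R.rel_one)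
  mul u v := by
    have n : ∀ u, c u ≠ 0 := fun u e => sg_ne (F := K) (q u) (by simp [← hc, e])
    obtain ⟨d, d0, e⟩ := R.φ_mul u.2.1 v.2.1
    exact ⟨c u * c v * d / c (u + v), by simp [n, d0], by
      simp only [smul_mul_assoc, mul_smul_comm, e, smul_smul, Submodule.coe_add, div_mul_cancel₀ _ (n _)]
      congr 1; ring⟩
  comm u v := by
    have := ((R.rel_φ u.2.1).mul (R.rel_φ v.2.1)).uniq (D.comm u v ▸ ((R.rel_φ v.2.1).mul (R.rel_φ u.2.1)).sg _)
    simp only [smul_mul_assoc, mul_smul_comm, this, smul_smul, Sp.sub_f]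
    congr 1; ring
  sq u := by simp only [smul_mul_assoc, mul_smul_comm, R.φ_sq u.2.1, smul_smul, ← hc, mul_assoc]
  span := by
    have n : ∀ u, c u ≠ 0 := fun u e => sg_ne (F := K) (q u) (by simp [← hc, e])
    rw [eq_top_iff]
    rintro a' -
    obtain ⟨a, h⟩ : ∃ a, R.Rel a a' := R.surj a'
    have := D.weight {x} 0 (a := a) (by simp [h.1])
    induction this using Submodule.span_induction generalizing a' with
    | mem a ha =>
      obtain ⟨u, hu, rfl⟩ := ha
      have hu : D.f u x = 0 := by simpa [D.symm x] using hu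
      obtain ⟨v, d, -, e, -⟩ := R.φ_dec hw hu
      rw [h.uniq (R.rel_φ hu), e, ← inv_smul_smul₀ (n v) (R.φ v)]
      exact Submodule.smul_mem _ _ (Submodule.smul_mem _ _ (Submodule.subset_span ⟨v, rfl⟩))
    | zero => simp [h.uniq (b' := 0) ⟨by simp, by simp⟩]
    | add a b ha hb iha ihb =>
      have n : ∀ a ∈ Submodule.span F (D.η '' {v | ∀ u ∈ ({x} : Finset W), D.f u v = (0 : W → ZMod 2) u}),
          ∃ a', R.Rel a a' := fun a ha => by
        have : a * D.η x = D.η x * a := by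
          induction ha using Submodule.span_induction with
          | mem a ha => obtain ⟨u, hu, rfl⟩ := ha; exact (D.comm0 (by simpa using hu)).symm
          | zero => simp
          | add a b _ _ h1 h2 => simp [add_mul, mul_add, *]
          | smul c a _ h => simp [h]
        exact (R.ex a this).imp fun a' h => ⟨this, h⟩
      obtain ⟨a1, h1⟩ := n a ha
      obtain ⟨b1, h2⟩ := n b hb
      exact h.uniq (h1.add h2) ▸ add_mem (iha h1) (ihb h2)
    | smul d a ha iha =>
      by_cases d0 : d = 0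
      · simp [h.uniq (b' := 0) ⟨by simp [d0], by simp [d0]⟩]
      have := iha (by simpa [smul_smul, d0] using h.smul d⁻¹)
      simpa [smul_smul, d0] using Submodule.smul_mem _ (algebraMap F K d) this
  two := R.two
  nt := R.one_ne

/-- the restricted group -/
def resG (M : Gp F (End F V)) : Gp K (End K V') where
  mem b := ∃ a a', ∃ c : K, c ≠ 0 ∧ M.mem a ∧ R.Rel a a' ∧ b = c • a'
  one := ⟨1, 1, 1, one_ne_zero, M.one, R.rel_one, by simp⟩
  mul := by
    rintro _ _ ⟨a, a', c, c0, h1, h2, rfl⟩ ⟨b, b', d, d0, h3, h4, rfl⟩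
    exact ⟨_, _, c * d, mul_ne_zero c0 d0, M.mul h1 h3, h2.mul h4, by simp [smul_smul, mul_comm]⟩
  smul := by
    rintro _ d d0 ⟨a, a', c, c0, h1, h2, rfl⟩
    exact ⟨_, _, d * c, mul_ne_zero d0 c0, h1, h2, smul_smul ..⟩
  inv := by
    rintro _ ⟨a, a', c, c0, h1, h2, rfl⟩
    obtain ⟨b, h3, h4, h5⟩ := M.inv h1
    have : b * D.η x = D.η x * b := by rw [← mul_one (b * _), ← h4, mul_assoc, ← rc h2.1, r1 h5]
    obtain ⟨b', h6⟩ := R.ex b this
    exact ⟨c⁻¹ • b', ⟨b, b', _, inv_ne_zero c0, h3, ⟨this, h6⟩, rfl⟩,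
      by simp [smul_smul, c0, (h2.mul ⟨this, h6⟩).uniq (h4 ▸ R.rel_one)],
      by simp [smul_smul, c0, (Rel.mul ⟨this, h6⟩ h2).uniq (h5 ▸ R.rel_one)]⟩

variable {R}
theorem Rel.mem (h : R.Rel a a') (ha : M.mem a) : (R.resG M).mem a' := ⟨a, a', 1, one_ne_zero, ha, h, by simp⟩

variable [Finite W] {hw : D.f w x = 1} {c : W → K} {q : W → ZMod 2} {c0 : c 0 = 1}
    {hc : ∀ u, c u * c u * E.sg K (D.q u) = E.sg K (q u)}

theorem res_η (u : D.pp x w) : (R.res hw c q c0 hc).η u = c u • R.φ u := rfl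
theorem res_q (u : D.pp x w) : (R.res hw c q c0 hc).q u = q u := rfl

theorem res_over (h : D.Over M) (hS : ∀ y, q y = 1 → D.f y x = 0 → D.q y = 1 ∨ D.q (y + x) = 1) :
    (R.res hw c q c0 hc).Over (R.resG M) := by
  have n : ∀ u, c u ≠ 0 := fun u e => sg_ne (F := K) (q u) (by simp [← hc, e])
  refine ⟨fun u => Gp.smul _ (n u) ((R.rel_φ u.2.1).mem (h.η _)), fun y z hy hz => ?_⟩
  have : ∀ y : D.pp x w, q y = 1 → ∃ y' ε, D.q y' = 1 ∧ R.Rel (E.sg F ε • D.η y') (c y • R.φ y) := fun y hy => by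
    obtain ⟨y', y1, y2, d, e⟩ : ∃ y', D.q y' = 1 ∧ D.f y' x = 0 ∧ ∃ d : K, c y • R.φ y = d • R.φ y' := by
      rcases hS y hy y.2.1 with e | e
      · exact ⟨y, e, y.2.1, _, rfl⟩
      · obtain ⟨d, d0, e'⟩ := R.φ_add y.2.1
        exact ⟨_, e, by simp [y.2.1], c y / d, by rw [e', smul_smul, div_mul_cancel₀ _ d0]⟩
    have := (R.res hw c q c0 hc).sq1 hy
    simp only [res_η, e, smul_mul_assoc, mul_smul_comm, R.φ_sq y2, smul_smul, y1] at this
    obtain ⟨ε, rfl⟩ := exists_sg (c := d) (smul_left_injective K R.one_ne (by simpa using this))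
    exact ⟨y', ε, y1, e ▸ (R.rel_φ y2).sg ε⟩
  obtain ⟨y', ε, y1, y2⟩ := this y hy
  obtain ⟨z', ε', z1, z2⟩ := this z hz
  exact ((R.rel_one.add y2).mul (R.rel_one.add z2)).mem (h.t' y1 z1 ε ε')

/-- pulling back the normaliser condition -/
theorem pull {g : End F V} {g' : End K V'} (hg : R.Rel g g') (h : (R.res hw c q c0 hc).Nrm g') {u : W}
    (hu : D.f u x = 0) : ∃ v, ∃ d : K, D.f v x = 0 ∧ g' * R.φ u = d • (R.φ v * g') := by
  have n : ∀ u, c u ≠ 0 := fun u e => sg_ne (F := K) (q u) (by simp [← hc, e])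
  obtain ⟨u', d, -, e, -⟩ := R.φ_dec hw hu
  obtain ⟨v, d', e'⟩ := h u'
  refine ⟨v, d * (c u')⁻¹ * d' * c v, v.2.1, ?_⟩
  simp only [res_η, mul_smul_comm, smul_mul_assoc, ← eq_inv_smul_iff₀ (n _)] at e'
  simp only [e, mul_smul_comm, e', smul_smul, mul_assoc]

end RM

/-! ### eigenspaces -/

namespace ES
variable (D : ES F (End F V) W) (x : W) (j : F)

/-- the fixed space of `j η x` -/
def Vp : Submodule F V := LinearMap.ker (j • D.η x - 1)

variable {D x j}
theorem mem_Vp {v : V} : v ∈ D.Vp x j ↔ j • D.η x v = v := by simp [Vp, sub_eq_zero]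

theorem proj_mem (hj : j * j * sg F (D.q x) = 1) (v : V) : (1 + j • D.η x) v ∈ D.Vp x j := by
  have := LinearMap.congr_fun (D.sq x) v
  simp only [End.mul_apply, LinearMap.smul_apply, End.one_apply] at this
  simp [mem_Vp, this, smul_smul, ← mul_assoc, hj, add_comm]

/-- the projection onto the fixed space -/
noncomputable def πp (hj : j * j * sg F (D.q x) = 1) : V →ₗ[F] D.Vp x j :=
  (2 : F)⁻¹ • LinearMap.codRestrict _ _ (proj_mem hj)

theorem πp_val (hj : j * j * sg F (D.q x) = 1) (v : V) : (πp hj v : V) = (2 : F)⁻¹ • (v + j • D.η x v) := rfl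

theorem πp_coe (hj : j * j * sg F (D.q x) = 1) (v : D.Vp x j) : πp hj v = v := Subtype.ext (by
  rw [πp_val, mem_Vp.1 v.2, ← two_smul F, smul_smul, inv_mul_cancel₀ D.two, one_smul])

theorem πp_η (hj : j * j * sg F (D.q x) = 1) (v : V) : πp hj (j • D.η x v) = πp hj v := Subtype.ext (by
  have := LinearMap.congr_fun (D.sq x) v
  simp only [End.mul_apply, LinearMap.smul_apply, End.one_apply] at this
  rw [πp_val, πp_val]
  simp only [map_smul, this, smul_smul, ← mul_assoc, hj, one_smul, add_comm])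

/-- the fixed space as a module for the centraliser -/
noncomputable def rm (hx : x ≠ 0) [Finite W] (hj : j * j * sg F (D.q x) = 1) : RM D x F (D.Vp x j) where
  ι := (D.Vp x j).subtype.toAddMonoidHom
  inj := Subtype.val_injective
  smul c v := rfl
  κ := j⁻¹
  hκ v := by
    have j0 : j ≠ 0 := by rintro rfl; simp at hj
    simpa [inv_smul_eq_iff₀ j0] using (mem_Vp.1 v.2).symm
  ex a h := ⟨a.restrict (p := D.Vp x j) fun v hv => by
    rw [mem_Vp, ← End.mul_apply, ← h, End.mul_apply, ← map_smul, mem_Vp.1 hv], fun v => rfl⟩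
  surj a' := ⟨(D.Vp x j).subtype ∘ₗ a' ∘ₗ πp hj, LinearMap.ext fun v => by
    have j0 : j ≠ 0 := by rintro rfl; simp at hj
    refine smul_right_injective V j0 ?_
    simp only [End.mul_apply]
    rw [← map_smul, LinearMap.comp_apply, LinearMap.comp_apply, πp_η]
    exact (mem_Vp.1 (a' _).2).symm, fun v => by simp [πp_coe]⟩
  nt := Submodule.nontrivial_iff_ne_bot.2 fun e => proj_ne (D := D) hx j
    (LinearMap.ext fun v => by simpa [e] using proj_mem hj v)

theorem iww [Finite W] {M : Gp F (End F V)} {w : W} (hx : x ≠ 0) (hj : j * j * sg F (D.q x) = 1) (hw : D.f w x = 1)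
    (h : ∀ g, ((rm hx hj).resG M).mem g → ((rm hx hj).res hw 1 D.q rfl (by simp)).Nrm g) : D.Iww M x j := by
  intro g hg e u hu
  obtain ⟨g', hg'⟩ := (rm hx hj).ex g e
  obtain ⟨v, d, h1, h2⟩ := RM.pull ⟨e, hg'⟩ (h g' (RM.Rel.mem ⟨e, hg'⟩ hg)) hu
  refine ⟨v, d, h1, LinearMap.ext fun y => ?_⟩
  have a1 := (RM.Rel.mul ⟨e, hg'⟩ ((rm hx hj).rel_φ hu)).2 ⟨_, proj_mem hj y⟩
  have a2 := ((((rm hx hj).rel_φ h1).mul ⟨e, hg'⟩).smul d).2 ⟨_, proj_mem hj y⟩
  rw [← smul_mul_assoc]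
  exact a1.symm.trans (h2 ▸ a2)

theorem finrank_sq [Finite W] (D : ES F (End F V) W) [FiniteDimensional F V] : finrank F V ^ 2 = Nat.card W := by
  rw [← D.finrank_eq, finrank_linearMap, pow_two]

end ES

end Cfsg.Agent.H4.E
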