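import Cfsg.Agent.H4.E5
import Cfsg.Agent.H6.SUCore

/-! The complex case: linear and unitary groups. -/

set_option autoImplicit false
set_option linter.unusedSectionVars false
set_option linter.unusedSimpArgs false

namespace Cfsg.Agent.H4.E

open Module Cfsg.Agent.Form

universe u v w

theorem Sp.exists_card {W : Type w} [AddCommGroup W] [Module (ZMod 2) W] [Finite W] (S : Sp W) :
    ∃ n, Nat.card W = 4 ^ n := by
  induction h : Nat.card W using Nat.strong_induction_on generalizing W with | h n ih => ?_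
  rcases subsingleton_or_nontrivial W with h' | h'
  · exact ⟨0, by simp [← h]⟩
  obtain ⟨x, hx⟩ := exists_ne (0 : W)
  obtain ⟨w, hw⟩ := S.nd x hx
  have e := Sp.card_pp hw
  obtain ⟨m, hm⟩ := ih _ (by have := Nat.card_pos (α := S.pp x w); omega) (Sp.sub hw) rfl
  exact ⟨m + 1, by rw [← h, e, hm]; ring⟩

variable {W : Type*} [AddCommGroup W] [Module (ZMod 2) W] {F V : Type*} [Field F] [AddCommGroup V] [Module F V]

namespace Gp
variable (M : Gp F (End F V))

/-- the group of linear equivalences -/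
def sub : Subgroup (V ≃ₗ[F] V) where
  carrier := {g | M.mem (g : V →ₗ[F] V)}
  one_mem' := M.one
  mul_mem' := M.mul
  inv_mem' {g} h := of_mul_left h (by
    rw [show (g : V →ₗ[F] V) * (g⁻¹ : V ≃ₗ[F] V) = 1 from LinearMap.ext g.apply_symm_apply]; exact M.one)

variable {M}
theorem mem_sub {g : V ≃ₗ[F] V} : g ∈ M.sub ↔ M.mem (g : V →ₗ[F] V) := Iff.rfl

theorem exists_sub {a : End F V} (h : M.mem a) : ∃ g ∈ M.sub, (g : V →ₗ[F] V) = a := by
  obtain ⟨b, -, h1, h2⟩ := M.inv h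
  exact ⟨LinearEquiv.ofLinearMap a b h1 h2, h, rfl⟩

theorem has_iff {φ : Dual F V} {v : V} : H7.Has M.sub φ v ↔ M.mem (1 + φ.smulRight v) :=
  ⟨fun ⟨g, h, e⟩ => by rwa [← show (g : V →ₗ[F] V) = 1 + φ.smulRight v from LinearMap.ext e], fun h => by
    obtain ⟨g, h, e⟩ := exists_sub h
    exact ⟨g, h, LinearMap.congr_fun e⟩⟩

/-- `a` agrees on the fixed space of `J` with an element of the centraliser of `J` -/
def Lift (M : Gp F (End F V)) (J a : End F V) : Prop :=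
  ∃ T, M.mem T ∧ T * J = J * T ∧ ∀ z, J z = z → T z = a z

theorem Lift.conj {J J' a g g' : End F V} (h : M.Lift J a) (hg : M.mem g) (h1 : g * g' = 1) (h2 : g' * g = 1)
    (e : g * J = J' * g) : M.Lift J' (g * a * g') := by
  obtain ⟨T, t1, t2, t3⟩ := h
  have e' : g' * J' = J * g' := by rw [← mul_one (g' * _), ← h1, mul_assoc, ← mul_assoc J', ← e, mul_assoc, r1 h2]
  refine ⟨g * T * g', M.mul (M.mul hg t1) (of_mul_left hg (h1 ▸ M.one)), by
    rw [mul_assoc, e', ← mul_assoc, mul_assoc g, t2, ← mul_assoc, e]; simp only [mul_assoc], fun z hz => ?_⟩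
  simp only [End.mul_apply]
  rw [t3 _ (by rw [← End.mul_apply, ← e', End.mul_apply, hz])]

end Gp

theorem ext_J (h2 : (2 : F) ≠ 0) {U : Type*} [AddCommGroup U] [Module F U] {J : End F V} (hJ : J * J = 1)
    {a b : V →ₗ[F] U} (h : ∀ z, J z = z → a z = b z) (h' : ∀ z, J z = -z → a z = b z) : a = b :=
  LinearMap.ext fun z => smul_right_injective U h2 (by
    have : J (J z) = z := LinearMap.congr_fun hJ z
    have e1 := h (z + J z) (by simp [this, add_comm])
    have e2 := h' (z - J z) (by simp [this])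
    simp only [map_add, map_sub] at e1 e2
    linear_combination (norm := module) e1 + e2)

namespace ES
variable {D : ES F (End F V) W} {M : Gp F (End F V)} [Finite W]

/-- `J` is an involution proportional to `η x` -/
def IsJ (D : ES F (End F V) W) (J : End F V) (x : W) : Prop := ∃ i : F, i * i = -1 ∧ J = i • D.η x

variable {J J' : End F V} {x y : W}

theorem IsJ.neg (h : D.IsJ J x) : D.IsJ (-J) x := by
  obtain ⟨i, hi, rfl⟩ := h; exact ⟨-i, by simpa, by simp⟩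
theorem IsJ.sq (h : D.IsJ J x) (hx : D.q x = 1) : J * J = 1 := by
  obtain ⟨i, hi, rfl⟩ := h; simp [D.sq1 hx, smul_smul, hi]
theorem IsJ.comm (h : D.IsJ J x) (h' : D.f y x = 0) : D.η y * J = J * D.η y := by
  obtain ⟨i, hi, rfl⟩ := h; simp [D.comm0 h']
theorem IsJ.comm' (h : D.IsJ J x) (h' : D.IsJ J' y) (e : D.f y x = 0) : J' * J = J * J' := by
  obtain ⟨i, hi, rfl⟩ := h'; simp [h.comm e]
theorem IsJ.mul (h : D.IsJ J x) (h' : D.IsJ J' y) (e : D.f y x = 0) (hx : D.q x = 1) (hy : D.q y = 1)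
    (hxy : D.q (x + y) = 1) : D.IsJ (J * J') (x + y) := by
  have : J * J' * (J * J') = 1 := by rw [mul_assoc, rc (h.comm' h' e), h'.sq hy, mul_one, h.sq hx]
  obtain ⟨i, hi, rfl⟩ := h
  obtain ⟨j, hj, rfl⟩ := h'
  obtain ⟨c, -, hc⟩ := D.mul x y
  simp only [smul_mul_assoc, mul_smul_comm, hc, smul_smul, D.sq1 hxy] at this ⊢
  exact ⟨_, D.smul_inj (by simpa [neg_eq_iff_eq_neg] using this), rfl⟩
theorem IsJ.proj_ne (h : D.IsJ J x) (h' : D.IsJ J' y) (hx : x ≠ 0) (hy : y ≠ 0) (hyx : y ≠ x) :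
    (1 + J') * (1 + J) ≠ 0 := fun e => by
  obtain ⟨i, hi, rfl⟩ := h
  obtain ⟨j, hj, rfl⟩ := h'
  refine no_eig (D := D) hy hyx hx i j ?_
  rw [add_mul, one_mul, smul_mul_assoc, add_eq_zero_iff_eq_neg] at e
  nth_rewrite 2 [e]; simp [smul_smul, hj]
theorem IsJ.exists_vec (h : D.IsJ J x) (h' : D.IsJ J' y) (hx : D.q x = 1) (hy : D.q y = 1) (hyx : y ≠ x)
    (e : D.f y x = 0) : ∃ v, v ≠ 0 ∧ J v = v ∧ J' v = v := by
  obtain ⟨v, hv⟩ := DFunLike.ne_iff.1 (h.proj_ne h' (D.ne_of_q hx) (D.ne_of_q hy) hyx)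
  refine ⟨_, hv, ?_, ?_⟩ <;> rw [← End.mul_apply] <;> congr 1 <;>
    simp only [mul_add, add_mul, mul_one, one_mul, h.sq hx, h'.sq hy, h.comm' h' e, rc (h.comm' h' e),
      r1 (h.sq hx), r1 (h'.sq hy)] <;> abel

theorem exists_cj (h : D.Over M) (h3 : D.G3 D.q) (hx : D.q x = 1) (hy : D.q y = 1)
    (hq : ∀ u v, D.q u = 1 → D.q v = 1 → D.f u v = 1 → D.q (u + v) = 1) : ∃ g, M.mem g ∧ D.Cj g x y := by
  have : ∀ x y, D.q x = 1 → D.q y = 1 → D.f x y = 1 → ∃ g, M.mem g ∧ D.Cj g x y := fun x y hx hy e => by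
    have := (cj_t (hq x y hx hy e) 0 _).mul (cj_t hx 0 x)
    rw [D.τ0 (D.alt x), D.τ1 (by simp [e]), aa'] at this
    exact ⟨_, h.t' (hq x y hx hy e) hx 0 0, this⟩
  by_cases e : x = y
  · exact ⟨1, M.one, 1, by simp [e]⟩
  obtain ⟨v, v1, v2⟩ := D.ex22 (D.ne_of_q hx) (D.ne_of_q hy) e 1 1
  obtain ⟨z, z1, z2, z3, -⟩ := h3 v x y y
  obtain ⟨g, g1, g2⟩ := this x z hx z1 (by rw [D.symm, z2, v1])
  obtain ⟨k, k1, k2⟩ := this z y z1 hy (z3.trans v2)
  exact ⟨_, M.mul k1 g1, k2.mul g2⟩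

theorem IsJ.trans (h : D.Over M) (hJ : D.IsJ J x) (hJ' : D.IsJ J' y) (hx : D.q x = 1) (hy : D.q y = 1)
    (e : ∃ g, M.mem g ∧ D.Cj g x y) : ∃ g, M.mem g ∧ g * J = J' * g := by
  obtain ⟨i, hi, rfl⟩ := hJ
  obtain ⟨j, hj, rfl⟩ := hJ'
  obtain ⟨g, hg, c, hc⟩ := e
  have := cj_sq (Gp.isUnit hg) hc
  rw [hx, hy] at this
  rcases mul_self_eq_mul_self_iff.1 (show (i * c) * (i * c) = j * j by
    simp at this; linear_combination c * c * hi - hj + this) with e | e
  · exact ⟨g, hg, by simp [hc, smul_smul, e]⟩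
  · obtain ⟨w, hw⟩ := D.nd y (D.ne_of_q hy)
    exact ⟨D.η w * g, M.mul (h.η w) hg, by simp [mul_assoc, hc, smul_smul, e, ra (D.comm1 hw)]⟩

theorem comm_mem (h : D.Over M) (hJ : D.IsJ J x) (hx : D.q x = 1) (hy : D.q y = 1) (hxy : D.q (x + y) = 1)
    (e : D.f y x = 0) {a b c : End F V} (ha : M.Lift J a) (hb : ∀ z, J z = z → J (b z) = b z ∧ a (b z) = z)
    (hc : ∀ z, J z = z → c z = a (D.η y (b (-D.η y z)))) (hc' : ∀ z, J z = -z → c z = z) : M.mem c := by
  obtain ⟨T, t1, t2, t3⟩ := ha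
  obtain ⟨T', t4, t5, t6⟩ := M.inv t1
  have YJ : ∀ z, D.η y (J z) = J (D.η y z) := LinearMap.congr_fun (hJ.comm e)
  have YY : ∀ z, D.η y (D.η y z) = -z := LinearMap.congr_fun (D.sq1 hy)
  obtain ⟨k, k1, k2, k3⟩ : ∃ k, M.mem k ∧ (∀ z, J z = z → k z = D.η y z) ∧ ∀ z, J z = -z → k z = z := by
    obtain ⟨ε, hε⟩ : ∃ ε, J * D.η y = sg F ε • D.η (x + y) := by
      have : J * D.η y * (J * D.η y) = -1 := by rw [mul_assoc, rc (hJ.comm e), D.sq1 hy, r1 (hJ.sq hx)]
      obtain ⟨i, hi, rfl⟩ := hJ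
      obtain ⟨d, -, hd⟩ := D.mul x y
      simp only [smul_mul_assoc, mul_smul_comm, hd, smul_smul, D.sq1 hxy] at this ⊢
      obtain ⟨ε, hε⟩ := exists_sg (c := i * d) (D.smul_inj (by simpa using this))
      exact ⟨ε, by rw [hε]⟩
    refine ⟨_, M.smul (inv_ne_zero D.two) (h.t' hy hxy 0 ε), fun z hz => ?_, fun z hz => ?_⟩ <;>
      simp [← hε, ← YJ, hz, YY, inv_smul_eq_iff₀ D.two, two_smul, -smul_add]
    abel
  obtain ⟨k', k4, k5, k6⟩ := M.inv k1
  have inv : ∀ {g g' : End F V}, g' * g = 1 → ∀ {z z'}, g z' = z → g' z = z' := fun h z z' e => by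
    rw [← e, ← End.mul_apply, h]; rfl
  have e' : T' * J = J * T' := by rw [← mul_one (T' * _), ← t5, mul_assoc, ← rc t2, r1 t6]
  convert M.mul (M.mul (M.mul t1 k1) t4) k4 using 1
  refine ext_J D.two (hJ.sq hx) (fun z hz => ?_) fun z hz => ?_
  · have a1 : J (-D.η y z) = -D.η y z := by simp [← YJ, hz]
    obtain ⟨a2, a3⟩ := hb _ a1
    simp only [End.mul_apply]
    rw [inv k6 (z' := -D.η y z) (by rw [k2 _ a1]; simp [YY]), inv t6 ((t3 _ a2).trans a3), k2 _ a2,
      t3 _ (by rw [← YJ, a2]), hc z hz]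
  · simp only [End.mul_apply]
    rw [inv k6 (k3 z hz), k3 _ (by rw [← End.mul_apply, ← e', End.mul_apply, hz, map_neg]), inv t5 rfl, hc' z hz]

theorem lift_of_res (hx : x ≠ 0) {j : F} (hj : j * j * sg F (D.q x) = 1) {a : End F V} {a' : End F (D.Vp x j)}
    (h : ((rm hx hj).resG M).mem a') (e : ∀ z : D.Vp x j, (a' z : V) = a z) : M.Lift (j • D.η x) a := by
  obtain ⟨T, T', c, c0, h1, h2, rfl⟩ := h
  exact ⟨c • T, M.smul c0 h1, by simp [h2.1, smul_comm c], fun z hz => by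
    rw [← e ⟨z, mem_Vp.2 hz⟩]; exact congrArg (c • ·) (h2.2 ⟨z, mem_Vp.2 hz⟩).symm⟩

theorem eq_top_of_inv (D : ES F (End F V) W) [FiniteDimensional F V] {U : Submodule F V} {v : V} (hv : v ∈ U)
    (h0 : v ≠ 0) (h : ∀ u, ∀ z ∈ U, D.η u z ∈ U) : U = ⊤ := by
  have : ∀ a : End F V, a v ∈ U := fun a => by
    have ha : a ∈ Submodule.span F (Set.range D.η) := D.span ▸ trivial
    induction ha using Submodule.span_induction with
    | mem a ha => obtain ⟨u, rfl⟩ := ha; exact h u v hv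
    | zero => simp
    | add a b _ _ h1 h2 => exact add_mem h1 h2
    | smul c a _ h => exact U.smul_mem c h
  obtain ⟨φ, hφ, -⟩ := H7.exists_dual_one (F := F) (W := ⊥) (x := v) (by simpa using h0)
  exact eq_top_iff.2 fun z _ => by simpa [hφ] using this (φ.smulRight z)

theorem dec4 (h2 : (2 : F) ≠ 0) {U : Type*} [AddCommGroup U] [Module F U] {J J' : End F U} (h : J * J = 1)
    (h' : J' * J' = 1) (e : J' * J = J * J') (z : U) : ∃ a b c d, z = a + b + c + d ∧ (J a = a ∧ J' a = a) ∧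
      (J b = b ∧ J' b = -b) ∧ (J c = -c ∧ J' c = c) ∧ J d = -d ∧ J' d = -d := by
  have a1 : ∀ z, J (J z) = z := LinearMap.congr_fun h
  have a2 : ∀ z, J' (J' z) = z := LinearMap.congr_fun h'
  have a3 : ∀ z, J' (J z) = J (J' z) := LinearMap.congr_fun e
  obtain ⟨t, rfl⟩ : ∃ t, z = (2 * 2 : F) • t := ⟨_, (smul_inv_smul₀ (mul_ne_zero h2 h2) z).symm⟩
  refine ⟨t + J t + J' t + J (J' t), t + J t - J' t - J (J' t), t - J t + J' t - J (J' t), t - J t - J' t + J (J' t),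
    by module, ⟨?_, ?_⟩, ⟨?_, ?_⟩, ⟨?_, ?_⟩, ?_, ?_⟩ <;> simp only [map_add, map_sub, a1, a2, a3] <;> abel

end ES

/-! ### the linear case -/

/-- `M` contains all transvections -/
def BigL (M : Gp F (End F V)) : Prop := ∀ (φ : Dual F V) v, φ v = 0 → M.mem (1 + φ.smulRight v)

namespace ES
variable {D : ES F (End F V) W} {M : Gp F (End F V)} [Finite W] [FiniteDimensional F V]

theorem lin_step (h : D.Over M) (hq : ∀ u, u ≠ 0 → D.q u = 1) (h16 : 16 < Nat.card W) {x : W} (hx : x ≠ 0) {i : F}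
    (hi : i * i = -1) (hj : i * i * sg F (D.q x) = 1) (hB : BigL ((rm hx hj).resG M)) : BigL M := by
  have h3 := D.g3 h16 hq
  have L : ∀ J y, y ≠ 0 → D.IsJ J y → ∀ (φ : Dual F V) v, J v = v → φ v = 0 → M.Lift J (1 + φ.smulRight v) := by
    intro J y hy hJ φ v h1 h2
    obtain ⟨g, hg, e⟩ := IsJ.trans h ⟨i, hi, rfl⟩ hJ (hq x hx) (hq y hy) (exists_cj h h3 (hq x hx) (hq y hy)
      fun u v _ _ e => hq _ (by rintro e'; simp [add_eq_zero'.1 e'] at e))
    obtain ⟨g', -, g1, g2⟩ := M.inv hg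
    have a1 : ∀ z, g (g' z) = z := LinearMap.congr_fun g1
    have a2 : g' v ∈ D.Vp x i := mem_Vp.2 (((End.isUnit_iff g).1 (Gp.isUnit hg)).1 (by
      have := LinearMap.congr_fun e (g' v)
      simpa [a1, h1] using this))
    convert (lift_of_res hx hj (hB (φ ∘ₗ g ∘ₗ Submodule.subtype _) ⟨_, a2⟩ (by simp [a1, h2]))
      (a := 1 + (φ ∘ₗ g).smulRight (g' v)) (by simp)).conj hg g1 g2 e using 1
    ext z; simp [a1]
  have P : ∀ J J' x y, x ≠ 0 → y ≠ 0 → y ≠ x → D.f y x = 0 → D.IsJ J x → D.IsJ J' y → ∀ (φ : Dual F V) v,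
      J v = v → J' v = v → (∀ z, φ (J z) = φ z) → (∀ z, φ (J' z) = -φ z) → H7.Has M.sub φ v := by
    rintro J _ x y hx hy hyx e hJ ⟨j, hj, rfl⟩ φ v h1 h2 h3 h4
    have φv : φ v = 0 := by
      have := h4 v
      rw [h2] at this
      exact (mul_eq_zero.1 (show 2 * φ v = 0 by linear_combination this)).resolve_left D.two
    have a1 : D.η y v = -j • v := by nth_rewrite 2 [← h2]; simp [smul_smul, hj]
    have a2 : ∀ z, φ (D.η y z) = j * φ z := fun z => by
      have := h4 z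
      simp at this; linear_combination -j * this + φ (D.η y z) * hj
    have YY : ∀ z, D.η y (D.η y z) = -z := LinearMap.congr_fun (D.sq1 (hq y hy))
    refine Gp.has_iff.2 (comm_mem h hJ (hq x hx) (hq y hy) (hq _ (mt add_eq_zero'.1 hyx.symm)) e
      (L J x hx hJ ((2 : F)⁻¹ • φ) v h1 (by simp [φv])) (b := 1 - ((2 : F)⁻¹ • φ).smulRight v)
      (fun z hz => by simp [hz, h1, φv]) (fun z hz => ?_) fun z hz => ?_)
    · simp [YY, a1, a2, φv]
      have := D.two
      match_scalars <;> field_simp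
      linear_combination φ z * hj
    · have := h3 z
      simp [(mul_eq_zero.1 (show 2 * φ z = 0 by simp [hz] at this; linear_combination -this)).resolve_left D.two]
  obtain ⟨y, y1, y2, y3, -⟩ := D.exists_perp3 h16 x x x x
  have hJ : D.IsJ _ x := ⟨i, hi, rfl⟩
  have hJ' : D.IsJ _ y := ⟨i, hi, rfl⟩
  generalize i • D.η x = J at hJ
  generalize i • D.η y = J' at hJ'
  obtain ⟨v, v0, v1, v2⟩ := hJ.exists_vec hJ' (hq x hx) (hq y y1) y2 y3
  obtain ⟨w, w0, w1, w2⟩ := hJ.exists_vec hJ'.neg (hq x hx) (hq y y1) y2 y3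
  have xy : x + y ≠ 0 := mt add_eq_zero'.1 y2.symm
  have dec := fun φ => dec4 D.two (J := J.dualMap) (J' := J'.dualMap)
    (by rw [End.mul_eq_comp, LinearMap.dualMap_comp_dualMap, ← End.mul_eq_comp, hJ.sq (hq x hx)]; rfl)
    (by rw [End.mul_eq_comp, LinearMap.dualMap_comp_dualMap, ← End.mul_eq_comp, hJ'.sq (hq y y1)]; rfl)
    (by rw [End.mul_eq_comp, End.mul_eq_comp, LinearMap.dualMap_comp_dualMap, LinearMap.dualMap_comp_dualMap,
      ← End.mul_eq_comp, ← End.mul_eq_comp, hJ.comm' hJ' y3]) φ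
  simp only [LinearMap.ext_iff, LinearMap.dualMap_apply, LinearMap.neg_apply, LinearMap.add_apply] at dec
  have z0 : ∀ {a : F}, a = -a → a = 0 := fun h =>
    (mul_eq_zero.1 (show (2 : F) * _ = 0 by linear_combination h)).resolve_left D.two
  have : H7.fullCenters M.sub = ⊤ := D.eq_top_of_inv (v := v) (fun φ hφ => by
    obtain ⟨a, b, c, d, e, ⟨a1, a2⟩, ⟨b1, b2⟩, ⟨c1, c2⟩, d1, d2⟩ := dec φ
    have bv : b v = 0 := z0 (by simpa [v2] using b2 v)
    have cv : c v = 0 := z0 (by simpa [v1] using c1 v)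
    have dv : d v = 0 := z0 (by simpa [v1] using d1 v)
    have av : a v = 0 := by simpa [hφ, bv, cv, dv] using (e v).symm
    obtain ⟨χ, hχ, -⟩ := H7.exists_dual_one (F := F) (W := ⊥) (x := w) (by simpa using w0)
    obtain ⟨a', b', c', d', e', ⟨a1', a2'⟩, ⟨b1', b2'⟩, ⟨c1', c2'⟩, d1', d2'⟩ := dec χ
    have w3 : J' w = -w := by simpa [neg_eq_iff_eq_neg] using w2
    have aw : a' w = 0 := z0 (by simpa [w3] using (a2' w).symm)
    have cw : c' w = 0 := z0 (by simpa [w1] using c1' w)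
    have dw : d' w = 0 := z0 (by simpa [w1] using d1' w)
    have bw : b' w = 1 := by simpa [hχ, aw, cw, dw] using (e' w).symm
    have Ha := (P J J' x y hx y1 y2 y3 hJ hJ' b' v v1 v2 b1' b2').comm_left
      (P J (-J') x y hx y1 y2 y3 hJ hJ'.neg a w w1 w2 a1 (by simp [a2])) (z0 (by simpa [v2] using b2' v))
      (z0 (by simpa [w3] using (a2 w).symm)) av
    rw [bw, one_smul] at Ha
    rw [show φ = a + b + c + d from LinearMap.ext e]
    exact ((Ha.add_left (P J J' x y hx y1 y2 y3 hJ hJ' b v v1 v2 b1 b2) av).add_left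
      (P J' J y x y1 hx y2.symm (by rw [D.symm, y3]) hJ' hJ c v v2 v1 c2 c1) (by simp [av, bv])).add_left
      (P (J * J') J (x + y) x xy hx (by simpa using y1) (by simp [D.symm x, y3])
        (hJ.mul hJ' y3 (hq x hx) (hq y y1) (hq _ xy)) hJ d v (by simp [v1, v2]) v1 (by simp [d1, d2]) d1)
      (by simp [av, bv, cv])) v0 fun u z hz => by
    obtain ⟨g, g1, g2⟩ := Gp.exists_sub (h.η u)
    exact g2 ▸ H7.fullCenters_apply hz g1
  exact fun φ v e => Gp.has_iff.1 ((this ▸ trivial : v ∈ H7.fullCenters M.sub) φ e)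

end ES

/-- the statement in dimension four -/
def BaseL (F : Type u) [Field F] : Prop :=
  ∀ (V : Type v) [AddCommGroup V] [Module F V] [FiniteDimensional F V] (W : Type w) [AddCommGroup W]
    [Module (ZMod 2) W] (D : ES F (End F V) W), (∀ u, u ≠ 0 → D.q u = 1) → Nat.card W = 16 → finrank F V = 4 →
    ∀ M : Gp F (End F V), D.Over M → (∀ g, M.mem g → D.Nrm g) ∨ BigL M

theorem lin_main {F : Type u} [Field F] [Finite F] (hB : BaseL.{u, v, w} F) {i : F} (hi : i * i = -1) (n : ℕ) :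
    ∀ (V : Type v) [AddCommGroup V] [Module F V] [FiniteDimensional F V] (W : Type w) [AddCommGroup W]
    [Module (ZMod 2) W] (D : ES F (End F V) W), (∀ u, u ≠ 0 → D.q u = 1) → Nat.card W = 4 ^ (n + 2) →
    ∀ M : Gp F (End F V), D.Over M → (∀ g, M.mem g → D.Nrm g) ∨ BigL M := by
  induction n with
  | zero =>
    intro V _ _ _ W _ _ D hq hW M h
    have : Finite W := Nat.finite_of_card_ne_zero (by simp [hW])
    exact hB V W D hq hW (Nat.pow_left_injective two_ne_zero (D.finrank_sq.trans hW)) M h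
  | succ n ih =>
    intro V _ _ _ W _ _ D hq hW M h
    have : Finite W := Nat.finite_of_card_ne_zero (by simp [hW])
    have : Finite (End F V) := Module.finite_of_finite F
    have h64 : 64 ≤ Nat.card W := hW ▸ Nat.pow_le_pow_right (n := 4) (i := 3) (by norm_num) (by omega)
    refine or_iff_not_imp_right.2 fun hc g hg => ES.cx_core h hq h64 hi (fun x hx j hj => ?_) hg
    obtain ⟨w, hw⟩ := D.nd x hx
    have hj' : j * j * sg F (D.q x) = 1 := by simp [hj, hq x hx]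
    refine ES.iww hx hj' hw ((ih _ _ ((ES.rm hx hj').res hw 1 D.q rfl (by simp))
      (fun u hu => hq u (by simpa using hu)) ?_ _
      (RM.res_over h fun y hy _ => .inl hy)).resolve_right fun h' => hc (ES.lin_step h hq (by omega) hx hj hj' h'))
    have := Sp.card_pp hw
    rw [hW, pow_succ'] at this
    omega

end Cfsg.Agent.H4.E
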