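import Cfsg.Agent.H4.E6

/-! The complex case: unitary groups. -/

set_option autoImplicit false
set_option linter.unusedSectionVars false
set_option linter.unusedSimpArgs false

namespace Cfsg.Agent.H4.E

open Module Cfsg.Agent.Form Cfsg.Agent.H6.SU

universe u v w

variable {W : Type*} [AddCommGroup W] [Module (ZMod 2) W] {F V : Type*} [Field F] [AddCommGroup V] [Module F V]
  {σ : F →+* F} {hσ : ∀ a, σ (σ a) = a}

/-- `M` contains all unitary transvections -/
def BigU (S : PQ (FP.unit σ hσ) V) (M : Gp F (End F V)) : Prop :=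
  ∀ d c, S.B d d = 0 → c + σ c = 0 → M.mem (1 + (S.lin d).smulRight (c • d))

/-- the unitary hypotheses -/
structure UH (S : PQ (FP.unit σ hσ) V) (D : ES F (End F V) W) (M : Gp F (End F V)) : Prop where
  nd : S.Nondeg
  hη : ∀ u x y, S.B (D.η u x) (D.η u y) = S.B x y
  iso : ∀ g, M.mem g → ∃ c : F, c ≠ 0 ∧ ∀ x y, S.B (g x) (g y) = c * σ c * S.B x y

variable {S : PQ (FP.unit σ hσ) V} {D : ES F (End F V) W} {M : Gp F (End F V)}

theorem bigU_iff : BigU S M ↔ Full S M.sub ⊤ := by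
  refine ⟨fun h d _ hd => ctr_iff.2 ⟨hd, fun c hc => ?_⟩, fun h d c hd hc => ?_⟩
  · obtain ⟨g, g1, g2⟩ := Gp.exists_sub (h d c hd hc)
    exact ⟨g, g1, fun x => (LinearMap.congr_fun g2 x).trans (by simp [smul_smul, mul_comm])⟩
  · obtain ⟨g, g1, g2⟩ := Ctr.ht (h d trivial hd) hc
    rwa [← show (g : V →ₗ[F] V) = 1 + (S.lin d).smulRight (c • d) from
      LinearMap.ext fun x => (g2 x).trans (by simp [smul_smul, mul_comm])]

theorem UH.adj (hU : UH S D M) (hσi : ∀ i : F, i * i = -1 → σ i = -i) {J : End F V} {x : W} (hJ : D.IsJ J x)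
    (hx : D.q x = 1) (a b : V) : S.B (J a) b = S.B a (J b) := by
  obtain ⟨i, hi, rfl⟩ := hJ
  have : D.η x (D.η x a) = -a := LinearMap.congr_fun (D.sq1 hx) a
  simp [hσi i hi, ← hU.hη x (D.η x a) b, this]

theorem perp_of_adj {P : FP F} {S : PQ P V} (h2 : (2 : F) ≠ 0) {J : End F V} (h : ∀ a b, S.B (J a) b = S.B a (J b))
    {a b : V} (ha : J a = a) (hb : J b = -b) : S.B a b = 0 := by
  have := h a b
  rw [ha, hb, S.B_neg_right] at this
  exact (mul_eq_zero.1 (show 2 * S.B a b = 0 by linear_combination this)).resolve_left h2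

variable [Finite W] [FiniteDimensional F V] [Finite F]

theorem UH.res (hU : UH S D M) (hσi : ∀ i : F, i * i = -1 → σ i = -i) {x w : W} (hx : x ≠ 0) (hq : D.q x = 1) {i : F}
    (hi : i * i = -1) (hj : i * i * sg F (D.q x) = 1) (hw : D.f w x = 1) :
    UH (S.restrict (D.Vp x i)) ((ES.rm hx hj).res hw 1 D.q rfl (by simp)) ((ES.rm hx hj).resG M) := by
  refine ⟨fun a ha => Subtype.ext (hU.nd _ fun z => ?_), fun u a b => ?_, ?_⟩
  · have h1 : S.B a (z + (i • D.η x) z) = 0 := ha ⟨_, ES.proj_mem hj z⟩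
    rw [S.B_add_right, ← hU.adj hσi ⟨i, hi, rfl⟩ hq, show (i • D.η x) a = a from ES.mem_Vp.1 a.2] at h1
    exact (mul_eq_zero.1 (show (2 : F) * _ = 0 by linear_combination h1)).resolve_left D.two
  · have := ((ES.rm hx hj).rel_φ u.2.1).2
    rw [RM.res_η, Pi.one_apply, one_smul]
    exact (congrArg₂ S.B (this a) (this b)).trans (hU.hη ..)
  · rintro _ ⟨T, T', c, c0, h1, h2, rfl⟩
    obtain ⟨d, d0, h3⟩ := hU.iso T h1
    refine ⟨c * d, mul_ne_zero c0 d0, fun a b => ?_⟩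
    have : (S.restrict (D.Vp x i)).B (T' a) (T' b) = d * σ d * (S.restrict (D.Vp x i)).B a b :=
      (congrArg₂ S.B (h2.2 a) (h2.2 b)).trans (h3 ..)
    simp only [LinearMap.smul_apply, PQ.B_smul_left, PQ.B_smul_right, FP.unit_σ, map_mul]
    linear_combination c * σ c * this

theorem unit_step (hne : ∃ a, σ a ≠ a) (hσi : ∀ i : F, i * i = -1 → σ i = -i) (hU : UH S D M) (h : D.Over M)
    (hq : ∀ u, u ≠ 0 → D.q u = 1) (h64 : 64 ≤ Nat.card W) {x : W} (hx : x ≠ 0) {i : F}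
    (hi : i * i = -1) (hj : i * i * sg F (D.q x) = 1)
    (hB : BigU (S.restrict (D.Vp x i)) ((ES.rm hx hj).resG M)) : BigU S M := by
  have h16 : 16 < Nat.card W := by omega
  have h3 := D.g3 h16 hq
  have L : ∀ J y, y ≠ 0 → D.IsJ J y → ∀ d w q, J d = d → J w = w → S.EichOK d w q → M.Lift J (S.eichL d w q) := by
    intro J y hy hJ d w q h1 h2 ok
    obtain ⟨g, hg, e⟩ := ES.IsJ.trans h ⟨i, hi, rfl⟩ hJ (hq x hx) (hq y hy) (ES.exists_cj h h3 (hq x hx) (hq y hy)
      fun u v _ _ e => hq _ (by rintro e'; simp [add_eq_zero'.1 e'] at e))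
    obtain ⟨c, c0, hc⟩ := hU.iso g hg
    obtain ⟨k, k1, k2⟩ := Gp.exists_sub (M.smul (inv_ne_zero c0) hg)
    have k3 : k ∈ S.isom := (S.unit_mem_isom k).2 fun a b => by
      have := σ_ne (σ := σ) c0
      change S.B (k.toLinearMap a) (k.toLinearMap b) = _
      simp [k2, hc]; field_simp
    have e' : (k : V →ₗ[F] V) * (i • D.η x) = J * k := by simp only [k2, smul_mul_assoc c⁻¹, mul_smul_comm c⁻¹, e]
    have m : ∀ d, J d = d → k.symm d ∈ D.Vp x i := fun d hd => ES.mem_Vp.2 (k.injective (by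
      simpa [hd] using LinearMap.congr_fun e' (k.symm d)))
    obtain ⟨w', hw'⟩ := D.nd x hx
    have hR := hU.res hσi hx (hq x hx) hi hj hw'
    have ok' := ok.map (inv_mem k3)
    have ok'' : (S.restrict (D.Vp x i)).EichOK ⟨_, m d h1⟩ ⟨_, m w h2⟩ q := ⟨ok'.1, ok'.2, ok'.3⟩
    have := (trP hne).eich_mem_of_all_ctr hR.nd (.inl (by
      have a1 := ((ES.rm hx hj).res hw' 1 D.q rfl (by simp)).finrank_sq
      have a2 := Sp.card_pp hw'
      by_contra hc
      have : finrank F (D.Vp x i) ^ 2 ≤ 3 ^ 2 := Nat.pow_le_pow_left (by omega) 2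
      omega)) (fun v hv => bigU_iff.1 hB v trivial hv.B_self) ok''
    convert (ES.lift_of_res hx hj this (a := S.eichL (k.symm d) (k.symm w) q) (by simp)).conj k1
      (g' := k.symm.toLinearMap) (by ext; simp) (by ext; simp) e' using 1
    ext z; simp [← PQ.B_isom k3 (k.symm z)]
  have Q : ∀ J J' x y, x ≠ 0 → y ≠ 0 → y ≠ x → D.f y x = 0 → D.IsJ J x → D.IsJ J' y → ∀ d w,
      J d = d → J' d = d → J w = w → J' w = -w → S.B d d = 0 → Ei S M.sub d w := by
    intro J J' x y hx hy hyx e hJ hJ' d w h1 h2 h3 h4 dd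
    obtain ⟨w, rfl⟩ : ∃ t, w = (2 : F) • t := ⟨_, (smul_inv_smul₀ D.two w).symm⟩
    replace h3 : J w = w := smul_right_injective V D.two (by simpa using h3)
    replace h4 : J' w = -w := smul_right_injective V D.two (by simpa using h4)
    have dw := perp_of_adj D.two (hU.adj hσi hJ' (hq y hy)) h2 h4
    have wd := S.B_comm_zero dw
    obtain ⟨j, hj, rfl⟩ := hJ'
    have a1 : D.η y d = -j • d := by nth_rewrite 2 [← h2]; simp [smul_smul, hj]
    have a2 : D.η y w = j • w := by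
      have := congrArg (-j • ·) h4
      simpa [smul_smul, hj] using this
    have YY : ∀ z, D.η y (D.η y z) = -z := LinearMap.congr_fun (D.sq1 (hq y hy))
    have a3 : ∀ z, S.B (D.η y z) d = -j * S.B z d := fun z => by simp [← hU.hη y (D.η y z), YY, a1, hσi j hj]
    have a4 : ∀ z, S.B (D.η y z) w = j * S.B z w := fun z => by simp [← hU.hη y (D.η y z), YY, a2, hσi j hj]
    have ok := exists_eichOK S dd wd
    generalize S.Q w = q at ok
    have ok' : S.EichOK d ((2 : F) • w) (2 * S.B w w) := eichOK_iff.2 ⟨dd, by simp [wd], by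
      simp [map_ofNat, Bs]; ring⟩
    refine ⟨_, ok', ES.comm_mem h hJ (hq x hx) (hq y hy) (hq _ (mt add_eq_zero'.1 hyx.symm)) e
      (L J x hx hJ d w q h1 h3 ok) (b := S.eichL d (-w) (S.B w w - q))
      (fun z hz => ⟨by simp [hz, h1, h3], (S.eich d w q ok).apply_symm_apply z⟩) (fun z hz => ?_) fun z hz => ?_⟩
    · simp [YY, a1, a2, a3, a4, dd, wd, dw, map_ofNat]
      match_scalars <;> grind
    · have := hU.adj hσi hJ (hq x hx)
      simp [S.B_comm_zero (perp_of_adj D.two this h1 hz), S.B_comm_zero (perp_of_adj D.two this h3 hz)]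
  have H : ∀ J J' x y, x ≠ 0 → y ≠ 0 → y ≠ x → D.f y x = 0 → D.IsJ J x → D.IsJ J' y → ∃ d e,
      (J d = d ∧ J' d = d) ∧ (J e = e ∧ J' e = e) ∧ S.B d d = 0 ∧ S.B e e = 0 ∧ S.B d e = 1 := by
    intro J J' x y hx hy hyx e hJ hJ'
    have m : ∀ v, v ∈ LinearMap.ker (J - 1) ⊓ LinearMap.ker (J' - 1) ↔ J v = v ∧ J' v = v := by simp [sub_eq_zero]
    obtain ⟨d, d1, d', d2, h⟩ := exists_hyp_on (S := S) hne (U := LinearMap.ker (J - 1) ⊓ LinearMap.ker (J' - 1))
      (fun a ha h => hU.nd a fun z => by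
        obtain ⟨z1, z2, z3, z4, rfl, b1, b2, b3, b4⟩ := ES.dec4 D.two (hJ.sq (hq x hx)) (hJ'.sq (hq y hy))
          (hJ.comm' hJ' e) z
        rw [m] at ha
        simp [h z1 ((m _).2 b1), perp_of_adj D.two (hU.adj hσi hJ' (hq y hy)) ha.2 b2.2,
          perp_of_adj D.two (hU.adj hσi hJ (hq x hx)) ha.1 b3.1,
          perp_of_adj D.two (hU.adj hσi hJ (hq x hx)) ha.1 b4.1]) (by
        obtain ⟨v, v0, v1⟩ := hJ.exists_vec hJ' (hq x hx) (hq y hy) hyx e
        obtain ⟨w, w1, w2⟩ := D.ex2 hx hyx.symm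
        obtain ⟨z, z1, z2, z3, z4, z5⟩ := D.exists_perp3 h16 x y w y
        have n : ∀ a, D.f w a = 1 → z ≠ a := by rintro a h rfl; simp [D.symm w, z5] at h
        obtain ⟨z', ⟨z6, z7⟩, z8⟩ := D.ex3 z1 (n x w2) z2 (n _ (by simp [w1, w2]))
        have st : ∀ r, D.f r x = 0 → D.f r y = 0 → D.η r v ∈ LinearMap.ker (J - 1) ⊓ LinearMap.ker (J' - 1) :=
          fun r r1 r2 => (m _).2 ⟨by rw [← End.mul_apply, ← hJ.comm r1, End.mul_apply, v1.1],
            by rw [← End.mul_apply, ← hJ'.comm r2, End.mul_apply, v1.2]⟩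
        by_contra hc
        have := (finrank_eq_one_iff_of_nonzero' (K := F) (V := ↥(LinearMap.ker (J - 1) ⊓ LinearMap.ker (J' - 1)))
          ⟨v, (m v).2 v1⟩ (by simpa using v0)).1 (by
            have := finrank_pos_iff_exists_ne_zero (R := F) (M := ↥(LinearMap.ker (J - 1) ⊓ LinearMap.ker (J' - 1))) |>.2
              ⟨⟨v, (m v).2 v1⟩, by simpa using v0⟩
            omega)
        obtain ⟨α, hα⟩ := this ⟨_, st z z3 z4⟩
        obtain ⟨β, hβ⟩ := this ⟨_, st z' z6 z7⟩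
        replace hα : D.η z v = α • v := (congrArg Subtype.val hα).symm
        replace hβ : D.η z' v = β • v := (congrArg Subtype.val hβ).symm
        have e1 := LinearMap.congr_fun (D.comm1 z8) v
        have e2 : (D.η z' * D.η z) v = 0 := smul_right_injective V D.two (by
          simp only [End.mul_apply, LinearMap.neg_apply, hα, hβ, map_smul] at e1 ⊢
          linear_combination (norm := module) e1)
        exact v0 (((End.isUnit_iff _).1 ((D.isUnit z').mul (D.isUnit z))).1 (by simpa using e2)))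
    exact ⟨d, d', (m _).1 d1, (m _).1 d2, h⟩
  obtain ⟨y, y1, y2, y3, -⟩ := D.exists_perp3 h16 x x x x
  have hJ : D.IsJ _ x := ⟨i, hi, rfl⟩
  have hJ' : D.IsJ _ y := ⟨i, hi, rfl⟩
  generalize i • D.η x = J at hJ
  generalize i • D.η y = J' at hJ'
  have xy : x + y ≠ 0 := mt add_eq_zero'.1 y2.symm
  obtain ⟨a, b, ⟨a1, a2⟩, ⟨b1, b2⟩, aa, bb, ab⟩ := H J (-J') x y hx y1 y2 y3 hJ hJ'.neg
  rw [LinearMap.neg_apply, neg_eq_iff_eq_neg] at a2 b2
  have A := hU.adj hσi hJ (hq x hx)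
  have A' := hU.adj hσi hJ' (hq y y1)
  have par : ∀ d, J d = d → J' d = d → S.B d d = 0 → Par S M.sub d := fun d d1 d2 dd => by
    have q1 := fun w w1 w2 => Q J J' x y hx y1 y2 y3 hJ hJ' d w d1 d2 w1 w2 dd
    have hc := ctr_of_ei hne (fun c => q1 (c • a) (by simp [a1]) (by simp [a2])) (q1 b b1 b2) (by simp [ab])
    refine ⟨dd, fun w q ok => Ei.he ?_ hc (eichOK_iff.1 ok).2.2⟩
    obtain ⟨z1, z2, z3, z4, rfl, e1, e2, e3, e4⟩ := ES.dec4 D.two (hJ.sq (hq x hx)) (hJ'.sq (hq y y1))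
      (hJ.comm' hJ' y3) w
    refine ((Ei.add ?_ (q1 _ e2.1 e2.2)).add (Q J' J y x y1 hx y2.symm (by rw [D.symm, y3]) hJ' hJ d _ d2 d1 e3.2
      e3.1 dd)).add (Q (J * J') J (x + y) x xy hx (by simpa using y1) (by simp [D.symm x, y3])
        (hJ.mul hJ' y3 (hq x hx) (hq y y1) (hq _ xy)) hJ d _ (by simp [d1, d2]) d1 (by simp [e4.1, e4.2]) e4.1 dd)
    have p1 : S.B d z1 = 0 := by
      simpa [perp_of_adj D.two A' d2 e2.2, perp_of_adj D.two A d1 e3.1, perp_of_adj D.two A d1 e4.1]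
        using S.B_comm_zero ok.perp
    obtain ⟨q', ok', hm⟩ := Q J (-J') x y hx y1 y2 y3 hJ hJ'.neg b z1 b1 (by simp [b2]) e1.1 (by simp [e1.2]) bb
    have := (q1 a a1 a2).conj hm (S.eich_mem ..)
    rw [eich_ap, eich_ap, p1, perp_of_adj D.two A' d2 b2, ab] at this
    simp only [mul_zero, sub_zero, zero_smul, add_zero, one_smul] at this
    simpa only [sub_sub_cancel] using
      (q1 (a + (S.B a z1 - q' * 1) • b) (by simp [a1, b1]) (by simp [a2, b2, add_comm])).sub this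
  obtain ⟨d, e, d1, e1, dd, ee, de⟩ := H J J' x y hx y1 y2 y3 hJ hJ'
  refine bigU_iff.2 (full_of_par hne hU.nd ?_ (par e e1.1 e1.2 ee) (par d d1.1 d1.2 dd) (by simp [de]))
  have a1 := D.finrank_sq
  by_contra hc
  have : finrank F V ^ 2 ≤ 1 ^ 2 := Nat.pow_le_pow_left (by omega) 2
  omega

/-- the statement in dimension four -/
def BaseU {F : Type u} [Field F] (σ : F →+* F) (hσ : ∀ a, σ (σ a) = a) : Prop :=
  ∀ (V : Type v) [AddCommGroup V] [Module F V] [FiniteDimensional F V] (W : Type w) [AddCommGroup W]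
    [Module (ZMod 2) W] (D : ES F (End F V) W), (∀ u, u ≠ 0 → D.q u = 1) → Nat.card W = 16 → finrank F V = 4 →
    ∀ M : Gp F (End F V), D.Over M → ∀ S : PQ (FP.unit σ hσ) V, UH S D M → (∀ g, M.mem g → D.Nrm g) ∨ BigU S M

theorem unit_main {F : Type u} [Field F] [Finite F] {σ : F →+* F} {hσ : ∀ a, σ (σ a) = a}
    (hB : BaseU.{u, v, w} σ hσ) (hne : ∃ a, σ a ≠ a) (hσi : ∀ i : F, i * i = -1 → σ i = -i)
    {i : F} (hi : i * i = -1) (n : ℕ) :
    ∀ (V : Type v) [AddCommGroup V] [Module F V] [FiniteDimensional F V] (W : Type w) [AddCommGroup W]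
    [Module (ZMod 2) W] (D : ES F (End F V) W), (∀ u, u ≠ 0 → D.q u = 1) → Nat.card W = 4 ^ (n + 2) →
    ∀ M : Gp F (End F V), D.Over M → ∀ S : PQ (FP.unit σ hσ) V, UH S D M →
      (∀ g, M.mem g → D.Nrm g) ∨ BigU S M := by
  induction n with
  | zero =>
    intro V _ _ _ W _ _ D hq hW M h
    have : Finite W := Nat.finite_of_card_ne_zero (by simp [hW])
    exact hB V W D hq hW (Nat.pow_left_injective two_ne_zero (D.finrank_sq.trans hW)) M h
  | succ n ih =>
    intro V _ _ _ W _ _ D hq hW M h S hU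
    have : Finite W := Nat.finite_of_card_ne_zero (by simp [hW])
    have : Finite (End F V) := Module.finite_of_finite F
    have h64 : 64 ≤ Nat.card W := hW ▸ Nat.pow_le_pow_right (n := 4) (i := 3) (by norm_num) (by omega)
    refine or_iff_not_imp_right.2 fun hc g hg => ES.cx_core h hq h64 hi (fun x hx j hj => ?_) hg
    obtain ⟨w, hw⟩ := D.nd x hx
    have hj' : j * j * sg F (D.q x) = 1 := by simp [hj, hq x hx]
    refine ES.iww hx hj' hw ((ih _ _ ((ES.rm hx hj').res hw 1 D.q rfl (by simp))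
      (fun u hu => hq u (by simpa using hu)) ?_ _ (RM.res_over h fun y hy _ => .inl hy) _
      (hU.res hσi hx (hq x hx) hj hj' hw)).resolve_right fun h' => hc (unit_step hne hσi hU h hq h64 hx hj hj' h'))
    have := Sp.card_pp hw
    rw [hW, pow_succ'] at this
    omega

end Cfsg.Agent.H4.E
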