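import Cfsg.Agent.H4.E6b
import Cfsg.Agent.H2.PGroup
import Cfsg.Agent.Asch.Struct
import Cfsg.Agent.H7.Proper
import Cfsg.Agent.H6.SUC1
import Cfsg.Agent.H7.Sp3
import Cfsg.Agent.H8.C6c

/-! From symplectic type groups to extraspecial data; the linear and unitary maximality theorems. -/

set_option autoImplicit false
set_option linter.unusedSectionVars false
set_option linter.unusedSimpArgs false

namespace Cfsg.Agent.H4.E

open Module Cfsg.Agent.Form Cfsg.Agent.H6.SU Cfsg.Agent.H7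
open scoped Matrix MatrixGroups

universe u

theorem class_two {Γ : Type*} [Group Γ] [Finite Γ] (hp : IsPGroup 2 Γ)
    (hc : ∀ A : Subgroup Γ, A.Characteristic → IsMulCommutative A → IsCyclic A) (h4 : ∀ x : Γ, x ^ 4 = 1)
    (x g : Γ) : g * (x * x) = x * x * g := by
  have h4' : ∀ x : Γ, x * x * (x * x) = 1 := fun x => by simpa [pow_succ, mul_assoc] using h4 x
  let S : Subgroup Γ := Subgroup.closure (Set.range fun x => x * x)
  have hS : S.Characteristic := Subgroup.characteristic_iff_le_comap.2 fun φ => (Subgroup.closure_le _).2 (by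
    rintro _ ⟨x, rfl⟩; exact Subgroup.subset_closure ⟨φ x, by simp⟩)
  have cyc : ∀ T : Subgroup Γ, T.Characteristic → (∀ a ∈ T, ∀ b ∈ T, a * b = b * a) →
      ∀ g, (∀ a ∈ T, g * a * g⁻¹ = a) ∨ ∀ a ∈ T, g * a * g⁻¹ = a⁻¹ := fun T hT h g => by
    obtain ⟨c, rfl⟩ := (Subgroup.isCyclic_iff_exists_zpowers_eq_top T).1 (hc T hT ⟨⟨fun a b => Subtype.ext (h _ a.2 _ b.2)⟩⟩)
    obtain ⟨k, hk⟩ := H2.PGroup.exists_nat_pow ((inferInstance : (Subgroup.zpowers c).Normal).conj_mem c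
      (Subgroup.mem_zpowers c) g)
    rw [pow_eq_pow_mod k (h4 c)] at hk
    have h1 : c * c = 1 → c ^ 2 = 1 := by rw [pow_two]; exact id
    have : g * c * g⁻¹ = c ^ 1 ∨ g * c * g⁻¹ = c ^ 3 := by
      have : k % 4 < 4 := Nat.mod_lt _ (by norm_num)
      interval_cases k % 4
      · simp_all
      · exact .inl hk
      · have : c * c = 1 := by
          have := congrArg (· ^ 2) hk
          simpa [h4', pow_two] using this
        simp_all [pow_two]
      · exact .inr hk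
    refine this.imp (fun e a ha => ?_) fun e a ha => ?_
    · simpa using H2.PGroup.conj_of_mem_zpowers e ha
    · rw [H2.PGroup.conj_of_mem_zpowers e ha, eq_inv_iff_mul_eq_one, ← pow_succ, h4]
  have hS2 : S ≤ S ⊓ Subgroup.centralizer S := by
    by_contra h
    obtain ⟨b, b1, b2, b3, b4⟩ := H2.PGroup.exists_central_mod_p hp (S ⊓ Subgroup.centralizer S) S h
    refine b2 ⟨b1, Subgroup.mem_centralizer_iff.2 fun s hs => ?_⟩
    have : S ≤ Subgroup.centralizer {b} := (Subgroup.closure_le _).2 (by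
      rintro _ ⟨g, rfl⟩
      obtain ⟨ζ, z1, z2⟩ : ∃ ζ ∈ S ⊓ Subgroup.centralizer S, g * b * g⁻¹ = ζ * b := ⟨_, b4 g, by group⟩
      have e : g * g * b * (g * g)⁻¹ = g * ζ * g⁻¹ * ζ * b := by
        rw [mul_assoc _ ζ b, ← z2, show g * ζ * g⁻¹ * (g * b * g⁻¹) = g * (ζ * b) * g⁻¹ by group, ← z2]
        simp [mul_assoc]
      refine Subgroup.mem_centralizer_singleton_iff.2 (mul_inv_eq_iff_eq_mul.1 (e.trans ?_))
      rcases cyc (S ⊓ Subgroup.centralizer S) inferInstance (fun a ha b hb => (hb.2 a ha.1)) g with h | h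
      · have h1 := h _ b3
        rw [← conj_pow, z2, pow_two, pow_two, mul_assoc, ← mul_assoc b, z1.2 b b1, ← mul_assoc, ← mul_assoc,
          mul_assoc, mul_eq_right] at h1
        rw [h ζ z1, h1, one_mul]
      · rw [h ζ z1]; group)
    exact Subgroup.mem_centralizer_singleton_iff.1 (this hs)
  have := h4' x
  rcases cyc S hS (fun a ha b hb => (hS2 hb).2 a ha) g with h | h
  · exact mul_inv_eq_iff_eq_mul.1 (h _ (Subgroup.subset_closure ⟨x, rfl⟩))
  · exact mul_inv_eq_iff_eq_mul.1 ((h _ (Subgroup.subset_closure ⟨x, rfl⟩)).trans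
      (inv_eq_of_mul_eq_one_right this))

section datum
variable {F A W : Type*} [Field F] [Ring A] [Algebra F A] [AddCommGroup W] [Module (ZMod 2) W]

/-- the datum `D` comes from the representation `ρ` -/
structure From {Γ : Type*} [Group Γ] (ρ : Γ →* A) (D : ES F A W) (π : Γ →* Multiplicative W) : Prop where
  surj : Function.Surjective π
  hπ : ∀ r, ∃ c : F, c ≠ 0 ∧ ρ r = c • D.η (π r).toAdd
  hη : ∀ u, ∃ r, D.η u = ρ r

theorem exists_datum {Γ : Type u} [Group Γ] [Finite Γ] (ρ : Γ →* A) (inj : Function.Injective ρ)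
    (h2 : (2 : F) ≠ 0) (nt : (1 : A) ≠ 0) (hs : Submodule.span F (Set.range ρ) = ⊤)
    (hc : ∀ z, (∀ g, g * z = z * g) → ∃ c : F, ρ z = c • 1) (h4 : ∀ x : Γ, x ^ 4 = 1)
    (hz : ∀ x g : Γ, g * (x * x) = x * x * g) (P : Γ → Prop)
    (hP : ∀ r, ∃ z, (∀ g, g * z = z * g) ∧ P (r * z)) :
    ∃ (W : Type u) (_ : AddCommGroup W) (_ : Module (ZMod 2) W) (_ : Finite W) (D : ES F A W)
      (π : Γ →* Multiplicative W), From ρ D π ∧ ∀ u, u ≠ 0 → ∃ r, P r ∧ D.η u = ρ r := by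
  classical
  have sq : ∀ a : Γ ⧸ Subgroup.center Γ, a * a = 1 := fun a => QuotientGroup.induction_on a fun a =>
    (QuotientGroup.eq_one_iff (a * a)).2 (Subgroup.mem_center_iff.2 (hz a))
  let _ : CommGroup (Γ ⧸ Subgroup.center Γ) :=
    { (inferInstance : Group _) with
      mul_comm := fun a b => by
        rw [← inv_eq_of_mul_eq_one_right (sq (a * b)), mul_inv_rev, inv_eq_of_mul_eq_one_right (sq a),
          inv_eq_of_mul_eq_one_right (sq b)] }
  let _ : Module (ZMod 2) (Additive (Γ ⧸ Subgroup.center Γ)) :=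
    AddCommGroup.zmodModule fun x => by rw [two_smul]; exact sq _
  have hπ : ∀ r s : Γ, (r : Γ ⧸ Subgroup.center Γ) = s → ∃ c : F, c ≠ 0 ∧ ρ s = c • ρ r := fun r s e => by
    obtain ⟨c, hc⟩ := hc _ (Subgroup.mem_center_iff.1 (QuotientGroup.eq.1 e))
    have : ρ s = c • ρ r := by rw [← mul_inv_cancel_left r s, map_mul, hc]; simp
    exact ⟨c, by rintro rfl; exact nt (by rw [← map_one ρ, ← mul_inv_cancel s, map_mul, this]; simp), this⟩
  obtain ⟨s, s0, s1, s2⟩ : ∃ s : Additive (Γ ⧸ Subgroup.center Γ) → Γ, s 0 = 1 ∧ (∀ u, (s u : Γ ⧸ _) = u.toMul) ∧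
      ∀ u, u ≠ 0 → P (s u) := by
    have : ∀ u : Additive (Γ ⧸ Subgroup.center Γ), ∃ r : Γ, (r : Γ ⧸ _) = u.toMul ∧ P r := fun u => by
      obtain ⟨r, hr⟩ := QuotientGroup.mk_surjective u.toMul
      obtain ⟨z, z1, z2⟩ := hP r
      exact ⟨r * z, by rw [QuotientGroup.mk_mul_of_mem _ (Subgroup.mem_center_iff.2 z1), hr], z2⟩
    choose s s1 s2 using this
    exact ⟨fun u => if u = 0 then 1 else s u, by simp, fun u => by dsimp only; split_ifs with h <;> simp [h, s1],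
      fun u hu => by simp [hu, s2]⟩
  have hsq : ∀ r : Γ, ∃ l, ρ r * ρ r = sg F l • 1 := fun r => by
    obtain ⟨c, hc⟩ := hc _ (hz r)
    obtain ⟨l, rfl⟩ := exists_sg (c := c) (smul_left_injective F nt (by
      simp only [one_smul, mul_smul, ← hc, ← smul_one_mul c (ρ _), ← map_mul]
      rw [← map_one ρ, ← h4 r]; simp [pow_succ, mul_assoc]))
    exact ⟨l, by rw [← map_mul, hc]⟩
  choose q hq using hsq
  have un : ∀ r : Γ, ρ r ≠ 0 := fun r e => nt (by rw [← map_one ρ, ← mul_inv_cancel r, map_mul, e, zero_mul])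
  have hcm : ∀ r s : Γ, ∃ l, ρ r * ρ s = sg F l • (ρ s * ρ r) := fun r s => ⟨q r + q s + q (s * r), by
    have := congrArg (ρ r * ρ s * ·) (hq (s * r))
    simp only [map_mul, mul_assoc, ← mul_assoc (ρ s) (ρ s), hq, smul_mul_assoc, mul_smul_comm, one_mul,
      ← mul_assoc (ρ r) (ρ r), mul_one] at this
    replace this := congrArg (sg F (q (s * r)) • ·) this
    simp only [smul_smul, sg_mul_self, one_smul] at this
    rw [← this, sg_add, sg_add]; congr 1; ring⟩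
  choose f hf using hcm
  have fu : ∀ r s l, ρ r * ρ s = sg F l • (ρ s * ρ r) → f r s = l := fun r s l e =>
    sg_inj h2 (smul_left_injective F (by simpa using un (s * r)) ((hf r s).symm.trans e))
  have hm : ∀ u v, ∃ c : F, c ≠ 0 ∧ ρ (s u) * ρ (s v) = c • ρ (s (u + v)) := fun u v => by
    simpa using hπ (s (u + v)) (s u * s v) (by simp [s1])
  have fs : ∀ r s, f r s = f s r := fun r s => fu _ _ _ (by rw [hf s r, smul_smul, sg_mul_self, one_smul])
  have fa : ∀ u v w, f (s (u + v)) (s w) = f (s u) (s w) + f (s v) (s w) := fun u v w => fu _ _ _ (by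
    obtain ⟨c, c0, e⟩ := hm u v
    refine smul_right_injective A c0 ?_
    dsimp only
    rw [← smul_mul_assoc c, smul_comm c, ← mul_smul_comm c, ← e]
    rw [mul_assoc, hf (s v), mul_smul_comm, ← mul_assoc, hf (s u), smul_mul_assoc, smul_smul, sg_add, mul_comm,
      mul_assoc])
  refine ⟨Additive (Γ ⧸ Subgroup.center Γ), inferInstance, inferInstance, inferInstance,
    { f := LinearMap.mk₂ (ZMod 2) (fun u v => f (s u) (s v)) fa (fun c u v => ?_)
        (fun u v w => by simp only [fs (s u), fa]) fun c u v => ?_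
      alt := fun u => fu _ _ _ (by simp)
      nd := fun u hu => ?_
      η := fun u => ρ (s u)
      q := fun u => q (s u)
      η0 := by simp [s0]
      mul := hm
      comm := fun u v => hf _ _
      sq := fun u => hq _
      span := top_le_iff.1 (hs ▸ Submodule.span_le.2 ?_)
      two := h2
      nt := nt }, QuotientGroup.mk' _, ⟨QuotientGroup.mk'_surjective _, fun r => hπ _ _ (s1 _), fun u => ⟨_, rfl⟩⟩,
    fun u hu => ⟨_, s2 u hu, rfl⟩⟩
  · rcases z2 c with rfl | rfl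
    · simpa [s0] using fu 1 (s v) 0 (by simp)
    · simp
  · rcases z2 c with rfl | rfl
    · simpa [s0] using fu (s u) 1 0 (by simp)
    · simp
  · by_contra h
    refine hu (Additive.toMul.injective ((s1 u).symm.trans ((QuotientGroup.eq_one_iff _).2
      (Subgroup.mem_center_iff.2 fun g => inj ?_))))
    obtain ⟨c, -, e⟩ := hπ (s (Additive.ofMul (g : Γ ⧸ _))) g (s1 _)
    have := hf (s (Additive.ofMul (g : Γ ⧸ _))) (s u)
    rw [z2_ne'.1 fun e : f (s (Additive.ofMul (g : Γ ⧸ _))) (s u) = 1 => h ⟨_, e⟩] at this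
    simp [e, this]
  · rintro _ ⟨r, rfl⟩
    obtain ⟨c, -, e⟩ := hπ (s (Additive.ofMul (r : Γ ⧸ _))) r (s1 _)
    exact e ▸ Submodule.smul_mem _ _ (Submodule.subset_span ⟨_, rfl⟩)

namespace ES
variable {D : ES F A W} {M : Gp F A}

theorem Over.of_anti (h1 : ∀ y z ε ε', D.q y = 1 → D.q z = 1 → D.f y z = 1 →
      M.mem ((1 + sg F ε • D.η y) * (1 + sg F ε' • D.η z)))
    (mid : ∀ y z, D.q y = 1 → D.q z = 1 → ∃ x, D.q x = 1 ∧ D.f x y = 1 ∧ D.f x z = 1)
    (gen : ∀ u, u ≠ 0 → D.q u = 0 → ∃ y, D.q y = 1 ∧ D.q (y + u) = 1) : D.Over M := by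
  have ht : ∀ y z, D.q y = 1 → D.q z = 1 → M.mem ((1 + D.η y) * (1 + D.η z)) := fun y z hy hz => by
    obtain ⟨x, x1, x2, x3⟩ := mid y z hy hz
    refine Gp.of_smul D.two ?_
    convert M.mul (h1 y x 0 0 hy x1 ((D.symm _ _).trans x2)) (h1 x z 1 0 x1 hz x3) using 1
    simp only [sg_zero, sg_one, one_smul, neg_smul, mul_add, add_mul, mul_assoc, mul_one, one_mul, mul_neg, neg_mul,
      D.sq1 x1, rn (D.sq1 x1)]
    module
  have hη : ∀ y, D.q y = 1 → M.mem (D.η y) := fun y hy => Gp.of_smul D.two (by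
    convert ht y y hy hy using 1
    simp only [mul_add, add_mul, mul_one, one_mul, D.sq1 hy]; module)
  refine ⟨fun u => ?_, ht⟩
  by_cases u0 : u = 0
  · rw [u0, D.η0]; exact M.one
  rcases z2 (D.q u) with e | e
  · obtain ⟨y, y1, y2⟩ := gen u u0 e
    obtain ⟨c, c0, hc⟩ := D.mul y (y + u)
    exact Gp.of_smul c0 (by simpa [hc] using M.mul (hη _ y1) (hη _ y2))
  · exact hη u e

theorem mid_cx (hq : ∀ u, u ≠ 0 → D.q u = 1) (y z : W) (hy : D.q y = 1) (hz : D.q z = 1) :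
    ∃ x, D.q x = 1 ∧ D.f x y = 1 ∧ D.f x z = 1 := by
  obtain ⟨x, h1, h2⟩ : ∃ x, D.f x y = 1 ∧ D.f x z = 1 := by
    by_cases e : y = z
    · simpa [e] using D.nd z (D.ne_of_q hz)
    · exact D.ex22 (D.ne_of_q hy) (D.ne_of_q hz) e 1 1
  exact ⟨x, hq x (by rintro rfl; simp at h1), h1, h2⟩

theorem nrm_t {y z : W} (hy : D.q y = 1) (hz : D.q z = 1) (ε ε' : ZMod 2) (c : F) :
    D.Nrm (c • ((1 + sg F ε • D.η y) * (1 + sg F ε' • D.η z))) :=
  fun u => ⟨_, ((cj_t hy ε _).mul (cj_t hz ε' u)).smul c⟩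

theorem nrm_smul (c : F) : D.Nrm (c • 1) := fun u => ⟨u, 1, by simp⟩

end ES

theorem From.nrm_of {Γ : Type*} [Group Γ] {ρ : Γ →* A} {D : ES F A W} {π : Γ →* Multiplicative W} (h : From ρ D π)
    {g : A} (hg : ∀ r, ∃ s, g * ρ r = ρ s * g) : D.Nrm g := fun u => by
  obtain ⟨r, e⟩ := h.hη u
  obtain ⟨s, e'⟩ := hg r
  obtain ⟨c, -, e''⟩ := h.hπ s
  exact ⟨(π s).toAdd, c, by rw [e, e', e'', smul_mul_assoc]⟩

theorem From.of_nrm {Γ : Type*} [Group Γ] {ρ : Γ →* A} {D : ES F A W} {π : Γ →* Multiplicative W} (h : From ρ D π)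
    {g : A} (hg : D.Nrm g) (r : Γ) : ∃ s, ∃ c : F, g * ρ r = c • (ρ s * g) := by
  obtain ⟨c, -, e⟩ := h.hπ r
  obtain ⟨v, d, e'⟩ := hg (π r).toAdd
  obtain ⟨s, e''⟩ := h.hη v
  exact ⟨s, c * d, by rw [e, mul_smul_comm, e', e'', smul_smul]⟩

end datum

section lin
variable {W : Type*} [AddCommGroup W] [Module (ZMod 2) W] {F V : Type*} [Field F] [AddCommGroup V] [Module F V]

/-- the group generated by `Y` and the scalars -/
def Gp.ofSub (Y : Subgroup (V ≃ₗ[F] V)) : Gp F (End F V) where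
  mem a := ∃ g ∈ Y, ∃ c : F, c ≠ 0 ∧ a = c • (g : V →ₗ[F] V)
  one := ⟨1, Y.one_mem, 1, one_ne_zero, by simp; rfl⟩
  mul := by
    rintro _ _ ⟨g, hg, c, c0, rfl⟩ ⟨k, hk, d, d0, rfl⟩
    exact ⟨_, Y.mul_mem hg hk, c * d, mul_ne_zero c0 d0, by ext; simp [smul_smul, mul_comm]⟩
  smul := by rintro _ d d0 ⟨g, hg, c, c0, rfl⟩; exact ⟨g, hg, d * c, mul_ne_zero d0 c0, smul_smul ..⟩
  inv := by
    rintro _ ⟨g, hg, c, c0, rfl⟩
    exact ⟨_, ⟨g⁻¹, Y.inv_mem hg, c⁻¹, inv_ne_zero c0, rfl⟩, by ext; simp [smul_smul, c0],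
      by ext; simp [smul_smul, c0]⟩

theorem Gp.mem_ofSub {Y : Subgroup (V ≃ₗ[F] V)} {g : V ≃ₗ[F] V} (h : g ∈ Y) : (Gp.ofSub Y).mem g :=
  ⟨g, h, 1, one_ne_zero, by simp⟩

theorem mem_of_ofSub {D : ES F (End F V) W} {Y G : Subgroup (V ≃ₗ[F] V)} (h1 : Y ≤ G)
    (h2 : ∀ g ∈ G, D.Nrm g → g ∈ Y) {g : V ≃ₗ[F] V} (hg : g ∈ G) (h : (Gp.ofSub Y).mem g) : g ∈ Y := by
  obtain ⟨k, hk, c, -, e⟩ := h
  have : ((g * k⁻¹ : V ≃ₗ[F] V) : V →ₗ[F] V) = c • 1 := by
    ext z; simpa using LinearMap.congr_fun e (k.symm z)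
  simpa using Y.mul_mem (h2 _ (G.mul_mem hg (G.inv_mem (h1 hk))) (this ▸ ES.nrm_smul c)) hk

theorem exists_half (h2 : (2 : F) ≠ 0) {Y Z : End F V} (hY : Y * Y = -1) (hZ : Z * Z = -1) :
    ∃ g : V ≃ₗ[F] V, (g : V →ₗ[F] V) = (2 : F)⁻¹ • ((1 + Y) * (1 + Z)) := by
  refine ⟨LinearEquiv.ofLinearMap _ ((2 : F)⁻¹ • ((1 - Z) * (1 - Y))) ?_ ?_, rfl⟩ <;>
  · rw [← End.mul_eq_comp, ← End.one_eq_id]
    simp only [mul_add, add_mul, mul_sub, sub_mul, smul_mul_assoc, mul_smul_comm, mul_assoc, mul_one, one_mul,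
      mul_neg, neg_mul, hY, hZ, rn hY, rn hZ]
    match_scalars <;> field_simp <;> ring

theorem det_half [FiniteDimensional F V] (h2 : (2 : F) ≠ 0) {Y Z : End F V} (hY : Y * Y = -1) (hZ : Z * Z = -1)
    (h : Y * Z = -(Z * Y)) : LinearMap.det ((2 : F)⁻¹ • ((1 + Y) * (1 + Z))) = 1 := by
  have e1 : (1 - Z) * (Y - Z) = (Y - Z) * (1 + Y) := by
    simp only [mul_add, mul_sub, sub_mul, mul_one, one_mul, hY, hZ]; abel
  have e2 : (Y - Z) * ((-2 : F)⁻¹ • (Y - Z)) = 1 := by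
    simp only [mul_sub, sub_mul, mul_smul_comm, hY, hZ, h]; match_scalars <;> field_simp <;> ring
  have e3 : (2 : F)⁻¹ • ((1 + Y) * (1 + Z)) * (1 - Z) = 1 + Y := by
    simp only [mul_add, add_mul, mul_sub, smul_mul_assoc, mul_assoc, mul_one, one_mul, mul_neg, hZ]
    match_scalars <;> field_simp <;> ring
  have e4 : (1 + Y) * ((2 : F)⁻¹ • (1 - Y)) = 1 := by
    simp only [add_mul, mul_sub, mul_smul_comm, mul_one, one_mul, hY]; match_scalars <;> field_simp <;> ring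
  replace e1 := congrArg LinearMap.det e1
  replace e2 := congrArg LinearMap.det e2
  replace e3 := congrArg LinearMap.det e3
  replace e4 := congrArg LinearMap.det e4
  simp only [map_mul, map_one] at e1 e2 e3 e4
  rw [mul_comm, mul_right_inj' (left_ne_zero_of_mul_eq_one e2)] at e1
  rwa [e1, mul_eq_right₀ (left_ne_zero_of_mul_eq_one e4)] at e3

theorem B_half {P : FP F} (S : PQ P V) (h2 : (2 : F) ≠ 0) {Y Z : End F V} (hY : Y * Y = -1) (hZ : Z * Z = -1)
    (h : ∀ a b, S.B (Y a) (Y b) = S.B a b) (h' : ∀ a b, S.B (Z a) (Z b) = S.B a b) (a b : V) :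
    S.B (((2 : F)⁻¹ • ((1 + Y) * (1 + Z))) a) (((2 : F)⁻¹ • ((1 + Y) * (1 + Z))) b) = S.B a b := by
  have : ∀ {Y : End F V}, Y * Y = -1 → (∀ a b, S.B (Y a) (Y b) = S.B a b) →
      ∀ a b, S.B ((1 + Y) a) ((1 + Y) b) = 2 * S.B a b := fun {Y} hY h a b => by
    have : Y (Y a) = -a := LinearMap.congr_fun hY a
    simp [h, ← h (Y a) b, this]; ring
  simp only [LinearMap.smul_apply, End.mul_apply, PQ.B_smul_left, PQ.B_smul_right, this hY h, this hZ h',
    map_inv₀, map_ofNat]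
  field_simp

theorem sg_sq {D : ES F (End F V) W} {y : W} (hy : D.q y = 1) (ε : ZMod 2) :
    sg F ε • D.η y * sg F ε • D.η y = -1 := by simp [smul_smul, D.sq1 hy]

theorem over_of {D : ES F (End F V) W} {Y G : Subgroup (V ≃ₗ[F] V)} (h2 : ∀ g ∈ G, D.Nrm g → g ∈ Y) {y z : W}
    {ε ε' : ZMod 2} (hy : D.q y = 1) (hz : D.q z = 1) (h : ∀ g : V ≃ₗ[F] V, (g : V →ₗ[F] V) =
      (2 : F)⁻¹ • ((1 + sg F ε • D.η y) * (1 + sg F ε' • D.η z)) → g ∈ G) :
    (Gp.ofSub Y).mem ((1 + sg F ε • D.η y) * (1 + sg F ε' • D.η z)) := by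
  obtain ⟨g, hg⟩ := exists_half D.two (sg_sq hy ε) (sg_sq hz ε')
  exact Gp.of_smul (inv_ne_zero D.two) (hg ▸ Gp.mem_ofSub (h2 g (h g hg) (hg ▸ ES.nrm_t hy hz _ _ _)))

theorem det_t [FiniteDimensional F V] {D : ES F (End F V) W} {y z : W} {ε ε' : ZMod 2} (hy : D.q y = 1)
    (hz : D.q z = 1) (e : D.f y z = 1) {g : V ≃ₗ[F] V} (hg : (g : V →ₗ[F] V) =
      (2 : F)⁻¹ • ((1 + sg F ε • D.η y) * (1 + sg F ε' • D.η z))) : LinearEquiv.det g = 1 :=
  Units.ext (by
    rw [LinearEquiv.coe_det, hg]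
    exact det_half D.two (sg_sq hy ε) (sg_sq hz ε') (by simp [D.comm1 e, smul_comm (sg F ε)]))

end lin

section geo
variable {ι : Type} [Fintype ι] [DecidableEq ι] {F : Type u} [Field F] [Finite F] {R : Subgroup (GL ι F)}

/-- the representation -/
noncomputable def rep (R : Subgroup (GL ι F)) : R →* End F (ι → F) :=
  LinearEquiv.automorphismGroup.toLinearMapMonoidHom.comp (toLE.toMonoidHom.comp R.subtype)

theorem rep_apply (r : R) : rep R r = (toLE (r : GL ι F) : (ι → F) →ₗ[F] (ι → F)) := rfl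

theorem rep_inj : Function.Injective (rep R) := fun _ _ e =>
  Subtype.ext (toLE.injective (LinearEquiv.toLinearMap_injective e))

theorem rep_center (hirr : Geo.ActsAbsolutelyIrreducibly (Geo.matrixSet R)) (z : R) (hz : ∀ g, g * z = z * g) :
    ∃ c : F, rep R z = c • 1 := by
  obtain ⟨c, hc⟩ := (mem_scalars_iff' _).1 (center_scalar_of_absIrred hirr z fun g hg =>
    congrArg Subtype.val (hz ⟨g, hg⟩))
  exact ⟨c, LinearMap.ext hc⟩

theorem geo_datum [Nonempty ι] (hR : Geo.IsSymplecticTypeGroup 2 R)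
    (hirr : Geo.ActsAbsolutelyIrreducibly (Geo.matrixSet R)) (h2 : (2 : F) ≠ 0) (P : R → Prop)
    (hP : ∀ r, ∃ z, (∀ g, g * z = z * g) ∧ P (r * z)) :
    ∃ (W : Type u) (_ : AddCommGroup W) (_ : Module (ZMod 2) W) (_ : Finite W) (D : ES F (End F (ι → F)) W)
      (π : R →* Multiplicative W), From (rep R) D π ∧ ∀ u, u ≠ 0 → ∃ r, P r ∧ D.η u = rep R r := by
  have h4 : ∀ x : R, x ^ 4 = 1 := fun x => by simpa [hR.exponent_eq] using Monoid.pow_exponent_eq_one x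
  refine exists_datum (rep R) rep_inj h2 one_ne_zero ?_ (rep_center hirr) h4
    (class_two hR.pGroup hR.cyclic_of_characteristic h4) P hP
  have := congrArg (Submodule.map (Matrix.toLin' (R := F) (m := ι) (n := ι)).toLinearMap)
    (Asch.full_iff_absIrr.2 hirr)
  rw [Submodule.map_span, Submodule.map_top, LinearEquiv.range] at this
  refine top_le_iff.1 (this ▸ Submodule.span_mono ?_)
  rintro _ ⟨_, ⟨g, hg, rfl⟩, rfl⟩
  exact ⟨⟨g, hg⟩, toLE_coe g⟩

theorem From.mem_normalizer {W : Type*} [AddCommGroup W] [Module (ZMod 2) W] {D : ES F (End F (ι → F)) W}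
    {π : R →* Multiplicative W} (h : From (rep R) D π) {g : GL ι F}
    (hc : ∀ (r s : R) (c : F), (toLE g).toLinearMap * rep R r = c • (rep R s * (toLE g).toLinearMap) → ∃ z, rep R z = c • 1) :
    g ∈ Geo.subgroupNormalizer R ↔ D.Nrm (toLE g : (ι → F) →ₗ[F] (ι → F)) := by
  have m : ∀ a b : GL ι F, (toLE (a * b) : End F (ι → F)) = (toLE a : End F (ι → F)) * toLE b := fun a b => by
    rw [map_mul]; rfl
  refine ⟨fun hg => h.nrm_of fun r => ⟨⟨_, (Subgroup.mem_normalizer_iff.1 hg r).1 r.2⟩, by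
    simp only [rep_apply, ← m, inv_mul_cancel_right]⟩, fun hg => Subgroup.mem_normalizer_fintype fun r hr => ?_⟩
  obtain ⟨s, c, e⟩ := h.of_nrm hg ⟨r, hr⟩
  obtain ⟨z, hz⟩ := hc _ _ _ e
  rw [← smul_one_mul, ← hz, ← mul_assoc, ← map_mul] at e
  simp only [rep_apply, ← m] at e
  rw [toLE.injective (LinearEquiv.toLinearMap_injective e), mul_inv_cancel_right]
  exact (z * s).2

theorem geo_cx [Nonempty ι] (hR : Geo.IsSymplecticTypeGroup 2 R)
    (hirr : Geo.ActsAbsolutelyIrreducibly (Geo.matrixSet R)) (h2 : (2 : F) ≠ 0)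
    (hZ : Nat.card (Subgroup.center R) = 4) (h4 : 4 ≤ Fintype.card ι) :
    ∃ (W : Type u) (_ : AddCommGroup W) (_ : Module (ZMod 2) W) (_ : Finite W) (D : ES F (End F (ι → F)) W),
      (∀ u, u ≠ 0 → D.q u = 1) ∧ (∃ n, Nat.card W = 4 ^ (n + 2)) ∧ (∀ u, ∃ r, D.η u = rep R r) ∧
      (∃ i : F, i * i = -1) ∧ ∀ g, g ∈ Geo.subgroupNormalizer R ↔ D.Nrm (toLE g : (ι → F) →ₗ[F] (ι → F)) := by
  have e4 : ∀ x : R, x ^ 4 = 1 := fun x => by simpa [hR.exponent_eq] using Monoid.pow_exponent_eq_one x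
  have nt : (1 : End F (ι → F)) ≠ 0 := one_ne_zero
  obtain ⟨z, z1, i, hi, z2⟩ : ∃ z : R, (∀ g, g * z = z * g) ∧ ∃ i : F, i * i = -1 ∧ rep R z = i • 1 := by
    by_contra hc
    have : ∀ z : Subgroup.center R, ∃ l, rep R z = sg F l • 1 := fun z => by
      obtain ⟨c, e⟩ := rep_center hirr z (Subgroup.mem_center_iff.1 z.2)
      have : c ^ 4 = 1 := smul_left_injective F nt (by simpa [e, smul_pow] using congrArg (rep R) (e4 z))
      rcases mul_self_eq_one_iff.1 (show c * c * (c * c) = 1 by rw [← this]; ring) with h | h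
      · exact (exists_sg h).imp fun l hl => by rw [e, hl]
      · exact absurd ⟨z, Subgroup.mem_center_iff.1 z.2, c, h, e⟩ hc
    choose l hl using this
    have := Nat.card_le_card_of_injective l fun a b e => Subtype.ext (rep_inj (by rw [hl, hl, e]))
    simp [hZ] at this
  obtain ⟨W, _, _, _, D, π, h, h'⟩ := geo_datum hR hirr h2 (fun r => rep R r * rep R r ≠ 1) fun r => by
    by_cases e : rep R r * rep R r = 1
    · refine ⟨z, z1, fun e' => h2 (smul_left_injective F nt ?_)⟩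
      simp only [map_mul, z2, mul_smul_comm, smul_mul_assoc, mul_one, e, smul_smul, hi] at e'
      simp only [two_smul, zero_smul]; nth_rewrite 1 [← e']; simp
    · exact ⟨1, by simp, by simpa using e⟩
  refine ⟨W, _, _, ‹_›, D, fun u hu => ?_, ?_, h.hη, ⟨i, hi⟩, fun g => h.mem_normalizer fun r s c e => ?_⟩
  · obtain ⟨r, h1, h2⟩ := h' u hu
    exact z2_ne.1 fun e => h1 (h2 ▸ D.sq0 e)
  · obtain ⟨n, hn⟩ := D.exists_card
    have := D.finrank_sq
    rw [hn, finrank_fintype_fun_eq_card] at this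
    have : 4 ^ 2 ≤ 4 ^ n := this ▸ Nat.pow_le_pow_left h4 2
    rw [Nat.pow_le_pow_iff_right (by norm_num)] at this
    exact ⟨n - 2, by rw [hn]; congr 1; omega⟩
  · have : ∀ k : ℕ, (toLE g).toLinearMap * rep R (r ^ k) = c ^ k • (rep R (s ^ k) * (toLE g).toLinearMap) := fun k => by
      induction k with
      | zero => simp
      | succ k ih => rw [pow_succ, map_mul, ← mul_assoc, ih, smul_mul_assoc, mul_assoc, e, mul_smul_comm, smul_smul,
          ← mul_assoc, ← map_mul, ← pow_succ, ← pow_succ]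
    have h4 : 1 = c ^ 4 := D.smul_cancel (g := toLE g) ((End.isUnit_iff _).2 (toLE g).bijective)
      (by simpa [e4] using this 4)
    rcases mul_self_eq_one_iff.1 (show c * c * (c * c) = 1 by rw [h4]; ring) with h | h
    · rcases mul_self_eq_one_iff.1 h with rfl | rfl
      · exact ⟨1, by simp⟩
      · exact ⟨z * z, by simp [z2, smul_smul, hi, neg_smul (1 : F) (1 : End F (ι → F))]⟩
    · rcases mul_self_eq_mul_self_iff.1 (h.trans hi.symm) with rfl | rfl
      · exact ⟨z, z2⟩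
      · exact ⟨z * z * z, by simp [z2, smul_smul, hi, neg_smul _ (1 : End F (ι → F))]⟩

theorem geo_SL' (hB : BaseL.{u, u, u} F) (hR : Geo.IsSymplecticTypeGroup 2 R)
    (hirr : Geo.ActsAbsolutelyIrreducibly (Geo.matrixSet R)) (h2 : (2 : F) ≠ 0)
    (hZ : Nat.card (Subgroup.center R) = 4) (h4 : 4 ≤ Fintype.card ι) :
    Geo.IsMaximalIn (Geo.specialLinear ι F) (Geo.subgroupNormalizer R ⊓ Geo.specialLinear ι F) := by
  have : Nonempty ι := Fintype.card_pos_iff.1 (by omega)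
  obtain ⟨W, _, _, _, D, hq, ⟨n, hn⟩, -, ⟨i, hi⟩, hN⟩ := geo_cx hR hirr h2 hZ h4
  refine isMaximalIn_of_equiv toLE _ _ (fun g => g ∈ LinearEquiv.det.ker)
    (fun g => D.Nrm g ∧ g ∈ LinearEquiv.det.ker) mem_SL_iff (fun g => by rw [Subgroup.mem_inf, hN, mem_SL_iff]; rfl)
    (fun g h => h.2) (not_le_inf_of_not_le (SL_not_le_subgroupNormalizer (by omega) hR.prime hR.pGroup hirr))
    fun M h1 h2 => ?_
  have h3 := fun g hg hg' => h1 g ⟨hg', hg⟩
  refine (lin_main hB hi n _ _ D hq hn (Gp.ofSub M) (ES.Over.of_anti (fun y z ε ε' hy hz e => over_of h3 hy hz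
    fun g hg => det_t hy hz e hg) (ES.mid_cx hq) fun u hu e => by simp [hq u hu] at e)).imp
    (fun h g hg => ⟨h _ (Gp.mem_ofSub hg), h2 g hg⟩) fun h => mem_of_det_of_has fun φ v e => ?_
  obtain ⟨g, g1, g2⟩ := exists_transvection e
  exact ⟨g, mem_of_ofSub h2 h3 g1 (by
    rw [show (g : End F (ι → F)) = 1 + φ.smulRight v from LinearMap.ext g2]; exact h φ v e), g2⟩

theorem geo_SU' {F : Type u} [Field F] [Fintype F] {n q : ℕ} (hF : Fintype.card F = q ^ 2) (hq4 : q % 4 = 3)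
    (hB : BaseU.{u, u, u} (frobQ hF : F →+* F) (unit_invol (isUnitaryForm_hermForm hF n)))
    {R : Subgroup (GL (Fin n) F)} (hR : Geo.IsSymplecticTypeGroup 2 R)
    (hirr : Geo.ActsAbsolutelyIrreducibly (Geo.matrixSet R)) (hRD : R ≤ GU n F q)
    (hZ : Nat.card (Subgroup.center R) = 4) (h4 : 4 ≤ n) :
    Geo.IsMaximalIn (GU n F q ⊓ Geo.specialLinear (Fin n) F)
      (Geo.subgroupNormalizer R ⊓ (GU n F q ⊓ Geo.specialLinear (Fin n) F)) := by
  have : Nonempty (Fin n) := ⟨⟨0, by omega⟩⟩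
  obtain ⟨W, _, _, _, D, hq, ⟨m, hm⟩, hη, ⟨i, hi⟩, hN⟩ := geo_cx hR hirr
    (two_ne_zero_of_odd (by rw [hF]; exact Odd.pow (Nat.odd_iff.2 (by omega)))) hZ (by simpa)
  refine max_of hF (fun g => D.Nrm g) hN (SU_not_le_subgroupNormalizer hF (by omega) (by omega) hR.prime hR.pGroup
    hirr) fun M h2 h3 => ?_
  have hη' : ∀ u x y, (std hF n).B (D.η u x) (D.η u y) = (std hF n).B x y := fun u x y => by
    obtain ⟨r, e⟩ := hη u
    rw [e]; exact PQ.B_isom ((mem_GU_iff hF n _).1 (hRD r.2)) x y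
  have hη'' : ∀ u ε x y, (std hF n).B ((sg F ε • D.η u) x) ((sg F ε • D.η u) y) = (std hF n).B x y :=
    fun u ε x y => by rcases z2 ε with rfl | rfl <;> simp [hη']
  refine (unit_main hB (std_ne hF) (fun i hi => ?_) hi m _ _ D hq hm (Gp.ofSub M)
    (ES.Over.of_anti (fun y z ε ε' hy hz e => over_of h3 hy hz fun g hg => ⟨(PQ.unit_mem_isom _ g).2 fun a b => ?_,
      det_t hy hz e hg⟩) (ES.mid_cx hq) fun u hu e => by simp [hq u hu] at e) _
    ⟨std_nondeg hF n, hη', ?_⟩).imp (fun h g hg => h _ (Gp.mem_ofSub hg)) fun h g hg =>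
      mem_of_ofSub h2 h3 hg (Gp.mem_sub.1 ((bigU_iff.1 h).sisom_le (std_ne hF) (std_nondeg hF n) (by simp; omega) hg))
  · change i ^ q = -i
    rw [← Nat.div_add_mod q 4, hq4, pow_add, pow_mul, show i ^ 4 = 1 by linear_combination (i * i - 1) * hi]
    linear_combination i * hi
  · exact (congrArg₂ _ (LinearMap.congr_fun hg a) (LinearMap.congr_fun hg b)).trans
      (B_half _ D.two (sg_sq hy ε) (sg_sq hz ε') (hη'' _ _) (hη'' _ _) a b)
  · rintro _ ⟨g, hg, c, c0, rfl⟩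
    exact ⟨c, c0, fun x y => by simp [PQ.B_isom (h2 hg).1]; ring⟩

/-- class C6 in `SL_n`, `r = 2` -/
theorem geo_SL {F : Type u} [Field F] [Fintype F] {R : Subgroup (GL ι F)} (hR : Geo.IsLinearSymplecticTypeData 2 R)
    (h4 : 4 ≤ Fintype.card ι) :
    Geo.IsMaximalIn (Geo.specialLinear ι F) (Geo.subgroupNormalizer R ⊓ Geo.specialLinear ι F) := by
  obtain ⟨p, e, h1, ⟨hp, -, hF, -⟩, h⟩ := hR.field
  rcases h with ⟨h, -⟩ | ⟨-, rfl, hZ, -⟩ | ⟨-, -, h, -⟩
  · exact absurd h (by decide)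
  · rw [pow_one] at hF
    exact geo_SL' (fun V _ _ _ W _ _ D hq hW _ M hM => H8.C6.base_lin D hq hW (by simpa [hF]) hM) hR.symplecticType
      hR.absIrred (two_ne_zero_of_odd (hF ▸ hp.odd_of_ne_two h1.symm)) hZ h4
  · omega

/-- class C6 in `SU_n`, `r = 2` -/
theorem geo_SU {F : Type u} [Field F] [Fintype F] {n q : ℕ} (hF : Fintype.card F = q ^ 2) (hq : q.Prime)
    (hq4 : q % 4 = 3) {R : Subgroup (GL (Fin n) F)} (hR : Geo.IsSymplecticTypeGroup 2 R)
    (hirr : Geo.ActsAbsolutelyIrreducibly (Geo.matrixSet R)) (hRD : R ≤ GU n F q)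
    (hZ : Nat.card (Subgroup.center R) = 4) (h4 : 4 ≤ n) :
    Geo.IsMaximalIn (GU n F q ⊓ Geo.specialLinear (Fin n) F)
      (Geo.subgroupNormalizer R ⊓ (GU n F q ⊓ Geo.specialLinear (Fin n) F)) :=
  geo_SU' hF hq4 (fun _ _ _ _ _ _ _ D h1 hW _ _ hM _ h => H8.C6.base_unit hq (by simpa) (std_ne hF) h.nd D h1 hW h.hη
    hM h.iso) hR hirr hRD hZ h4

/-- the `r = 2` case of S5661 -/
theorem geo_SU_min {F : Type u} [Field F] [Fintype F] {n q p : ℕ} (hF : Fintype.card F = q ^ 2)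
    {R : Subgroup (GL (Fin n) F)} (hR : Geo.IsSymplecticTypeGroup 2 R)
    (hirr : Geo.ActsAbsolutelyIrreducibly (Geo.matrixSet R)) (hRD : R ≤ GU n F q) (hp : 2 ≠ p)
    (hmin : Geo.IsMinimalFieldFor (Nat.card (Subgroup.center R)) p 2 F)
    (hZ : Nat.card (Subgroup.center R) = 4) (h4 : 4 ≤ n) :
    Geo.IsMaximalIn (GU n F q ⊓ Geo.specialLinear (Fin n) F)
      (Geo.subgroupNormalizer R ⊓ (GU n F q ⊓ Geo.specialLinear (Fin n) F)) := by
  obtain ⟨h1, -, h2, -, h3⟩ := hmin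
  obtain rfl : q = p := Nat.pow_left_injective two_ne_zero (hF.symm.trans h2)
  have h5 := h3 1 one_pos one_lt_two
  have := Nat.odd_iff.1 (h1.odd_of_ne_two hp.symm)
  rw [hZ, pow_one] at h5
  exact geo_SU hF h1 (by omega) hR hirr hRD hZ h4

end geo

end Cfsg.Agent.H4.E
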