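import Cfsg.Agent.H4.E8

/-! The real case: centralisers of singular vectors. -/

set_option autoImplicit false
set_option linter.unusedSectionVars false
set_option linter.unusedSimpArgs false

namespace Cfsg.Agent.H4.E

open Module

variable {W : Type*} [AddCommGroup W] [Module (ZMod 2) W]

namespace Sp
variable (S : Sp W)

/-- every affine subspace of codimension at most two contains a good vector -/
def G2 (q : W → ZMod 2) : Prop := ∀ w a b, ∃ y, q y = 1 ∧ S.f y a = S.f w a ∧ S.f y b = S.f w b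

theorem ττ (y v : W) : S.τ y (S.τ y v) = v := by simp [τ]
theorem τ_adj (y u v : W) : S.f (S.τ y u) v = S.f u (S.τ y v) := by simp [τ, S.symm y, mul_comm]
theorem τ_conj (a b v : W) : S.τ a (S.τ b (S.τ a v)) = S.τ (S.τ a b) v := by
  rw [τ.eq_def S b, S.τ_adj, τ.eq_def S (S.τ a b)]
  simp [τ, smul_smul, add_smul, S.symm a b, add_mul]; abel_nf; simp [two_smul]

theorem no_fpf {q : W → ZMod 2} (q0 : q 0 = 0) (h2 : S.G2 q) (P : (W → W) → Prop)
    (add : ∀ σ, P σ → ∀ u v, σ (u + v) = σ u + σ v) (hf : ∀ σ, P σ → ∀ u v, S.f (σ u) (σ v) = S.f u v)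
    (hq : ∀ σ, P σ → ∀ y, q y = 1 → q (σ y) = 1) (mul : ∀ σ, P σ → P fun v => σ (σ v))
    (cm : ∀ σ, P σ → ∀ y z, q y = 1 → q z = 1 → P fun v => S.τ (σ y) (S.τ (σ z) (S.τ z (S.τ y v))))
    (fix : ∀ σ, P σ → ∀ y, q y = 1 → σ y = y → ∀ v, σ v = v) (σ : W → W) (hσ : P σ) (v : W) : σ v = v := by
  have ne : ∀ {y}, q y = 1 → y ≠ 0 := by rintro _ h rfl; simp [q0] at h
  have k1 : ∀ σ, P σ → ∀ y, q y = 1 → σ (σ y) = S.τ (σ y) y := fun σ hσ y hy => by
    obtain ⟨x, x1, x2, x3⟩ := h2 0 y (S.τ (σ y) (σ (σ y)))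
    simp only [map_zero, LinearMap.zero_apply] at x2 x3
    have := fix _ (cm σ hσ y _ hy (hq σ hσ y hy)) x x1 (by simp only [τ_conj, S.τ0 x2, S.τ0 x3])
    simp only [τ_conj] at this
    rw [← S.ττ (σ y) (σ (σ y))]
    generalize S.τ (σ y) (σ (σ y)) = y' at this
    by_contra e
    obtain ⟨v, v1, v2⟩ := S.ex2 (a := y) (b := y') (ne hy) fun e' => e (by rw [e'])
    have := this v
    rw [S.τ1 v2, τ, map_add, LinearMap.add_apply, v1, zero_add, add_assoc, add_eq_left, add_eq_zero'] at this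
    rcases z2 (S.f y y') with h | h
    · exact ne hy (by simpa [h] using this)
    · exact e (by rw [this]; simp [h])
  have k2 : ∀ σ, P σ → ∀ y x, q y = 1 → q x = 1 → S.f y (σ y) = 1 → S.f x (σ x) = 1 := fun σ hσ y x hy hx e => by
    by_contra e'
    have := fix _ (mul σ hσ) x hx (by rw [k1 σ hσ x hx, S.τ0 (z2_ne'.1 e')]) y
    rw [k1 σ hσ y hy, S.τ1 e, add_eq_left] at this
    exact ne (hq σ hσ y hy) this
  by_contra hv
  obtain ⟨y, hy, -⟩ := h2 0 0 0
  have := k1 σ hσ y hy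
  rcases z2 (S.f y (σ y)) with e | e
  · have h1 := fix _ (mul σ hσ) y hy (by rw [this, S.τ0 e])
    obtain ⟨z, z2, z1⟩ := S.ex2 (a := y + σ y) (b := y) (fun e => hv (fix σ hσ y hy (add_eq_zero'.1 e).symm v))
      (by simpa using ne (hq σ hσ y hy))
    obtain ⟨z, hz, z3, z4⟩ := h2 z (y + σ y) y
    rw [z1, map_add, z4, z2, zero_add] at z3
    rw [z2] at z4
    have a1 : S.f (σ z) y = 1 := by rw [← z3, ← hf σ hσ z, h1]
    have a2 : S.f (σ z) (σ y) = 0 := by rw [hf σ hσ, z4]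
    have a3 : S.f z (σ z) = 0 := z2_ne'.1 fun e' => by simp [k2 σ hσ z y hz hy e'] at e
    obtain ⟨x, hx, x1, x2⟩ := h2 0 (y + σ y) (z + σ z)
    rw [map_zero, LinearMap.zero_apply, map_add, z2_eq] at x1 x2
    have := k2 _ (cm σ hσ y z hy hz) y x hy hx (by simp [τ, S.symm y z, S.symm y (σ z), *])
    simp [τ, S.symm y z, S.symm y (σ z), ← x1, ← x2, e, a1, a2, a3, z3, z4] at this
    revert this; generalize S.f x y = a; generalize S.f x z = b; revert a b; decide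
  · obtain ⟨z, hz, z1, z2⟩ := h2 0 y (σ y)
    simp only [map_zero, LinearMap.zero_apply] at z1 z2
    have a1 : S.f (σ z) (σ y) = 0 := by rw [hf σ hσ, z1]
    have a2 : S.f (σ z) y = 0 := by
      have := hf σ hσ z (σ y)
      rwa [‹σ (σ y) = _›, S.τ1 e, map_add, a1, add_zero, z2] at this
    have a3 := k2 σ hσ y z hy hz e
    obtain ⟨x, hx, x1, x2⟩ := h2 0 (y + z) (σ y + σ z)
    rw [map_zero, LinearMap.zero_apply, map_add, z2_eq] at x1 x2
    have := k2 _ (cm σ hσ y z hy hz) y x hy hx (by simp [τ, S.symm y z, S.symm y (σ z), *])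
    simp [τ, S.symm y z, S.symm y (σ z), ← x1, ← x2, e, a1, a2, a3, z1, z2] at this

end Sp

theorem dih_conj {G : Type*} [Group G] {d e : G} (hd : d * d = 1) (he : e * e = 1) (n : ℕ) :
    ∃ m : ℕ, d * (d * e) ^ n = ((d * e) ^ m)⁻¹ * d * (d * e) ^ m ∨
      d * (d * e) ^ n = ((d * e) ^ m)⁻¹ * e * (d * e) ^ m := by
  have h3 : ∀ m : ℕ, d * (d * e) ^ m = ((d * e) ^ m)⁻¹ * d := fun m => by
    rw [← inv_pow, ← mul_inv_eq_iff_eq_mul, ← conj_pow, mul_inv_rev, inv_eq_of_mul_eq_one_right hd,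
      inv_eq_of_mul_eq_one_right he, ← mul_assoc, hd, one_mul]
  rcases Nat.even_or_odd' n with ⟨m, rfl | rfl⟩
  · exact ⟨m, .inl (by rw [two_mul, pow_add, ← mul_assoc, h3])⟩
  · refine ⟨m, .inr ?_⟩
    rw [show 2 * m + 1 = m + (1 + m) by ring, pow_add, ← mul_assoc, h3, pow_add, pow_one]
    simp only [mul_assoc, ← mul_assoc d d, hd, one_mul]

theorem GD.sing_core {G : Type*} [Group G] [Finite G] [Finite W] [Nontrivial W] (D : GD G W) (h2 : D.G2 D.q)
    (hq : ∀ u v, D.q u = 1 → D.q v = 1 → D.f u v = 1 → D.q (u + v) = 1) (L : Subgroup G) [hL : L.Normal]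
    (hT : ∀ u, D.ι u ∈ L) (hC : ∀ s, D.q s = 1 → ∀ g ∈ L, g * D.ι s * g⁻¹ = D.ι s → ∃ w, g = D.ι w)
    {g : G} (hg : g ∈ L) : ∃ w, g = D.ι w := by
  have h1 : ∀ g ∈ L, D.N g → ∀ v, D.σ g v = v := fun g hg hN =>
    D.no_fpf D.q0 h2 (fun σ => ∃ g ∈ L, D.N g ∧ σ = D.σ g) (by rintro _ ⟨g, -, h, rfl⟩; exact h.add)
      (by rintro _ ⟨g, -, h, rfl⟩; exact h.f) (by rintro _ ⟨g, -, h, rfl⟩ y hy; rw [h.q, hy])
      (by rintro _ ⟨g, hg, h, rfl⟩; exact ⟨_, L.mul_mem hg hg, h.mul h, funext fun v => (h.σ_mul h v).symm⟩)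
      (by
        rintro _ ⟨g, hg, h, rfl⟩ y z hy hz
        obtain ⟨c, hc⟩ := D.c1 y z hy hz
        have key : ∀ v, g * (c * g⁻¹ * c⁻¹) * D.ι v * (g * (c * g⁻¹ * c⁻¹))⁻¹ =
            D.ι (D.τ (D.σ g y) (D.τ (D.σ g z) (D.τ z (D.τ y v)))) := fun v => by
          obtain ⟨u, hu⟩ := Finite.injective_iff_surjective.1 h.inj (D.τ z (D.τ y v))
          have : ∀ a b, D.τ (D.σ g a) (D.σ g b) = D.σ g (D.τ a b) := fun a b => by
            rw [Sp.τ, Sp.τ, h.f, h.add]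
            rcases z2 (D.f b a) with e | e <;> simp [e, σ_zero]
          rw [← hu, this, this, ← h.spec, ← hc, ← D.ττ y v, ← D.ττ z (D.τ y v), ← hc, ← hu, ← h.spec]
          group
        exact ⟨_, L.mul_mem hg (hL.conj_mem _ (L.inv_mem hg) c), fun v => ⟨_, key v⟩,
          funext fun v => (σ_eq (key v)).symm⟩)
      (by
        rintro _ ⟨g, hg, h, rfl⟩ y hy e v
        obtain ⟨w, rfl⟩ := hC y hy g hg (by rw [h.spec, e])
        exact σ_eq (D.ι_conj w v)) _ ⟨g, hg, hN, rfl⟩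
  have h3 : ∀ k ∈ L, ∀ y x, D.q y = 1 → k * D.ι y * k⁻¹ = D.ι x → x = y := fun k hk y x hy e => by
    have : D.N k⁻¹ := fun u => by
      obtain ⟨w, hw⟩ := hC y hy (k⁻¹ * D.ι u * k) (by simpa using hL.conj_mem _ (hT u) k⁻¹) (by
        rw [← mul_left_cancel_iff (a := k), ← mul_right_cancel_iff (a := k⁻¹), e, ← D.ι_conj u x, ← e]; group)
      exact ⟨w, by simpa using hw⟩
    rw [← h1 _ (L.inv_mem hk) this x]
    exact σ_eq (by rw [← e]; group)
  obtain ⟨y, hy, -⟩ := h2 0 0 0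
  obtain ⟨w, hw⟩ := D.nd y (D.ne_of_q hy)
  obtain ⟨z, hz, z1, -⟩ := h2 w y y
  rw [hw] at z1
  have yz : z ≠ y := by rintro rfl; simp at z1
  have dd : g * D.ι y * g⁻¹ * (g * D.ι y * g⁻¹) = 1 := by simp [mul_assoc, ← mul_assoc (D.ι y)]
  have dL := hL.conj_mem _ (hT y) g
  refine hC y hy g hg ?_
  by_cases h : Odd (orderOf (D.ι z * (g * D.ι y * g⁻¹)))
  · obtain ⟨n, v1, v2⟩ := H5.Odd.exists_conj_involution (D.ιι z) dd h
    have vL := L.mul_mem (hT z) (L.pow_mem (L.mul_mem (hT z) dL) n)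
    generalize D.ι z * (D.ι z * (g * D.ι y * g⁻¹)) ^ n = v at *
    exact absurd (h3 (v * g) (L.mul_mem vL hg) y z hy (by
      rw [mul_inv_rev, ← mul_assoc, mul_assoc v, mul_assoc v, mul_assoc v, ← v2, inv_eq_of_mul_eq_one_right v1]
      simp [mul_assoc, ← mul_assoc v v, v1])) yz
  obtain ⟨n, m1, m2, m3, m4⟩ := H5.Odd.exists_central_involution (D.ιι z) dd h
  have pL := fun n => L.pow_mem (L.mul_mem (hT z) dL) n
  obtain ⟨x, hx⟩ := hC z hz _ (pL n) (by rw [← m3]; group)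
  obtain ⟨m, e⟩ := dih_conj (D.ιι z) dd n
  rw [hx, ← D.add] at e
  rw [hx] at m1 m4
  rcases e with e | e
  · exact absurd (by simp [add_eq_left.1 (h3 _ (L.inv_mem (pL m)) z _ hz (by rw [e, inv_inv]))]) m1
  · have := h3 _ (L.mul_mem (L.inv_mem (pL m)) hg) y _ hy (by rw [e]; group)
    obtain ⟨t, ht⟩ := hC x (by rw [show x = z + y by simp [← this]]; exact hq z y hz hy z1) _ dL (by rw [m4]; group)
    rw [ht, h3 g hg y t hy ht]

theorem Sp.glue_aux [Finite W] (S : Sp W) {q : W → ZMod 2} (h3 : S.G3 q) (h16 : 16 < Nat.card W) {a y z : W}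
    (hS : ∀ s, q s = 1 → s ≠ 0 ∧ s ≠ a) (y0 : y ≠ 0) (y1 : y ≠ a) (y2 : S.f y a = 0) (z2' : S.f z a = 0)
    (h : ∀ s, q s = 1 → S.f s a = 0 → ∃ t, S.f t a = 0 ∧ ∀ v, S.f v a = 0 →
      S.τ y (S.τ t (S.τ s (S.τ z v))) = v ∨ S.τ y (S.τ t (S.τ s (S.τ z v))) = v + a) : y = z ∨ y = z + a := by
  by_contra hc
  push Not at hc
  obtain ⟨w, w0, w1, w2, w3, w4⟩ := S.exists_perp3 h16 a y z a
  obtain ⟨s, s1, s2⟩ := S.ex2 w0 w1
  obtain ⟨s, hs, s3, s4, -⟩ := h3 s a w w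
  rw [s1] at s3
  rw [s2] at s4
  obtain ⟨t, t1, ht⟩ := h s hs s3
  rw [S.symm] at w2 w3 w4
  by_cases e : s = t ∨ s = a + t
  · obtain ⟨v, ⟨v1, v2⟩, v3⟩ := S.ex3 y0 y1 hc.1 (add_comm z a ▸ hc.2)
    have := ht v v1
    have e' : ∃ l : ZMod 2, S.τ t (S.τ s v) = v + l • a := by
      rcases e with rfl | rfl
      · exact ⟨0, by simp [S.ττ]⟩
      · exact ⟨S.f v t, by simp [Sp.τ, v1, S.symm a, t1]; abel_nf; simp [two_smul]⟩
    obtain ⟨l, e'⟩ := e'
    rw [S.τ0 v2, e', S.τ1 (by simp [v3, S.symm a, y2]), add_assoc, add_eq_left, add_right_inj] at this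
    rcases z2 l with rfl | rfl <;> simp [add_eq_zero', y0, y1, y1.symm] at this
  · push Not at e
    obtain ⟨v, ⟨v1, v2⟩, v3⟩ := S.ex3 (hS s hs).1 (hS s hs).2 e.1 e.2
    have := ht (S.τ z (S.τ s v)) (by simp [Sp.τ, v1, s3, z2'])
    rw [S.ττ, S.ττ, S.τ0 v2, S.τ1 v3] at this
    rcases this with h | h <;> simpa [Sp.τ, w2, w3, w4, s4] using congrArg (S.f · w) h

section alg
variable {F A : Type*} [Field F] [Ring A] [Algebra F A] {D : ES F A W}

theorem ES.Cj.add {g : A} {u v u' v' : W} (h : D.Cj g u v) (h' : D.Cj g u' v') : D.Cj g (u + u') (v + v') := by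
  obtain ⟨c, h⟩ := h
  obtain ⟨d, h'⟩ := h'
  obtain ⟨a, a0, ha⟩ := D.mul u u'
  obtain ⟨b, -, hb⟩ := D.mul v v'
  refine ⟨a⁻¹ * (c * d * b), ?_⟩
  rw [mul_smul, eq_inv_smul_iff₀ a0, ← mul_smul_comm, ← ha, ← mul_assoc, h, smul_mul_assoc, mul_assoc, h',
    mul_smul_comm, ← mul_assoc, hb, smul_mul_assoc, smul_smul, smul_smul]

theorem ES.cj_proj [Finite W] {a w v v' : W} (ha : a ≠ 0) {j c : F} {k : A} (hk : IsUnit k) (hw : D.f w a = 0)
    (h : k * (1 + j • D.η a) = (c • D.η w) * (1 + j • D.η a)) (hv : D.f v a = 0) (e : D.Cj k v v') :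
    v' = v ∨ v' = v + a := by
  have c0 : c ≠ 0 := by rintro rfl; exact ES.proj_ne (D := D) ha j (hk.mul_right_eq_zero.1 (by simpa using h))
  obtain ⟨d, e⟩ := e
  have cm : ∀ {v}, D.f v a = 0 → D.η v * (1 + j • D.η a) = (1 + j • D.η a) * D.η v := fun h => by
    simp [mul_add, add_mul, D.comm0 h]
  have h1 := congrArg (· * (1 + j • D.η a)) e
  simp only [smul_mul_assoc, mul_assoc] at h1
  rw [cm hv, ← mul_assoc, h, mul_assoc, ← cm hv, smul_mul_assoc, ← mul_assoc, D.comm w] at h1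
  simp only [smul_mul_assoc, mul_assoc, mul_smul_comm, cm hw, smul_smul] at h1
  obtain ⟨b, b0, hb⟩ := D.mul v v'
  replace h1 := congrArg (D.η v * · * D.ι w) h1
  simp only [mul_smul_comm, smul_mul_assoc, mul_assoc, D.η_ι, mul_one] at h1
  simp only [← mul_assoc (D.η v), D.sq, hb, one_mul, smul_smul, smul_mul_assoc] at h1
  by_contra hc
  push Not at hc
  have n : d * c * b ≠ 0 := mul_ne_zero (mul_ne_zero (ES.cj_ne hk e) c0) b0
  refine ES.no_eig (D := D) (u := v + v') (mt add_eq_zero'.1 hc.1.symm) (fun e => hc.2 (by simp [← e])) ha j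
    ((d * c * b)⁻¹ * _) (by rw [mul_smul, eq_inv_smul_iff₀ n, ← h1])

theorem half_aux (h2 : (2 : F) ≠ 0) {Y a : A} {j : F} (hj : j * j = 1) (YA : Y * a = a * Y) (AA : a * a = 1)
    (YY : Y * Y = -1) : (2 : F)⁻¹ • ((1 + Y) * (1 + j • (Y * a))) * (1 + (-j) • a) = 1 + (-j) • a := by
  simp only [mul_add, add_mul, smul_mul_assoc, mul_smul_comm, mul_assoc, mul_one, one_mul, YA, rc YA, AA, r1 AA,
    YY, mul_neg, neg_mul]
  match_scalars <;> field_simp <;> first | ring1 | linear_combination hj | linear_combination -hj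

end alg

section sing
variable {F V : Type*} [Field F] [AddCommGroup V] [Module F V] {B : V →ₗ[F] V →ₗ[F] F} {D : ES F (End F V) W}
  {M : Gp F (End F V)} [Finite W]

theorem RM.Rel.inv {x : W} {K V' : Type*} [Field K] [Algebra F K] [AddCommGroup V'] [Module K V'] {R : RM D x K V'}
    {a b : End F V} {a' : End K V'} (h : R.Rel a a') (h1 : a * b = 1) (h2 : b * a = 1) :
    ∃ b', R.Rel b b' ∧ a' * b' = 1 ∧ b' * a' = 1 := by
  have : b * D.η x = D.η x * b := by rw [← mul_one (b * _), ← h1, mul_assoc, ← rc h.1, r1 h2]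
  obtain ⟨b', h6⟩ := R.ex b this
  exact ⟨b', ⟨this, h6⟩, (h.mul ⟨this, h6⟩).uniq (h1 ▸ R.rel_one), (RM.Rel.mul ⟨this, h6⟩ h).uniq (h2 ▸ R.rel_one)⟩

theorem RH.proj (hR : RH B D M) {a : W} (qa : D.q a = 0) {j : F} (hj : j * j = 1) (x y : V) :
    B ((1 + j • D.η a) x) ((1 + j • D.η a) y) = 2 * B ((1 + j • D.η a) x) y := by
  have : D.η a (D.η a x) = x := LinearMap.congr_fun (D.sq0 qa) x
  have h1 := hR.hη a (D.η a x) y
  simp only [LinearMap.add_apply, End.one_apply, LinearMap.smul_apply, map_add, map_smul, smul_eq_mul, hR.hη a x y,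
    this] at h1 ⊢
  linear_combination j * h1 + B x y * hj

theorem RH.half_one (hR : RH B D M) {a y : W} (ha : a ≠ 0) (qa : D.q a = 0) {j c : F} (hj : j * j = 1) {E : End F V}
    (hE : Iso B E) (h : E * (1 + j • D.η a) = (c • D.η y) * (1 + j • D.η a)) : c * c = 1 := by
  by_contra hc
  refine ES.proj_ne (D := D) ha j (LinearMap.ext fun x => hR.nd _ fun z => ?_)
  have := congrArg₂ (fun x y => B x y) (LinearMap.congr_fun h x) (LinearMap.congr_fun h z)
  simp only [End.mul_apply, hE _ _, LinearMap.smul_apply, map_smul, hR.hη y _ _, hR.proj qa hj, smul_eq_mul] at this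
  exact (mul_eq_zero.1 (show 2 * (c * c - 1) * _ = 0 by linear_combination -this)).resolve_left
    (mul_ne_zero D.two (sub_ne_zero.2 hc))

theorem RH.conj (hR : RH B D M) {g g' : End F V} (hg : M.mem g) (h : g * g' = 1) (u : W) :
    Iso B (g * D.η u * g') := fun x y => by
  obtain ⟨c, -, e⟩ := hR.iso g hg
  have : ∀ x, g (g' x) = x := LinearMap.congr_fun h
  simp only [End.mul_apply, e, hR.hη u _ _]
  rw [← e, this, this]

theorem RH.res (hR : RH B D M) {a w : W} (ha : a ≠ 0) (qa : D.q a = 0) {j : F} (hj : j * j * sg F (D.q a) = 1)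
    (hw : D.f w a = 1) : RH (B.domRestrict₁₂ (D.Vp a j) (D.Vp a j)) ((ES.rm ha hj).res hw 1 D.q rfl (by simp))
      ((ES.rm ha hj).resG M) := by
  refine ⟨fun x hx => Subtype.ext (hR.nd _ fun z => ?_), fun u a b => ?_, ?_⟩
  · have h1 : B x ((1 + j • D.η a) z) = 0 := hx ⟨_, ES.proj_mem hj z⟩
    have h2 := hR.proj qa (by simpa [qa] using hj) x z
    rw [show (1 + j • D.η a) x = (2 : F) • x by simp [two_smul, ES.mem_Vp.1 x.2], map_smul, LinearMap.smul_apply,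
      h1] at h2
    simpa [D.two] using h2
  · have := ((ES.rm ha hj).rel_φ u.2.1).2
    rw [RM.res_η, Pi.one_apply, one_smul]
    exact (congrArg₂ (fun x y => B x y) (this a) (this b)).trans (hR.hη ..)
  · rintro _ ⟨T, T', c, c0, h1, h2, rfl⟩
    obtain ⟨d, d0, h3⟩ := hR.iso T h1
    refine ⟨c * d, mul_ne_zero c0 d0, fun x y => ?_⟩
    have : B (T' x) (T' y) = d * d * B x y := (congrArg₂ (fun x y => B x y) (h2.2 x) (h2.2 y)).trans (h3 ..)
    simp [LinearMap.domRestrict₁₂_apply, this]; ring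

variable [Finite F] [FiniteDimensional F V]

theorem RH.sing_aux (hR : RH B D M) (h : D.Over M) (h3 : D.G3 D.q) (h16 : 16 < Nat.card W)
    (hS : ∀ y, D.q y = 1 → D.Iw M y) {a : W} (ha : a ≠ 0) (qa : D.q a = 0) {j : F} (hj : j * j = 1) :
    D.Iww M a j ∧ ∀ g, M.mem g → g * D.η a = D.η a * g → g * (1 + (-j) • D.η a) = 1 + (-j) • D.η a →
      ∃ w, ∃ c : F, D.f w a = 0 ∧ g * (1 + j • D.η a) = (c • D.η w) * (1 + j • D.η a) := by
  obtain ⟨w, hw⟩ := D.nd a ha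
  have hj' : j * j * sg F (D.q a) = 1 := by simp [hj, qa]
  have hR' := hR.res ha qa hj' hw
  have h' : ((ES.rm ha hj').res hw 1 D.q rfl (by simp)).Over _ := RM.res_over h fun y hy _ => .inl hy
  set R := ES.rm ha hj'
  have : Finite (End F (D.Vp a j)) := Module.finite_of_finite F
  have : Nontrivial (D.pp a w) := Finite.one_lt_card_iff_nontrivial.1 (by have := Sp.card_pp hw; omega)
  have cm : ∀ {g}, g * D.η a = D.η a * g → g * (1 + (-j) • D.η a) = (1 + (-j) • D.η a) * g := fun h => by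
    simp [mul_add, add_mul, h]
  let L : Subgroup (R.resG M).grp :=
    { carrier := {u | ∃ g, M.mem g ∧ R.Rel g u.1 ∧ g * (1 + (-j) • D.η a) = 1 + (-j) • D.η a}
      one_mem' := ⟨1, M.one, R.rel_one, one_mul _⟩
      mul_mem' := by
        rintro u v ⟨g, g1, g2, g3⟩ ⟨k, k1, k2, k3⟩
        exact ⟨_, M.mul g1 k1, g2.mul k2, by rw [mul_assoc, k3, g3]⟩
      inv_mem' := by
        rintro u ⟨g, g1, g2, g3⟩
        obtain ⟨k, k1, k2, k3⟩ := M.inv g1
        obtain ⟨k', k4, k5, -⟩ := g2.inv k2 k3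
        exact ⟨k, k1, Units.inv_eq_of_mul_eq_one_right k5 ▸ k4, by rw [← g3, r1 k3, g3]⟩ }
  have hL : L.Normal := ⟨by
    rintro u ⟨g, g1, g2, g3⟩ ⟨v, k, k', c, c0, k1, k2, e⟩
    obtain ⟨l, l1, l2, l3⟩ := M.inv k1
    obtain ⟨l', l4, l5, l6⟩ := k2.inv l2 l3
    refine ⟨_, M.mul (M.mul k1 g1) l1, ?_, by rw [mul_assoc, cm l4.1, ← mul_assoc, mul_assoc k, g3, cm k2.1,
      mul_assoc, l2, mul_one]⟩
    convert (k2.mul g2).mul l4 using 1
    simp [Units.inv_eq_of_mul_eq_one_right (u := v) (a := c⁻¹ • l') (by simp [e, smul_smul, c0, l5]), e, smul_smul,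
      c0]⟩
  have := hL.map _ (QuotientGroup.mk'_surjective (R.resG M).sca)
  have hT : ∀ y : D.pp a w, D.q y = 1 → Gp.el (h'.η y) ∈ L := fun y hy => by
    have YA := D.comm0 y.2.1
    have AA := D.sq0 qa
    have YY := D.sq1 hy
    obtain ⟨ε, hε⟩ : ∃ ε, j • (D.η y * D.η a) = sg F ε • D.η (y + a) := by
      obtain ⟨c, -, e⟩ := D.mul y a
      obtain ⟨ε, hε⟩ := exists_sg (c := j * c) (by
        have := sq_one_of D hR.nd (g := 1) one_ne_zero (by simp) ((hR.hη y).mul (hR.hη a)) (hR.hη (y + a))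
          (by simpa using e)
        linear_combination c * c * hj + this)
      exact ⟨ε, by rw [e, smul_smul, hε]⟩
    have := h.t' hy (z := y + a) (by simp [hR.qadd, hy, qa, y.2.1]) 0 ε
    rw [← hε, sg_zero, one_smul] at this
    refine ⟨_, M.smul (inv_ne_zero D.two) this, ⟨?_, fun v => ?_⟩, ?_⟩
    · simp only [mul_add, add_mul, smul_mul_assoc, mul_smul_comm, mul_assoc, mul_one, one_mul, YA, rc YA, AA, r1 AA]
    · have e1 : j • D.η a v = v := ES.mem_Vp.1 v.2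
      have e2 : D.η y (D.η y v) = -v := LinearMap.congr_fun YY v
      rw [Gp.el_val, RM.res_η, Pi.one_apply, one_smul, (R.rel_φ y.2.1).2]
      change D.η y v = (2 : F)⁻¹ • ((1 + D.η y) * (1 + j • (D.η y * D.η a))) v
      simp [← map_smul, e1, e2, eq_inv_smul_iff₀ D.two, two_smul, -smul_add]
      abel
    · exact half_aux D.two hj YA AA YY
  have hT' : ∀ u, (ES.gd h' hR'.hq).ι u ∈ L.map (QuotientGroup.mk' _) := fun u => by
    rcases z2 (D.q u) with e | e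
    · obtain ⟨y, y1, y2, y3, y4⟩ := h3 0 a w u
      simp only [map_zero, LinearMap.zero_apply] at y2 y3 y4
      rw [← aa' ⟨y, y2, y3⟩ u, GD.add]
      exact mul_mem ⟨_, hT _ y1, rfl⟩ ⟨_, hT _ (by simp [hR.qadd, *]), rfl⟩
    · exact ⟨_, hT u e, rfl⟩
  have key := @GD.sing_core _ _ _ _ _ _ _ _ (ES.gd h' hR'.hq) (fun u b c => by
      obtain ⟨y, y1, y2, y3, y4⟩ := h3 u a b c
      rw [u.2.1] at y2
      obtain ⟨v, rfl | rfl⟩ := Sp.dec hw y2
      · exact ⟨v, y1, y3, y4⟩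
      · exact ⟨v, show D.q v = 1 by simpa [hR.qadd, qa, v.2.1] using y1,
          show D.f v b = D.f u b by simpa [D.symm a, b.2.1] using y3,
          show D.f v c = D.f u c by simpa [D.symm a, c.2.1] using y4⟩)
    (fun u v (hu : D.q u = 1) (hv : D.q v = 1) (e : D.f u v = 1) => (hR.qadd u v).trans (by simp [hu, hv, e]))
    _ this hT' (by
      have key : ∀ s : D.pp a w, D.q s = 1 → ∀ g ∈ L, g.1.1 * R.φ s = R.φ s * g.1.1 →
          ∃ w, QuotientGroup.mk g = (ES.gd h' hR'.hq).ι w := by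
        rintro s hs g ⟨k, k1, k2, k3⟩ e
        have e' : k * D.η s = D.η s * k := by
          refine ext_J D.two (J := j • D.η a) (by simp [smul_smul, hj, D.sq0 qa]) (fun z hz => ?_) fun z hz => ?_
          · exact ((k2.mul (R.rel_φ s.2.1)).2 ⟨z, ES.mem_Vp.2 hz⟩).symm.trans
              (e ▸ ((R.rel_φ s.2.1).mul k2).2 ⟨z, ES.mem_Vp.2 hz⟩)
          · have : ∀ z, (j • D.η a) z = -z → k z = z := fun z hz => smul_right_injective V D.two (by
              simpa [show j • D.η a z = -z from hz, two_smul] using LinearMap.congr_fun k3 z)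
            rw [End.mul_apply, End.mul_apply, this z hz, this]
            rw [← End.mul_apply, smul_mul_assoc, ← D.comm0 s.2.1, ← mul_smul_comm, End.mul_apply, hz, map_neg]
        refine (ES.gd h' hR'.hq).inner _ fun u => (ES.cj_iff h' ..).2 ?_
        obtain ⟨v, c, hv⟩ := ES.nrm_of_Iw h hR.hq h3 (D.ne_of_q hs) (hS _ hs) hS k1 ⟨1, by simp [e']⟩ u
        have := ES.cj_proj ha (Gp.isUnit k1) (w := 0) (c := 1) (j := -j) (by simp) (by simpa [D.η0] using k3) u.2.1 ⟨c, hv⟩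
        have e2 := (k2.mul (R.rel_φ u.2.1)).uniq (hv ▸ ((R.rel_φ (u := v) (by
          rcases this with rfl | rfl <;> simp [u.2.1])).mul k2).smul c)
        rcases this with rfl | rfl
        · exact ⟨c, by simpa [RM.res_η] using e2⟩
        · obtain ⟨d, -, hd⟩ := R.φ_add u.2.1
          exact ⟨c * d, by simpa [RM.res_η, hd, smul_smul] using e2⟩
      rintro s hs _ ⟨g, hg, rfl⟩ e
      obtain ⟨c, e⟩ := (ES.cj_iff h' ..).1 e
      rcases mul_self_eq_one_iff.1 (hR'.sq_one g.2 e) with rfl | rfl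
      · exact key s hs g hg (by simpa [RM.res_η] using e)
      · obtain ⟨t, ht⟩ := (Sp.sub hw).nd s ((ES.gd h' hR'.hq).ne_of_q hs)
        obtain ⟨t', t1, t2, t3, t4⟩ := h3 t a w s
        obtain ⟨v, hv⟩ := key s hs _ (L.mul_mem hg (hT ⟨t', t2.trans t.2.1, t3.trans t.2.2⟩ t1)) (by
          have := ES.comm1 (R.res hw 1 D.q rfl (by simp)) (u := ⟨t', t2.trans t.2.1, t3.trans t.2.2⟩) (v := s)
            (t4.trans ht)
          simp only [RM.res_η, Pi.one_apply, one_smul] at this e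
          simp only [RM.res_η, Pi.one_apply, one_smul, Subgroup.coe_mul, Units.val_mul, Gp.el_val, mul_assoc, this]
          exact LinearMap.ext fun z => by simpa [neg_eq_iff_eq_neg] using LinearMap.congr_fun e (R.φ t' z))
        exact ⟨v + ⟨t', t2.trans t.2.1, t3.trans t.2.2⟩, by
          rw [GD.add, ← hv, QuotientGroup.mk_mul, mul_assoc]
          exact (mul_eq_left.2 ((ES.gd h' hR'.hq).ιι _)).symm⟩)
  refine ⟨ES.iww ha hj' hw fun g hg u => (key (this.conj_mem _ (hT' u) (Gp.el hg))).imp fun v e =>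
    (ES.cj_iff h' (Gp.el hg) ..).1 e, fun g g1 g2 g3 => ?_⟩
  obtain ⟨g', hg'⟩ := R.ex g g2
  obtain ⟨v, e⟩ := key ⟨Gp.el (RM.Rel.mem ⟨g2, hg'⟩ g1), ⟨g, g1, ⟨g2, hg'⟩, g3⟩, rfl⟩
  obtain ⟨c, -, e⟩ := Gp.π_eq.1 e.symm
  refine ⟨v, c, v.2.1, LinearMap.ext fun z => (hg' ⟨_, ES.proj_mem hj' z⟩).symm.trans ?_⟩
  simp only [Gp.el_val, RM.res_η, Pi.one_apply, one_smul] at e
  exact e ▸ ((R.rel_φ v.2.1).smul c).2 ⟨_, ES.proj_mem hj' z⟩

theorem four_aux {A : Type*} [Ring A] {E E' Y Z e : A} (h1 : E * e = Y * e) (h2 : E' * e = Z * e) (h4 : Z * e = e * Z) {Y' Z' : A} (h5 : Y' * e = e * Y') (h6 : Z' * e = e * Z') :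
    (1 + E) * (1 + E') * ((1 + Z') * (1 + Y')) * e = (1 + Y) * (1 + Z) * ((1 + Z') * (1 + Y')) * e := by
  have a1 : (1 + Z') * (1 + Y') * e = e * ((1 + Z') * (1 + Y')) := by
    simp only [mul_add, add_mul, mul_assoc, mul_one, one_mul, h5, h6, rc h6]
  have a2 : (1 + Z) * e = e * (1 + Z) := by simp only [mul_add, add_mul, mul_one, one_mul, h4]
  have a3 : (1 + E) * (1 + E') * e = (1 + Y) * (1 + Z) * e := by
    rw [mul_assoc, mul_assoc, add_mul 1 E', h2, ← add_mul, a2, ← mul_assoc, ← mul_assoc, add_mul 1 E, h1, ← add_mul]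
  rw [mul_assoc _ _ e, mul_assoc ((1 + Y) * _), a1, ← mul_assoc _ e, ← mul_assoc _ e, a3]

theorem RH.sing (hR : RH B D M) (h : D.Over M) (h3 : D.G3 D.q) (h16 : 16 < Nat.card W)
    (hS : ∀ y, D.q y = 1 → D.Iw M y) {a : W} (ha : a ≠ 0) (qa : D.q a = 0) : D.Iw M a := by
  intro g hg e
  obtain ⟨g', hg', g1, g2⟩ := M.inv hg
  have e' : g' * D.η a = D.η a * g' := by rw [← mul_one (g' * _), ← g1, mul_assoc, ← rc e, r1 g2]
  obtain ⟨P1, P2⟩ := hR.sing_aux h h3 h16 hS ha qa (j := 1) (by simp)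
  obtain ⟨P3, -⟩ := hR.sing_aux h h3 h16 hS ha qa (j := -1) (by simp)
  have cm : ∀ {g : End F V} (j : F), g * D.η a = D.η a * g → g * (1 + j • D.η a) = (1 + j • D.η a) * g := fun j h => by
    simp [mul_add, add_mul, h]
  have cs : ∀ {y} (c : F), D.f y a = 0 → (c • D.η y) * D.η a = D.η a * (c • D.η y) := fun c h => by simp [D.comm0 h]
  have hS' : ∀ s, D.q s = 1 → s ≠ 0 ∧ s ≠ a := fun s hs => ⟨D.ne_of_q hs, by rintro rfl; simp [qa] at hs⟩
  have K : ∀ {j : F}, j * j = 1 → D.Iww M a j → ∀ {g g'}, M.mem g → g * D.η a = D.η a * g → g * g' = 1 → g' * g = 1 →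
      ∀ u, D.q u = 1 → D.f u a = 0 → ∃ y ε, D.q y = 1 ∧ D.f y a = 0 ∧
        g * D.η u * g' * (1 + j • D.η a) = (sg F ε • D.η y) * (1 + j • D.η a) := by
    intro j hj P g g' hg e g1 g2 u hu ua
    obtain ⟨y, c, y1, y2⟩ := P.conj hg e g1 g2 ua
    have c1 := hR.half_one ha qa hj (hR.conj hg g1 u) y2
    have := (ES.half_sq ha (by simp [qa, hj]) e g1 g2 (hS' u hu).1 (hS' u hu).2 y1 y2).2.2
    rw [c1, one_mul, hu] at this
    obtain ⟨ε, rfl⟩ := exists_sg c1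
    exact ⟨y, ε, (sg_inj D.two this).symm, y1, y2⟩
  have main : ∀ u, D.q u = 1 → D.f u a = 0 → ∃ v, D.Cj g u v := fun u hu ua => by
    obtain ⟨y, ε, y1, y2, y3⟩ := K (by simp) P1 hg e g1 g2 u hu ua
    obtain ⟨z, ε', z1, z2, z3⟩ := K (by simp) P3 hg e g1 g2 u hu ua
    refine ES.cj_of_conj g2 (ES.glue ha (by simp [qa]) ⟨-1, ?_⟩ z2 (D.glue_aux h3 h16 hS' (hS' y y1).1 (hS' y y1).2 y2
      z2 fun s hs sa => ?_) y3 z3)
    · exact LinearMap.ext fun x => by
        simp [show ∀ x, g' (g x) = x from LinearMap.congr_fun g2, show ∀ x, g (g' x) = x from LinearMap.congr_fun g1,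
          show ∀ x, D.η u (D.η u x) = -x from LinearMap.congr_fun (D.sq1 hu)]
    obtain ⟨u', δ, u1, u2, u3⟩ := K (by simp) P3 hg' e' g2 g1 s hs sa
    obtain ⟨t, δ', t1, t2, t3⟩ := K (by simp) P1 hg e g1 g2 u' u1 u2
    replace u3 : g * D.η u' * g' * (1 + (-1 : F) • D.η a) = (sg F δ • D.η s) * (1 + (-1 : F) • D.η a) := by
      have := congrArg (fun t => sg F δ • (g * t * g')) u3
      simp only [mul_assoc, ← cm _ e', r1 g1, smul_mul_assoc, mul_smul_comm, smul_smul, sg_mul_self, one_smul] at this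
      simp only [mul_assoc, smul_mul_assoc, this]
    have m : M.mem ((1 + g * D.η u * g') * (1 + g * D.η u' * g') *
        ((1 + sg F (δ + 1) • D.η s) * (1 + sg F (ε' + 1) • D.η z))) := by
      refine M.mul ?_ (h.t' hs z1 _ _)
      convert M.mul (M.mul hg (h.t u u' hu u1)) hg' using 1
      simp only [mul_add, add_mul, mul_one, one_mul, mul_assoc, g1, r1 g2]
    have h4 : (2 * 2 : F) ≠ 0 := mul_ne_zero D.two D.two
    obtain ⟨w, c, w1, w2⟩ := P2 _ (M.smul (inv_ne_zero h4) m) (by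
      simp only [mul_add, add_mul, smul_mul_assoc, mul_smul_comm, mul_one, one_mul, mul_assoc, e', rc e', e, rc e,
        D.comm0 ua, rc (D.comm0 ua), D.comm0 u2, rc (D.comm0 u2), D.comm0 sa, rc (D.comm0 sa), D.comm0 z2,
        rc (D.comm0 z2)]) (by
      rw [smul_mul_assoc, four_aux z3 u3 (cm _ (cs _ sa)) (cm _ (cs _ z2)) (cm _ (cs _ sa)),
        ← smul_mul_assoc]
      convert one_mul (1 + (-1 : F) • D.η a) using 2
      have a1 := sg_sq hs δ
      have a2 := sg_sq z1 ε'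
      simp only [sg_add, sg_one, mul_neg, mul_one, neg_smul]
      generalize sg F δ • D.η s = X at a1
      generalize sg F ε' • D.η z = Y at a2
      exact LinearMap.ext fun x => by
        simp [show ∀ x, X (X x) = -x from LinearMap.congr_fun a1, show ∀ x, Y (Y x) = -x from LinearMap.congr_fun a2]
        have := D.two
        match_scalars <;> field_simp <;> ring)
    rw [smul_mul_assoc, four_aux y3 t3 (cm _ (cs _ t2)) (cm _ (cs _ z2)) (cm _ (cs _ sa)),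
      ← smul_mul_assoc] at w2
    refine ⟨t, t2, fun v va => ES.cj_proj ha (Gp.isUnit (M.smul (inv_ne_zero h4) (M.mul (h.t' y1 t1 _ _)
      (h.t' hs z1 _ _)))) w1 w2 va (ES.Cj.smul (((ES.cj_t y1 _ _).mul (ES.cj_t t1 _ _)).mul
        ((ES.cj_t hs _ _).mul (ES.cj_t z1 _ _))) _)⟩
  intro u ua
  rcases z2 (D.q u) with hu | hu
  · obtain ⟨y, y1, y2, y3, -⟩ := h3 0 a u u
    simp only [map_zero, LinearMap.zero_apply] at y2 y3
    obtain ⟨v, hv⟩ := main y y1 y2
    obtain ⟨v', hv'⟩ := main (y + u) (by simp [hR.qadd, *]) (by simp [*])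
    exact ⟨_, by simpa using hv.add hv'⟩
  · exact main u hu ua

end sing

end Cfsg.Agent.H4.E
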