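import Cfsg.Agent.H2.Dihed3
import Cfsg.Agent.H5.Core

/-! Frobenius complements without a subgroup of index two. -/

set_option autoImplicit false

namespace Cfsg.Agent.H4.FC

open Subgroup Cfsg.Agent.H2.Semireg Cfsg.Agent.H5.Core

variable {Γ : Type*} [Group Γ] [Finite Γ]

theorem eq_top_of_index_pow (hno : ∀ N : Subgroup Γ, N.index ≠ 2) (N : Subgroup Γ) [N.Normal]
    {k : ℕ} (h : N.index ∣ 2 ^ k) : N = ⊤ := by
  obtain ⟨j, -, hj⟩ := (Nat.dvd_prime_pow Nat.prime_two).1 h
  rcases j with _ | j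
  · exact index_eq_one.1 hj
  exfalso
  obtain ⟨K, hK⟩ := Sylow.exists_subgroup_card_pow_prime 2 (G := Γ ⧸ N) (n := j)
    (by rw [← index_eq_card, hj]; exact pow_dvd_pow 2 (Nat.le_succ j))
  apply hno (K.comap (QuotientGroup.mk' N))
  rw [index_comap_of_surjective _ (QuotientGroup.mk'_surjective N)]
  have := K.index_mul_card
  rw [hK, ← index_eq_card, hj, pow_succ'] at this
  exact Nat.eq_of_mul_eq_mul_right (by positivity) this

theorem central_of_cyclic (hno : ∀ N : Subgroup Γ, N.index ≠ 2) (T : Subgroup Γ) [T.Normal]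
    [IsCyclic T] (hT : IsPGroup 2 T) : T ≤ center Γ := by
  obtain ⟨k, hk⟩ := IsPGroup.iff_card.1 hT
  have h1 : (MulAut.conjNormal : Γ →* MulAut T).ker.index ∣ 2 ^ k := by
    rw [index_ker]
    refine (card_subgroup_dvd_card _).trans ?_
    rw [IsCyclic.card_mulAut, hk]
    rcases k with _ | k
    · simp
    · rw [Nat.totient_prime_pow_succ Nat.prime_two]
      simp [pow_succ]
  have h2 := eq_top_of_index_pow hno _ h1
  intro t ht
  rw [mem_center_iff]
  intro g
  have h3 : g ∈ (MulAut.conjNormal : Γ →* MulAut T).ker := by rw [h2]; trivial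
  have h4 : g * t * g⁻¹ = t := by
    have := congrArg Subtype.val (DFunLike.congr_fun (MonoidHom.mem_ker.1 h3) ⟨t, ht⟩)
    simpa using this
  exact mul_inv_eq_iff_eq_mul.1 h4

theorem le_center_of_comm (hO : Opi {2}ᶜ Γ ≤ center Γ) (D : Subgroup Γ) [D.Normal]
    (hR : D ⊓ Opi {2} Γ ≤ center Γ) (hD : ⁅D, D⁆ ≤ center Γ) : D ≤ center Γ := by
  have hnil : Group.IsNilpotent D := by
    refine Subgroup.isNilpotent_of_ker_le_center (Abelianization.of (G := D)) ?_
    intro x hx
    rw [Abelianization.ker_of] at hx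
    have : (x : Γ) ∈ ⁅D, D⁆ := by
      rw [← map_subtype_commutator]
      exact ⟨x, hx, rfl⟩
    exact mem_center_iff.2 fun g => Subtype.ext (mem_center_iff.1 (hD this) g)
  rw [← subgroupOf_eq_top, ← index_eq_one]
  by_contra h
  obtain ⟨p, hp, hpd⟩ := Nat.exists_prime_and_dvd h
  have := Fact.mk hp
  obtain ⟨P⟩ : Nonempty (Sylow p D) := inferInstance
  have hPn : (P : Subgroup D).Normal :=
    P.normal_of_normalizerCondition Group.normalizerCondition_of_isNilpotent
  have := P.characteristic_of_normal hPn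
  have h1 : IsPi {p} ((P : Subgroup D).map D.subtype) := isPi_singleton_iff.2 (P.2.map _)
  have h2 : (P : Subgroup D).map D.subtype ≤ center Γ := by
    by_cases hp2 : p = 2
    · subst hp2
      exact (le_inf (map_subtype_le _) (le_Opi inferInstance h1)).trans hR
    · exact (le_Opi inferInstance (fun q hq hd => by
        rw [h1 q hq hd]; exact hp2)).trans hO
  exact P.not_dvd_index (hpd.trans (index_dvd_of_le fun x hx => h2 ⟨x, hx, rfl⟩))

theorem le_center_of_solvable [Group.IsSolvable Γ] (hO : Opi {2}ᶜ Γ ≤ center Γ) (C : Subgroup Γ)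
    [C.Normal] (hR : C ⊓ Opi {2} Γ ≤ center Γ) : C ≤ center Γ := by
  obtain ⟨n, hn⟩ := Group.IsSolvable.solvable (G := Γ)
  have key : ∀ j k, k + j = n → C ⊓ derivedSeries Γ k ≤ center Γ := by
    intro j
    induction j with
    | zero =>
      rintro k rfl
      rw [add_zero] at hn
      rw [hn, inf_bot_eq]
      exact bot_le
    | succ j ih =>
      intro k hk
      refine le_center_of_comm hO _ ((inf_le_inf_right _ inf_le_left).trans hR)
        (le_trans (le_inf ?_ ?_) (ih (k + 1) (by omega)))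
      · exact (commutator_le_left _ _).trans inf_le_left
      · exact commutator_mono inf_le_right inf_le_right
  simpa using key n 0 (by omega)

theorem le_of_odd_index {X : Type*} [Group X] [Finite X] (T B : Subgroup X) [T.Normal]
    (hT : IsPGroup 2 T) (hB : ¬ 2 ∣ B.index) : T ≤ B := by
  obtain ⟨P⟩ : Nonempty (Sylow 2 B) := inferInstance
  have hnd : ¬ 2 ∣ ((P : Subgroup B).map B.subtype).index := by
    rw [← relIndex_mul_index (map_subtype_le _), Nat.prime_two.dvd_mul]
    rintro (h1 | h1)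
    · rw [relIndex, subgroupOf, comap_map_eq_self_of_injective B.subtype_injective] at h1
      exact P.not_dvd_index h1
    · exact hB h1
  exact (hT.le_sylow_of_normal ((P.2.map B.subtype).toSylow hnd)).trans (map_subtype_le _)

theorem relIndex_centralizer_le (A : Subgroup Γ) (y : Γ) (S : Set Γ)
    (h : ∀ g ∈ A, g * y * g⁻¹ ∈ S) : (centralizer {y}).relIndex A ≤ S.ncard := by
  let : MulAction A Γ := MulAction.compHom Γ ((MulAut.conj : Γ →* MulAut Γ).comp A.subtype)
  have : (centralizer {y}).subgroupOf A = MulAction.stabilizer A y := by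
    ext g
    rw [mem_subgroupOf, mem_centralizer_singleton_iff, MulAction.mem_stabilizer_iff,
      ← mul_inv_eq_iff_eq_mul]
    rfl
  rw [relIndex, this, MulAction.index_stabilizer]
  apply Set.ncard_le_ncard _ (Set.toFinite _)
  rintro _ ⟨g, rfl⟩
  exact h g g.2

variable {R : Type*} [Ring R] [Nontrivial R] {ι : Γ →* R}

theorem isSolvable (hι : IsSR ι) (h3 : ∀ g : Γ, g ^ 3 = 1 → g ∈ center Γ) : Group.IsSolvable Γ := by
  by_contra hns
  obtain ⟨n, h0, h1⟩ := H2.Dihed3.exists_perfect hns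
  have hD : Group.IsPerfect (derivedSeries Γ n) := isPerfect_iff.mpr h1
  have hD' : Nontrivial (derivedSeries Γ n) := (nontrivial_iff_ne_bot _).mpr h0
  have hι' := hι.subgroup (derivedSeries Γ n)
  have : Fact (Nat.Prime 3) := ⟨Nat.prime_three⟩
  obtain ⟨b, hb⟩ := exists_prime_orderOf_dvd_card' (G := derivedSeries Γ n) 3
    (H2.Dihed3.three_dvd_card hι')
  have hb3 : b ^ 3 = 1 := by rw [← hb, pow_orderOf_eq_one]
  have hb1 : b ≠ 1 := fun h => by simp [h] at hb
  refine hb1 (H2.Dihed3.central_eq_one (p := 3) (fun P => ?_) hb3 fun g => ?_)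
  · have := hι'.isCyclic_odd (by norm_num) P.2
    infer_instance
  · exact Subtype.ext (mem_center_iff.1 (h3 b (congrArg Subtype.val hb3)) g)

theorem main (hι : IsSR ι) (hno : ∀ N : Subgroup Γ, N.index ≠ 2) (heven : 2 ∣ Nat.card Γ)
    (hO : Opi {2}ᶜ Γ ≤ center Γ) (h3 : ∀ g : Γ, g ^ 3 = 1 → g ∈ center Γ) :
    center Γ ≠ ⊤ ∧ 9 ∣ Nat.card Γ ∧ ∃ a b, a ≤ 6 ∧ b ≤ 4 ∧ 2 ∣ a ∧ 2 ∣ b ∧ a * b ≠ 0 ∧
      (center Γ).index ∣ a * b := by
  have := isSolvable hι h3
  obtain ⟨T, hT⟩ : ∃ T, T = Opi {2} Γ := ⟨_, rfl⟩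
  have hTn : T.Normal := hT ▸ inferInstance
  have hT2 : IsPGroup 2 T := hT ▸ isPi_singleton_iff.1 isPi_Opi
  rcases hι.cyclic_or_quaternion hT2 with hc | ⟨x, h4, hi, hy⟩
  · exfalso
    have h1 := central_of_cyclic hno T hT2
    have h2 := le_center_of_solvable hO ⊤ (inf_le_right.trans (hT ▸ h1))
    obtain ⟨P⟩ : Nonempty (Sylow 2 Γ) := inferInstance
    have hNC : normalizer (P : Set Γ) ≤ centralizer (P : Set Γ) := fun g _ h _ =>
      mem_center_iff.1 (h2 (mem_top g)) h
    have h5 := MonoidHom.ker_transferSylow_isComplement' P hNC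
    obtain ⟨k, hk⟩ := IsPGroup.iff_card.1 P.2
    have h6 := eq_top_of_index_pow hno _ (k := k) (by rw [h5.symm.index_eq_card, hk])
    apply MonoidHom.not_dvd_card_ker_transferSylow P hNC
    rwa [h6, card_top]
  obtain ⟨y, hyx⟩ : ∃ y, y ∉ zpowers x := by
    by_contra h
    push Not at h
    rw [(eq_top_iff' _).2 h] at hi
    simp at hi
  have hxx : x ≠ x⁻¹ := by
    intro e
    have : orderOf x ∣ 2 := orderOf_dvd_of_pow_eq_one (by rw [sq]; exact eq_inv_iff_mul_eq_one.1 e)
    have := h4.trans this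
    omega
  have hxy : (x : Γ) * y ≠ y * x := by
    intro e
    apply hxx
    rw [← (hy y hyx).1, eq_mul_inv_iff_mul_eq]
    exact Subtype.ext e
  have hzp : ∀ t : T, t ∈ zpowers x ↔ (t : Γ) ∈ zpowers (x : Γ) := fun t =>
    ⟨fun ⟨k, hk⟩ => ⟨k, congrArg Subtype.val hk⟩, fun ⟨k, hk⟩ => ⟨k, Subtype.ext hk⟩⟩
  have hx4 : orderOf x = 4 := by
    by_contra hne
    have : (zpowers (x : Γ)).Normal := by
      refine ⟨?_⟩
      rintro _ ⟨k, rfl⟩ g
      simp only
      rw [← conj_zpow]
      refine zpow_mem ?_ k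
      rw [← hzp ⟨_, hTn.conj_mem _ x.2 g⟩]
      by_contra h
      apply hne
      rw [← (hy _ h).2, ← orderOf_coe, ← orderOf_coe]
      exact ((MulAut.conj g).orderOf_eq (x : Γ)).symm
    exact hxy (mem_center_iff.1 (central_of_cyclic hno (zpowers (x : Γ))
      (hT2.to_le (zpowers_le.2 x.2)) (mem_zpowers _)) y).symm
  have hT8 : Nat.card T = 8 := by
    rw [← (zpowers x).index_mul_card, hi, Nat.card_zpowers, hx4]
  have hC : centralizer (T : Set Γ) ≤ center Γ := by
    apply le_center_of_solvable hO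
    rw [← hT]
    rintro c ⟨h1, h2⟩
    rw [mem_center_iff]
    apply hι.involution_central
    by_cases hc : (⟨c, h2⟩ : T) ∈ zpowers x
    · obtain ⟨k, hk⟩ := hc
      have e : y * (⟨c, h2⟩ : T) * y⁻¹ = (⟨c, h2⟩ : T)⁻¹ := by
        rw [← hk]
        simp only
        rw [← conj_zpow, (hy y hyx).1, inv_zpow]
      have e2 : (y : Γ) * c * (y : Γ)⁻¹ = c⁻¹ := congrArg Subtype.val e
      rw [h1 y y.2, mul_inv_cancel_right] at e2
      rw [sq]
      exact eq_inv_iff_mul_eq_one.1 e2
    · exfalso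
      apply hxx
      rw [← (hy _ hc).1, eq_mul_inv_iff_mul_eq]
      exact Subtype.ext (h1 x x.2)
  have hC2 : centralizer {(y : Γ)} ⊓ centralizer {(x : Γ)} ≤ center Γ := by
    refine le_trans ?_ hC
    rintro c ⟨h1, h2⟩ t ht
    have h1' : Commute c y := mem_centralizer_singleton_iff.1 h1
    have h2' : Commute c x := mem_centralizer_singleton_iff.1 h2
    have h5 : ∀ s : T, s ∈ zpowers x → Commute c s := by
      rintro _ ⟨k, rfl⟩
      exact h2'.zpow_right k
    by_cases hc : (⟨t, ht⟩ : T) ∈ zpowers x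
    · exact (h5 _ hc).symm
    · have := h5 _ ((mul_mem_iff_of_index_two hi).2 (iff_of_false hc
        (fun h => hyx (inv_mem_iff.1 h))))
      have h6 := this.mul_right h1'
      simp only [coe_mul, coe_inv, inv_mul_cancel_right] at h6
      exact h6.symm
  have hidx : (center Γ).index ∣ (centralizer {(x : Γ)}).index *
      (centralizer {(y : Γ)}).relIndex (centralizer {(x : Γ)}) := by
    rw [mul_comm, ← inf_relIndex_right, relIndex_mul_index inf_le_right]
    exact index_dvd_of_le hC2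
  have ha : (centralizer {(x : Γ)}).index ≤ 6 := by
    rw [← relIndex_top_right]
    have hx2 : (x : Γ) * x ≠ 1 := fun e => hxx (eq_inv_iff_mul_eq_one.2 (Subtype.ext e))
    refine (relIndex_centralizer_le ⊤ _ ((T : Set Γ) \ {1, (x : Γ) * x}) ?_).trans ?_
    · intro g _
      refine ⟨hTn.conj_mem _ x.2 g, ?_⟩
      have hx44 : (x : Γ) * x * (x * x) = 1 := by
        have := congrArg Subtype.val (pow_orderOf_eq_one x)
        rw [hx4] at this
        simpa [pow_succ, mul_assoc] using this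
      rintro (h | h)
      · apply hx2
        rw [show (x : Γ) = 1 by simpa using h, one_mul]
      · apply hx2
        rw [Set.mem_singleton_iff] at h
        calc (x : Γ) * x = g⁻¹ * (g * x * g⁻¹ * (g * x * g⁻¹)) * g := by group
          _ = 1 := by rw [h, hx44]; group
    · rw [Set.ncard_sdiff (by
        rintro _ (rfl | rfl)
        · exact T.one_mem
        · exact T.mul_mem x.2 x.2), Set.ncard_pair hx2.symm, ← Nat.card_coe_set_eq]
      exact (by rw [show Nat.card (T : Set Γ) = 8 from hT8] : Nat.card (T : Set Γ) - 2 ≤ 6)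
  have hb : (centralizer {(y : Γ)}).relIndex (centralizer {(x : Γ)}) ≤ 4 := by
    refine (relIndex_centralizer_le _ _ ((T : Set Γ) \ (zpowers (x : Γ) : Set Γ)) ?_).trans ?_
    · intro g hg
      refine ⟨hTn.conj_mem _ y.2 g, ?_⟩
      rintro ⟨k, hk⟩
      apply hyx
      rw [hzp]
      have h2' : Commute g x := mem_centralizer_singleton_iff.1 hg
      refine ⟨k, ?_⟩
      simp only at hk ⊢
      rw [eq_mul_inv_iff_mul_eq, ← (h2'.zpow_right k).eq] at hk
      exact mul_left_cancel hk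
    · rw [Set.ncard_sdiff (zpowers_le.2 x.2), ← Nat.card_coe_set_eq, ← Nat.card_coe_set_eq]
      rw [show Nat.card (T : Set Γ) = 8 from hT8, show Nat.card (zpowers (x : Γ) : Set Γ) = 4 by
        rw [← hx4, ← orderOf_coe]; exact Nat.card_zpowers _]
  have ha2 : 2 ∣ (centralizer {(x : Γ)}).index := by
    by_contra h
    exact hxy (mem_centralizer_singleton_iff.1 (le_of_odd_index T _ hT2 h y.2)).symm
  have hb2 : 2 ∣ (centralizer {(y : Γ)}).relIndex (centralizer {(x : Γ)}) := by
    by_contra h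
    have hxx' : (x : Γ) ∈ centralizer {(x : Γ)} := mem_centralizer_singleton_iff.2 rfl
    have : (zpowers (⟨x, hxx'⟩ : centralizer {(x : Γ)})).Normal := by
      refine ⟨fun y hy g => ?_⟩
      have : Commute g y := by
        obtain ⟨k, rfl⟩ := hy
        exact Commute.zpow_right (Subtype.ext (mem_centralizer_singleton_iff.1 g.2)) k
      rw [this.eq, mul_inv_cancel_right]
      exact hy
    have h7 := le_of_odd_index (zpowers (⟨x, hxx'⟩ : centralizer {(x : Γ)})) _
      (IsPGroup.of_card (n := 2) (by rw [Nat.card_zpowers, ← orderOf_coe, orderOf_coe x, hx4]; rfl)) h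
      (mem_zpowers _)
    exact hxy (mem_centralizer_singleton_iff.1 h7)
  have hne : center Γ ≠ ⊤ := fun h => hxy (mem_center_iff.1 (h ▸ mem_top (y : Γ) : (y : Γ) ∈ center Γ) x)
  refine ⟨hne, ?_, _, _, ha, hb, ha2, hb2,
    mul_ne_zero FiniteIndex.index_ne_zero FiniteIndex.index_ne_zero, hidx⟩
  by_contra h9
  have : Fact (Nat.Prime 3) := ⟨Nat.prime_three⟩
  obtain ⟨P⟩ : Nonempty (Sylow 3 Γ) := inferInstance
  have hP : (P : Subgroup Γ) ≤ center Γ := by
    intro g hg
    apply h3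
    obtain ⟨k, hk⟩ := IsPGroup.iff_card.1 P.2
    have h1 : k ≤ 1 := by
      by_contra h
      exact h9 ((pow_dvd_pow 3 (by omega : 2 ≤ k)).trans (hk ▸ card_subgroup_dvd_card _))
    exact orderOf_dvd_iff_pow_eq_one.1 ((orderOf_dvd_natCard _ hg).trans
      (hk ▸ pow_dvd_pow 3 h1))
  have h1 : ¬ 3 ∣ (center Γ).index := fun h => P.not_dvd_index (h.trans (index_dvd_of_le hP))
  apply hne
  apply eq_top_of_index_pow hno _ (k := 4)
  have ha0 : (centralizer {(x : Γ)}).index ≠ 0 := FiniteIndex.index_ne_zero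
  have hb0 : (centralizer {(y : Γ)}).relIndex (centralizer {(x : Γ)}) ≠ 0 :=
    FiniteIndex.index_ne_zero
  generalize (centralizer {(x : Γ)}).index = a at *
  generalize (centralizer {(y : Γ)}).relIndex (centralizer {(x : Γ)}) = b at *
  have h48 : a * b ∣ 3 * 2 ^ 4 := by
    interval_cases a <;> interval_cases b <;> simp_all
  exact ((Nat.Prime.coprime_iff_not_dvd Nat.prime_three).2 h1).symm.dvd_of_dvd_mul_left
    (hidx.trans h48)

/-- a central subgroup of a regular linear group lies in an abelian subgroup coming from a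
subfield -/
theorem exists_abelian {V : Type*} [AddCommGroup V] [Finite V] (ρ : Γ →* Module.End ℤ V) {v : V}
    (hv : v ≠ 0) (hfree : ∀ g h, ρ g v = ρ h v → g = h) (htr : ∀ w, w ≠ 0 → ∃ g, ρ g v = w) :
    ∃ A : Subgroup Γ, center Γ ≤ A ∧ (∀ g ∈ A, ∀ h ∈ A, g * h = h * g) ∧
      Nat.card A + 1 ∣ Nat.card V := by
  let D := Subring.closure (ρ '' (center Γ : Set Γ))
  have hDc : ∀ d ∈ D, ∀ g, ρ g * d = d * ρ g := by
    intro d hd g
    have : D ≤ Subring.centralizer {ρ g} := by
      rw [Subring.closure_le]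
      rintro _ ⟨c, hc, rfl⟩ _ rfl
      rw [← map_mul, ← map_mul, mem_center_iff.1 hc g]
    exact this hd _ rfl
  have hDD : ∀ d ∈ D, ∀ d' ∈ D, d * d' = d' * d := by
    intro d hd d' hd'
    have : D ≤ Subring.centralizer {d'} := by
      rw [Subring.closure_le]
      rintro _ ⟨c, hc, rfl⟩ _ rfl
      exact (hDc _ hd' c).symm
    exact (this hd _ rfl).symm
  let W : AddSubgroup V := D.toAddSubgroup.map (LinearMap.applyₗ (R := ℤ) v).toAddMonoidHom
  have hW : ∀ w, w ∈ W ↔ ∃ d ∈ D, d v = w := fun w => Iff.rfl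
  have hmul : ∀ g h, ρ g v ∈ W → ρ h v ∈ W → ρ (g * h) v ∈ W ∧ g * h = h * g := by
    intro g h hg hh
    obtain ⟨d, hd, e⟩ := (hW _).1 hg
    obtain ⟨d', hd', e'⟩ := (hW _).1 hh
    have e1 : ρ (g * h) v = (d' * d) v := by
      rw [map_mul, Module.End.mul_apply, ← e', ← Module.End.mul_apply, hDc d' hd',
        Module.End.mul_apply, ← e, Module.End.mul_apply]
    have e2 : ρ (h * g) v = (d * d') v := by
      rw [map_mul, Module.End.mul_apply, ← e, ← Module.End.mul_apply, hDc d hd,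
        Module.End.mul_apply, ← e', Module.End.mul_apply]
    exact ⟨(hW _).2 ⟨_, D.mul_mem hd' hd, e1.symm⟩, hfree _ _ (by rw [e1, e2, hDD d hd d' hd'])⟩
  let A0 : Submonoid Γ :=
    { carrier := {g | ρ g v ∈ W}
      one_mem' := (hW _).2 ⟨1, D.one_mem, by simp⟩
      mul_mem' := fun hg hh => (hmul _ _ hg hh).1 }
  let A : Subgroup Γ := { A0 with
    inv_mem' := fun {g} hg => by
      have := A0.pow_mem hg (orderOf g - 1)
      rwa [show g ^ (orderOf g - 1) = g⁻¹ by
        rw [eq_inv_iff_mul_eq_one, ← pow_succ, Nat.sub_add_cancel (orderOf_pos g),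
          pow_orderOf_eq_one]] at this }
  refine ⟨A, fun c hc => (hW _).2 ⟨_, Subring.subset_closure ⟨c, hc, rfl⟩, rfl⟩,
    fun g hg h hh => (hmul g h hg hh).2, ?_⟩
  have h1 : Nat.card A = ((W : Set V) \ {0}).ncard := by
    rw [← Nat.card_coe_set_eq]
    refine Nat.card_congr (Equiv.ofBijective (fun g => ⟨ρ g v, g.2, fun e => hv ?_⟩) ⟨?_, ?_⟩)
    · have := congrArg (ρ (g : Γ)⁻¹) (Set.mem_singleton_iff.1 e)
      rwa [← Module.End.mul_apply, ← map_mul, inv_mul_cancel, map_one, map_zero] at this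
    · exact fun g h e => Subtype.ext (hfree _ _ (congrArg Subtype.val e))
    · rintro ⟨w, hw, hw0⟩
      obtain ⟨g, rfl⟩ := htr w hw0
      exact ⟨⟨g, hw⟩, rfl⟩
  rw [h1, Set.ncard_sdiff_singleton_add_one W.zero_mem]
  exact AddSubgroup.card_addSubgroup_dvd_card W

theorem arith {a b j r : ℕ} (ha : a ≤ 6) (hb : b ≤ 4) (ha2 : 2 ∣ a) (hb2 : 2 ∣ b) (ha0 : a * b ≠ 0)
    (hj : j ∣ a * b) (hj1 : j ≠ 1) (h9 : 9 ∣ j * r) (hr : r + 1 ∣ j * r + 1) (hr0 : 0 < r) : False := by
  have h1 : r + 1 ∣ j - 1 := by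
    have hj0 : 0 < j := Nat.pos_of_dvd_of_pos hj (Nat.pos_of_ne_zero ha0)
    have := (Nat.dvd_sub (dvd_mul_left (r + 1) j) hr)
    rwa [show j * (r + 1) - (j * r + 1) = j - 1 by rw [mul_add]; omega] at this
  have h48 : a * b ∣ 48 ∧ a * b ≤ 24 := by
    interval_cases a <;> interval_cases b <;> simp_all
  have h2 := hj.trans h48.1
  have h3 := (Nat.le_of_dvd (Nat.pos_of_ne_zero ha0) hj).trans h48.2
  have h4 : r + 1 ≤ j - 1 := Nat.le_of_dvd (by
    have hj0 : 0 < j := Nat.pos_of_dvd_of_pos hj (Nat.pos_of_ne_zero ha0)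
    omega) h1
  have h5 : r ≤ 22 := by omega
  clear hj h48 ha0 hr
  interval_cases j <;> first | omega | (interval_cases r <;> omega)

end Cfsg.Agent.H4.FC
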