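import Cfsg.Agent.H8.Values

/-! Orthonormal frames: sign changes, permutations, monomial maps. -/

set_option autoImplicit false
set_option linter.unusedSectionVars false

namespace Cfsg.Agent.H4.Fr

open QuadraticMap Module Cfsg.Agent.H8 Finset

variable {ι : Type*} [Fintype ι] [DecidableEq ι] {F : Type*} [Field F]

/-- the sum of squares -/
noncomputable def Q0 : QuadraticForm F (ι → F) :=
  LinearMap.BilinMap.toQuadraticMap (dotProductBilin F F)

theorem Q0_apply (x : ι → F) : Q0 x = x ⬝ᵥ x := rfl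

theorem polar_Q0 (x y : ι → F) : polar Q0 x y = 2 * x ⬝ᵥ y := by
  simp only [polar, Q0_apply, add_dotProduct, dotProduct_add, dotProduct_comm y x]; ring

/-- basis vectors -/
def e (i : ι) : ι → F := Pi.single i 1

theorem e_apply (i l : ι) : (e i : ι → F) l = if l = i then 1 else 0 := Pi.single_apply _ _ _

@[simp] theorem e_self (i : ι) : (e i : ι → F) i = 1 := by simp [e]
theorem e_ne {i l : ι} (h : l ≠ i) : (e i : ι → F) l = 0 := by simp [e_apply, h]
@[simp] theorem dot_e (x : ι → F) (i : ι) : x ⬝ᵥ e i = x i := by simp [e]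
@[simp] theorem e_dot (x : ι → F) (i : ι) : e i ⬝ᵥ x = x i := by simp [e]

theorem nd_Q0 (h2 : (2 : F) ≠ 0) : ND (Q0 : QuadraticForm F (ι → F)) := fun v hv =>
  funext fun i => by simpa [polar_Q0, h2] using hv (e i)

theorem ext_e {g h : (ι → F) ≃ₗ[F] (ι → F)} (H : ∀ i, g (e i) = h (e i)) : g = h :=
  LinearEquiv.toLinearMap_injective ((Pi.basisFun F ι).ext fun i => by simpa [e] using H i)

theorem OG_dot (h2 : (2 : F) ≠ 0) {g : (ι → F) ≃ₗ[F] (ι → F)} (hg : g ∈ OG Q0) (x y : ι → F) :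
    g x ⬝ᵥ g y = x ⬝ᵥ y := by
  have := OG_pol hg x y
  rw [polar_Q0, polar_Q0] at this
  exact mul_left_cancel₀ h2 this

theorem inv_e (h2 : (2 : F) ≠ 0) {g : (ι → F) ≃ₗ[F] (ι → F)} (hg : g ∈ OG Q0) (i j : ι) :
    g⁻¹ (e i) j = g (e j) i := by
  rw [← dot_e (g⁻¹ _), ← OG_dot h2 hg, apply_inv_apply, e_dot]

/-- reflections -/
noncomputable abbrev rf (u : ι → F) : (ι → F) ≃ₗ[F] (ι → F) := refl Q0 u

theorem rf_apply (u x : ι → F) : rf u x = x - (2 * x ⬝ᵥ u / u ⬝ᵥ u) • u := by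
  rw [refl_apply, polar_Q0, Q0_apply]

theorem rf_perp {u x : ι → F} (h : x ⬝ᵥ u = 0) : rf u x = x := by simp [rf_apply, h]

/-- restriction of a vector to a set of coordinates -/
def res (S : Finset ι) (x : ι → F) : ι → F := fun l => if l ∈ S then x l else 0

theorem res_mem {S : Finset ι} (x : ι → F) {l : ι} (h : l ∈ S) : res S x l = x l := if_pos h
theorem res_not {S : Finset ι} (x : ι → F) {l : ι} (h : l ∉ S) : res S x l = 0 := if_neg h

theorem res_add_res (S : Finset ι) (x : ι → F) : res S x + res Sᶜ x = x := by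
  funext l; by_cases h : l ∈ S <;> simp [res, h]

theorem res_dot_res (S : Finset ι) (x y : ι → F) : res S x ⬝ᵥ res Sᶜ y = 0 :=
  Finset.sum_eq_zero fun l _ => by by_cases h : l ∈ S <;> simp [res, h]

/-- sign change on a set of coordinates -/
def sg (S : Finset ι) : (ι → F) ≃ₗ[F] (ι → F) :=
  LinearEquiv.ofInvolutive
    { toFun := fun x l => if l ∈ S then -x l else x l
      map_add' := fun x y => by funext l; by_cases h : l ∈ S <;> simp [h, add_comm]
      map_smul' := fun c x => by funext l; by_cases h : l ∈ S <;> simp [h] }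
    fun x => by funext l; by_cases h : l ∈ S <;> simp [h]

theorem sg_apply (S : Finset ι) (x : ι → F) (l : ι) : sg S x l = if l ∈ S then -x l else x l := rfl

theorem sg_eq (S : Finset ι) (x : ι → F) : sg S x = res Sᶜ x - res S x := by
  funext l; by_cases h : l ∈ S <;> simp [res, sg_apply, h]

theorem sg_mul_self (S : Finset ι) : (sg S : (ι → F) ≃ₗ[F] (ι → F)) * sg S = 1 := by
  ext x l; by_cases h : l ∈ S <;> simp [sg_apply, h]

theorem sg_inv (S : Finset ι) : (sg S : (ι → F) ≃ₗ[F] (ι → F))⁻¹ = sg S :=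
  inv_eq_of_mul_eq_one_right (sg_mul_self S)

theorem sg_mem_OG (S : Finset ι) : (sg S : (ι → F) ≃ₗ[F] (ι → F)) ∈ OG Q0 := fun x =>
  Finset.sum_congr rfl fun l _ => by by_cases h : l ∈ S <;> simp [sg_apply, h]

theorem sg_empty : (sg ∅ : (ι → F) ≃ₗ[F] (ι → F)) = 1 := by ext x l; simp [sg_apply]

theorem rf_e (i : ι) : (rf (e i) : (ι → F) ≃ₗ[F] (ι → F)) = sg {i} := by
  ext x l; by_cases h : l = i
  · subst h; simp [rf_apply, sg_apply]; ring
  · simp [rf_apply, sg_apply, h, e_ne]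

theorem sg_insert {S : Finset ι} {i : ι} (h : i ∉ S) :
    (sg (insert i S) : (ι → F) ≃ₗ[F] (ι → F)) = sg {i} * sg S := by
  ext x l; by_cases h' : l = i
  · subst h'; simp [sg_apply, h]
  · simp [sg_apply, h']

theorem sg_comm (S T : Finset ι) : (sg S : (ι → F) ≃ₗ[F] (ι → F)) * sg T = sg T * sg S := by
  ext x l; by_cases h : l ∈ S <;> by_cases h' : l ∈ T <;> simp [sg_apply, h, h']

theorem sg_e (S : Finset ι) (i : ι) : sg S (e i : ι → F) = if i ∈ S then -e i else e i := by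
  funext l; by_cases h : l = i
  · subst h; by_cases h' : l ∈ S <;> simp [sg_apply, h']
  · by_cases h' : i ∈ S <;> simp [sg_apply, h', e_ne h]

/-- permutation of coordinates -/
def pm : Equiv.Perm ι →* ((ι → F) ≃ₗ[F] (ι → F)) where
  toFun σ := LinearEquiv.funCongrLeft F F σ.symm
  map_one' := rfl
  map_mul' _ _ := rfl

theorem pm_apply (σ : Equiv.Perm ι) (x : ι → F) (l : ι) : pm σ x l = x (σ.symm l) := rfl

theorem pm_e (σ : Equiv.Perm ι) (i : ι) : pm σ (e i : ι → F) = e (σ i) := by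
  funext l; simp only [pm_apply, e_apply, Equiv.symm_apply_eq]

theorem pm_mem_OG (σ : Equiv.Perm ι) : (pm σ : (ι → F) ≃ₗ[F] (ι → F)) ∈ OG Q0 := fun x =>
  Equiv.sum_comp σ.symm fun l => x l * x l

theorem pm_swap (h2 : (2 : F) ≠ 0) {i j : ι} (h : i ≠ j) :
    (pm (Equiv.swap i j) : (ι → F) ≃ₗ[F] (ι → F)) = rf (e i - e j) := by
  have : (e i - e j : ι → F) ⬝ᵥ (e i - e j) = 2 := by
    simp [e_ne h, e_ne h.symm]; ring
  ext x l
  rw [rf_apply, this, pm_apply, Equiv.symm_swap, Equiv.swap_apply_def]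
  by_cases h1 : l = i
  · subst h1; simp [e_ne h]; field_simp; ring
  by_cases h3 : l = j
  · subst h3; simp [e_ne h1, h1]; field_simp; ring
  · simp [h1, h3, e_ne]

open Classical in
/-- support -/
noncomputable def supp (x : ι → F) : Finset ι := univ.filter fun l => x l ≠ 0

@[simp] theorem mem_supp {x : ι → F} {l : ι} : l ∈ supp x ↔ x l ≠ 0 := by simp [supp]

theorem card_supp_pm (σ : Equiv.Perm ι) (x : ι → F) : #(supp (pm σ x)) = #(supp x) :=
  Finset.card_equiv σ.symm fun l => by simp [pm_apply]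

theorem dot_eq_sum {x : ι → F} {S : Finset ι} (h : supp x ⊆ S) (y : ι → F) :
    x ⬝ᵥ y = ∑ l ∈ S, x l * y l :=
  (Finset.sum_subset (subset_univ S) fun l _ hl => by
    rw [not_not.1 (mt (fun e => h (mem_supp.2 e)) hl), zero_mul]).symm

theorem supp_res (S : Finset ι) (x : ι → F) : supp (res S x) = supp x ∩ S := by
  ext l; by_cases h : l ∈ S <;> simp [res, h]

/-- monomial maps -/
def Mon : Subgroup ((ι → F) ≃ₗ[F] (ι → F)) where
  carrier := {g | ∃ σ : Equiv.Perm ι, ∀ i, ∃ c : F, g (e i) = c • e (σ i)}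
  mul_mem' := by
    rintro a b ⟨σ, hσ⟩ ⟨τ, hτ⟩
    refine ⟨σ * τ, fun i => ?_⟩
    obtain ⟨c, hc⟩ := hτ i
    obtain ⟨d, hd⟩ := hσ (τ i)
    exact ⟨c * d, by rw [LinearEquiv.mul_apply, hc, map_smul, hd, smul_smul]; rfl⟩
  one_mem' := ⟨1, fun i => ⟨1, by simp⟩⟩
  inv_mem' := by
    rintro a ⟨σ, hσ⟩
    refine ⟨σ⁻¹, fun i => ?_⟩
    obtain ⟨c, hc⟩ := hσ (σ⁻¹ i)
    have h0 : c ≠ 0 := by
      rintro rfl
      simpa using congrFun (a.map_eq_zero_iff.1 (hc.trans (zero_smul _ _))) (σ⁻¹ i)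
    refine ⟨c⁻¹, inv_apply_eq ?_⟩
    rw [map_smul, hc, smul_smul, inv_mul_cancel₀ h0]; simp

theorem map_e_ne (g : (ι → F) ≃ₗ[F] (ι → F)) (i : ι) : ∃ l, g (e i) l ≠ 0 :=
  Function.ne_iff.1 fun h => by simpa using congrFun (g.map_eq_zero_iff.1 h) i

theorem Mon.eq {g : (ι → F) ≃ₗ[F] (ι → F)} (hg : g ∈ Mon) {i a b : ι} (ha : g (e i) a ≠ 0)
    (hb : g (e i) b ≠ 0) : a = b := by
  obtain ⟨σ, hσ⟩ := hg
  obtain ⟨c, hc⟩ := hσ i
  rw [hc] at ha hb
  by_contra h
  by_cases h1 : a = σ i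
  · exact hb (by simp [e_ne (h1 ▸ Ne.symm h)])
  · exact ha (by simp [e_ne h1])

theorem eq_smul_e {x : ι → F} {a : ι} (h : ∀ b, x b ≠ 0 → b = a) : x = x a • e a := by
  funext l; by_cases hl : l = a
  · simp [hl]
  · simp [e_ne hl, not_not.1 (mt (h l) hl)]

theorem mem_Mon {g : (ι → F) ≃ₗ[F] (ι → F)}
    (h : ∀ i a b, g (e i) a ≠ 0 → g (e i) b ≠ 0 → a = b) : g ∈ Mon := by
  choose f hf using map_e_ne g
  have h1 : ∀ i, g (e i) = g (e i) (f i) • e (f i) := fun i => eq_smul_e fun b hb => h i b _ hb (hf i)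
  refine ⟨Equiv.ofBijective f (Finite.injective_iff_bijective.1 fun i j hij => ?_),
    fun i => ⟨_, h1 i⟩⟩
  by_contra hne
  have : g (g (e j) (f j) • e i - g (e i) (f i) • e j) = 0 := by
    rw [map_sub, map_smul, map_smul, h1 i, h1 j, hij]; simp [smul_smul, mul_comm]
  exact hf j (by simpa [e_ne hne] using congrFun (g.map_eq_zero_iff.1 this) i)

theorem sg_mem_Mon (S : Finset ι) : (sg S : (ι → F) ≃ₗ[F] (ι → F)) ∈ Mon :=
  ⟨1, fun i => ⟨if i ∈ S then -1 else 1, by rw [sg_e]; split_ifs <;> simp⟩⟩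

theorem pm_mem_Mon (σ : Equiv.Perm ι) : (pm σ : (ι → F) ≃ₗ[F] (ι → F)) ∈ Mon :=
  ⟨σ, fun i => ⟨1, by rw [pm_e, one_smul]⟩⟩

theorem det_of_line {y : (ι → F) ≃ₗ[F] (ι → F)} {m : ι → F} (hm : m ≠ 0) (h1 : y m = -m)
    (h : ∀ j, ∃ c : F, y (e j) - e j = c • m) : LinearEquiv.det y = -1 := by
  choose c hc using h
  have h2 : (y : (ι → F) →ₗ[F] (ι → F)) = LinearMap.transvection (dotProductBilin F F c) m :=
    (Pi.basisFun F ι).ext fun i => by
      simpa [LinearMap.transvection.apply, e, sub_eq_iff_eq_add'] using hc i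
  have h3 : y m = m + (c ⬝ᵥ m) • m := congrFun (congrArg DFunLike.coe h2) m
  have h4 : (2 + c ⬝ᵥ m) • m = 0 := by rw [h1] at h3; linear_combination (norm := module) -h3
  rw [← Units.val_inj, LinearEquiv.coe_det, h2, LinearMap.transvection.det]
  have := (smul_eq_zero.1 h4).resolve_right hm
  simp only [dotProductBilin_apply_apply, Units.val_neg, Units.val_one]
  linear_combination this

theorem det_Om {V : Type*} [AddCommGroup V] [Module F V] {Q : QuadraticForm F V} {g : V ≃ₗ[F] V}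
    (hg : g ∈ Om Q) : LinearEquiv.det g = 1 := by
  refine (show Om Q ≤ LinearEquiv.det.ker from ?_) hg
  rw [Om, Subgroup.commutator_le]
  intro a _ b _
  simp [commutatorElement_def, mul_comm (LinearEquiv.det a)]

theorem exists_even {i j : ι} (h : i ≠ j) (σ : Equiv.Perm ι) :
    Equiv.Perm.sign σ = 1 ∨ Equiv.Perm.sign (σ * Equiv.swap i j) = 1 := by
  rcases Int.units_eq_one_or (Equiv.Perm.sign σ) with h1 | h1 <;> simp [h1, h]

theorem exists_not_mem {S : Finset ι} (h : #S < Fintype.card ι) : ∃ l, l ∉ S := by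
  by_contra h1
  push Not at h1
  rw [Finset.eq_univ_iff_forall.2 h1] at h
  exact lt_irrefl _ h

end Cfsg.Agent.H4.Fr
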