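import Cfsg.Agent.H4.Fr1

/-! Reflections in overgroups of the monomial group. -/

set_option autoImplicit false
set_option linter.unusedSectionVars false

namespace Cfsg.Agent.H4.Fr

open QuadraticMap Module Cfsg.Agent.H8 Finset

variable {ι : Type*} [Fintype ι] [DecidableEq ι] {F : Type*} [Field F] [Finite F]

instance finiteAut : Finite ((ι → F) ≃ₗ[F] (ι → F)) := DFunLike.finite _

/-- a group of isometries containing all sign changes and even permutations -/
structure AK (K : Subgroup ((ι → F) ≃ₗ[F] (ι → F))) : Prop where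
  two : (2 : F) ≠ 0
  nat : ∀ t : F, ∃ n : ℕ, (n : F) = t
  seven : 7 ≤ Fintype.card ι
  le : K ≤ OG Q0
  sg1 : ∀ i, sg {i} ∈ K
  pm : ∀ σ, Equiv.Perm.sign σ = 1 → pm σ ∈ K

/-- vectors whose reflection lies in `K` -/
def X (K : Subgroup ((ι → F) ≃ₗ[F] (ι → F))) (v : ι → F) : Prop := v ⬝ᵥ v ≠ 0 ∧ rf v ∈ K

variable {K : Subgroup ((ι → F) ≃ₗ[F] (ι → F))}

theorem X.smul {v : ι → F} (h : X K v) {c : F} (hc : c ≠ 0) : X K (c • v) :=
  ⟨by simpa [hc] using h.1, by rw [rf, refl_smul hc]; exact h.2⟩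

theorem X.neg {v : ι → F} (h : X K v) : X K (-v) := by simpa using h.smul (c := -1) (by simp)

namespace AK

variable (h : AK K)
include h

theorem sg (S : Finset ι) : sg S ∈ K := by
  induction S using Finset.induction_on with
  | empty => exact sg_empty (ι := ι) (F := F) ▸ K.one_mem
  | insert i S hi ih => exact sg_insert (F := F) hi ▸ K.mul_mem (h.sg1 i) ih

theorem map {v : ι → F} (hv : X K v) {g : (ι → F) ≃ₗ[F] (ι → F)} (hg : g ∈ K) : X K (g v) :=
  ⟨by rw [OG_dot h.two (h.le hg)]; exact hv.1, by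
    rw [rf, ← refl_conj (h.le hg)]; exact K.mul_mem (K.mul_mem hg hv.2) (K.inv_mem hg)⟩

theorem xe (i : ι) : X K (e i) := ⟨by simp, rf_e (F := F) i ▸ h.sg1 i⟩

theorem of_sq {x y : ι → F} (hx : X K x) (hy : ∀ l, y l * y l = x l * x l) : X K y := by
  classical
  convert h.map hx (h.sg (univ.filter fun l => y l ≠ x l))
  funext l
  rcases mul_self_eq_mul_self_iff.1 (hy l) with e | e
  · simp [sg_apply, e]
  · by_cases h1 : y l = x l
    · simp [sg_apply, h1]
    · simpa [sg_apply, h1] using e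

theorem perm {x : ι → F} (hx : X K x) (h5 : #(supp x) ≤ 5) (σ : Equiv.Perm ι) :
    X K (Fr.pm σ x) := by
  have := h.seven
  obtain ⟨i, hi⟩ := exists_not_mem (S := supp x) (by omega)
  obtain ⟨j, hj⟩ := exists_not_mem (S := insert i (supp x)) (by rw [card_insert_of_notMem hi]; omega)
  simp only [mem_supp, mem_insert, not_or, not_not] at hi hj
  rcases exists_even hj.1 σ with e | e
  · exact h.map hx (h.pm _ e)
  · convert h.map hx (h.pm _ e) using 1
    rw [map_mul, LinearEquiv.mul_apply]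
    congr 1
    funext l
    rw [pm_apply, Equiv.symm_swap, Equiv.swap_apply_def]
    split_ifs with h1 h2 <;> simp [*]

theorem sing {v : ι → F} (hv : X K v) (S : Finset ι) (ha : res S v ⬝ᵥ res S v = 0) (t : F) :
    X K (t • res S v + res Sᶜ v) := by
  have h0 := res_dot_res S v v
  have h1 := res_add_res S v
  have hN : res Sᶜ v ⬝ᵥ res Sᶜ v = v ⬝ᵥ v := by
    conv_rhs => rw [← h1]
    simp [ha, h0, dotProduct_comm (res Sᶜ v) (res S v)]
  have key : ∀ n : ℕ, X K ((1 + 2 * n : F) • res S v + res Sᶜ v) := by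
    intro n
    induction n with
    | zero => simpa [h1] using hv
    | succ n ih =>
      have h2 : Fr.sg S ((1 + 2 * n : F) • res S v + res Sᶜ v) = -(1 + 2 * n : F) • res S v + res Sᶜ v := by
        funext l; by_cases hl : l ∈ S <;> simp [sg_apply, res, hl]; ring
      convert (h.map (h.map ih (h.sg S)) hv.2).neg using 1
      have h3 : (-(1 + 2 * n : F) • res S v + res Sᶜ v) ⬝ᵥ v = v ⬝ᵥ v := by
        conv_lhs => enter [2]; rw [← h1]
        simp only [add_dotProduct, dotProduct_add, smul_dotProduct, ha, h0, hN,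
          dotProduct_comm (res Sᶜ v) (res S v)]; simp
      rw [h2, rf_apply, h3, mul_div_assoc, div_self hv.1]
      conv_rhs => enter [1, 2, 2]; rw [← h1]
      push_cast
      module
  obtain ⟨n, hn⟩ := h.nat ((t - 1) / 2)
  convert key n
  rw [hn]; field_simp [h.two]; ring

theorem sing_e {v : ι → F} (hv : X K v) (S : Finset ι) (ha : res S v ⬝ᵥ res S v = 0) {j : ι}
    (hj : j ∉ S) (hj' : v j ≠ 0) (t : F) : X K (e j + t • res S v) := by
  have h0 := res_dot_res S v v
  have hb : X K (res Sᶜ v) := by simpa using h.sing hv S ha 0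
  set N := res Sᶜ v ⬝ᵥ res Sᶜ v with hN
  have hN0 : N ≠ 0 := hb.1
  have h2 := h.two
  convert h.map (h.map (h.xe j) hb.2) (h.sing hv S ha (t * N / (2 * v j))).2 using 1
  have h3 : res Sᶜ v j = v j := res_mem _ (by simpa using hj)
  have h4 : res S v j = 0 := res_not _ hj
  simp only [rf_apply, add_dotProduct, dotProduct_add, smul_dotProduct, dotProduct_smul, ha, h0,
    sub_dotProduct, dotProduct_comm (res Sᶜ v) (res S v), e_dot, h3, h4, ← hN, smul_eq_mul]
  match_scalars <;> field_simp <;> ring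

theorem dih {v : ι → F} (hv : X K v) (S : Finset ι) (ha : res S v ⬝ᵥ res S v ≠ 0)
    (hb : res Sᶜ v ⬝ᵥ res Sᶜ v ≠ 0) :
    X K (res S v) ∨ X K (res Sᶜ v) ∨ rf (res S v) * rf (res Sᶜ v) ∈ K := by
  have h0 := res_dot_res S v v
  have h1 := res_add_res S v
  have h2 := h.two
  have hsa : Fr.sg S (res S v) = -res S v := by
    funext l; by_cases hl : l ∈ S <;> simp [sg_apply, res, hl]
  have hsb : Fr.sg S (res Sᶜ v) = res Sᶜ v := by
    funext l; by_cases hl : l ∈ S <;> simp [sg_apply, res, hl]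
  generalize res S v = a at *
  generalize res Sᶜ v = b at *
  subst h1
  have h0' : b ⬝ᵥ a = 0 := by rwa [dotProduct_comm]
  have neg : ∀ u : ι → F, u ⬝ᵥ u ≠ 0 → rf u u = -u := fun u hu => by
    rw [rf_apply, mul_div_assoc, div_self hu]; module
  obtain ⟨d, hd⟩ : ∃ d : (ι → F) ≃ₗ[F] (ι → F), d = rf a * Fr.sg S := ⟨_, rfl⟩
  obtain ⟨t, ht⟩ : ∃ t : (ι → F) ≃ₗ[F] (ι → F), t = rf (a + b) * rf a := ⟨_, rfl⟩
  have hdO : d ∈ OG Q0 := hd ▸ (OG Q0).mul_mem (refl_mem_OG a) (sg_mem_OG S)
  have hda : d a = a := by rw [hd, LinearEquiv.mul_apply, hsa, map_neg, neg a ha, neg_neg]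
  have hdb : d b = b := by rw [hd, LinearEquiv.mul_apply, hsb, rf_perp h0']
  have c1 : Commute d (rf a) := mul_inv_eq_iff_eq_mul.1 (by rw [refl_conj hdO, hda])
  have c2 : Commute d (rf (a + b)) := mul_inv_eq_iff_eq_mul.1 (by rw [refl_conj hdO, map_add, hda, hdb])
  have haa : rf a * rf a = 1 := refl_mul_self a
  have hvv : rf (a + b) * rf (a + b) = 1 := refl_mul_self _
  have hsd : Fr.sg S = rf a * d := by rw [hd, ← mul_assoc, haa, one_mul]
  have dd : d * d = 1 := by
    have := sg_mul_self (F := F) S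
    rwa [hsd, mul_assoc, ← mul_assoc d, c1.eq, mul_assoc, ← mul_assoc, haa, one_mul] at this
  have hK : ∀ k : ℕ, t ^ k * d ^ k ∈ K := fun k => by
    rw [ht, ← (c2.mul_right c1).symm.mul_pow, mul_assoc, ← hsd]
    exact K.pow_mem (K.mul_mem hv.2 (h.sg S)) k
  have dp : ∀ k : ℕ, d ^ (2 * k) = 1 := fun k => by rw [pow_mul, pow_two, dd, one_pow]
  rcases Nat.even_or_odd' (orderOf t) with ⟨k, hk | hk⟩
  swap
  · have := hK (orderOf t)
    rw [pow_orderOf_eq_one, one_mul, hk, pow_succ, dp, one_mul] at this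
    refine Or.inl ⟨ha, ?_⟩
    simpa [hd, mul_assoc, sg_mul_self] using K.mul_mem this (h.sg S)
  have hpos := orderOf_pos t
  obtain ⟨s, hs⟩ : ∃ s, s = t ^ k := ⟨_, rfl⟩
  have s1 : s ≠ 1 := hs ▸ pow_ne_one_of_lt_orderOf (by omega) (by omega)
  have ss : s⁻¹ = s := inv_eq_of_mul_eq_one_right (by
    rw [hs, ← pow_add, ← two_mul, ← hk, pow_orderOf_eq_one])
  have key : ∀ u : ι → F, u ⬝ᵥ u ≠ 0 → rf u * t * (rf u)⁻¹ = t⁻¹ → ∃ c : F, s u = c • u := by
    intro u hu e
    have e1 : rf u * s * (rf u)⁻¹ = s := by rw [hs, ← conj_pow, e, inv_pow, ← hs, ss]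
    have e2 : rf u (s u) = s (rf u u) := congrArg (fun g : (ι → F) ≃ₗ[F] (ι → F) => g u)
      (mul_inv_eq_iff_eq_mul.1 e1)
    rw [neg u hu, map_neg, rf_apply] at e2
    refine ⟨s u ⬝ᵥ u / u ⬝ᵥ u, smul_right_injective _ h2 ?_⟩
    linear_combination (norm := skip) e2
    match_scalars <;> ring
  obtain ⟨c, hc⟩ := key a ha (by simp only [ht, mul_inv_rev, refl_inv, mul_assoc, haa, mul_one])
  obtain ⟨c', hc'⟩ := key (a + b) hv.1 (by
    simp only [ht, mul_inv_rev, refl_inv]; rw [← mul_assoc, hvv, one_mul])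
  have hsO : s ∈ OG Q0 := by
    rw [hs, ht]; exact pow_mem (mul_mem (refl_mem_OG _) (refl_mem_OG a)) k
  have hsb' : s b = (c' - c) • a + c' • b := by
    rw [map_add, hc] at hc'; linear_combination (norm := module) hc'
  have e1 := OG_dot h2 hsO a a
  have e2 := OG_dot h2 hsO a b
  simp only [hc, hsb', smul_dotProduct, dotProduct_smul, dotProduct_add, h0, smul_eq_mul] at e1 e2
  have hcc : c * c = 1 := mul_right_cancel₀ ha (by linear_combination e1)
  have hc0 : c' = c := mul_right_cancel₀ ha (by linear_combination c * e2 - (c' - c) * (a ⬝ᵥ a) * hcc)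
  rw [hc0, sub_self, zero_smul, zero_add] at hsb'
  have hfix : ∀ x, x ⬝ᵥ a = 0 → x ⬝ᵥ b = 0 → s x = x := fun x h3 h4 => by
    have : t x = x := by
      rw [ht, LinearEquiv.mul_apply, rf_perp h3, rf_perp (by simp [h3, h4])]
    rw [hs]
    exact (MulAction.stabilizer ((ι → F) ≃ₗ[F] (ι → F)) x).pow_mem this k
  have hall : ∀ x, s x = x + (c - 1) • ((x ⬝ᵥ a / a ⬝ᵥ a) • a + (x ⬝ᵥ b / b ⬝ᵥ b) • b) := fun x => by
    have := hfix (x - ((x ⬝ᵥ a / a ⬝ᵥ a) • a + (x ⬝ᵥ b / b ⬝ᵥ b) • b)) (by simp [h0', ha])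
      (by simp [h0, hb])
    rw [map_sub, map_add, map_smul, map_smul, hc, hsb'] at this
    linear_combination (norm := module) this
  rcases mul_self_eq_one_iff.1 hcc with rfl | rfl
  · exact absurd (LinearEquiv.ext fun x => by simpa using hall x) s1
  have hsab : s = rf a * rf b := LinearEquiv.ext fun x => by
    rw [hall, LinearEquiv.mul_apply, rf_apply, rf_apply]
    simp only [sub_dotProduct, smul_dotProduct, h0', smul_eq_mul]
    match_scalars <;> ring
  have := hK k
  rw [← hs, hsab] at this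
  rcases Nat.even_or_odd' k with ⟨m, rfl | rfl⟩
  · rw [dp, mul_one] at this; exact Or.inr (Or.inr this)
  · rw [pow_succ, dp, one_mul, hd, ← mul_assoc, K.mul_mem_cancel_right (h.sg S)] at this
    refine Or.inr (Or.inl ⟨hb, ?_⟩)
    have e := refl_conj (refl_mem_OG (Q := Q0) a) b
    rw [refl_inv, show refl Q0 a b = b from rf_perp h0'] at e
    rwa [e] at this

theorem exists_big (hK : ¬ K ≤ Mon) : ∃ v, X K v ∧ 3 ≤ #(supp v) := by
  by_contra h1
  have h1 : ∀ v, X K v → #(supp v) ≤ 2 := fun v hv => by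
    by_contra e; exact h1 ⟨v, hv, by omega⟩
  obtain ⟨g, hg, hgM⟩ := SetLike.not_le_iff_exists.1 hK
  have h3 := mt mem_Mon hgM
  push Not at h3
  obtain ⟨i, a, b, ha, hb, hab⟩ := h3
  have hf := h.map (h.xe i) hg
  have h4 : ∀ c, c ≠ a → c ≠ b → g (e i) c = 0 := fun c h5 h6 => by
    by_contra hc
    have := (card_le_card (show {c, a, b} ⊆ supp (g (e i)) by
      simp [insert_subset_iff, ha, hb, hc])).trans (h1 _ hf)
    rw [card_eq_three.2 ⟨c, a, b, h5, h6, hab, rfl⟩] at this
    omega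
  have := h.seven
  obtain ⟨k, hk⟩ := exists_not_mem (S := supp (g⁻¹ (e a)) ∪ supp (g⁻¹ (e b))) (by
    have := card_union_le (supp (g⁻¹ (e a))) (supp (g⁻¹ (e b)))
    have := h1 _ (h.map (h.xe a) (K.inv_mem hg))
    have := h1 _ (h.map (h.xe b) (K.inv_mem hg))
    omega)
  simp only [mem_union, mem_supp, not_or, not_not, inv_e h.two (h.le hg)] at hk
  have hik : i ≠ k := by rintro rfl; exact ha hk.1
  obtain ⟨σ, hσ⟩ := Equiv.Perm.exists_extending_pair ![a, b] ![i, k]
    (injective_pair_iff_ne.2 hab) (injective_pair_iff_ne.2 hik)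
  have h5 : g (e i) = g (e i) a • e a + g (e i) b • e b := by
    funext l
    by_cases h6 : l = a
    · simp [h6, e_ne hab]
    by_cases h7 : l = b
    · simp [h7, e_ne hab.symm]
    · simp [h4 l h6 h7, e_ne h6, e_ne h7]
  have h6 := h.map (h.perm hf ((h1 _ hf).trans (by omega)) σ) hg
  rw [h5, map_add, map_smul, map_smul, pm_e, pm_e, show σ a = i from hσ 0, show σ b = k from hσ 1,
    map_add, map_smul, map_smul] at h6
  obtain ⟨c, hc⟩ := map_e_ne g k
  have hca : c ≠ a := by rintro rfl; exact hc hk.1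
  have hcb : c ≠ b := by rintro rfl; exact hc hk.2
  have := (card_le_card (show {c, a, b} ⊆ supp _ by
    simp [insert_subset_iff, ha, hb, hc, h4 c hca hcb, hk.1, hk.2])).trans (h1 _ h6)
  rw [card_eq_three.2 ⟨c, a, b, hca, hcb, hab, rfl⟩] at this
  omega

end AK

/-- all short reflections are monomial -/
def H3 (K : Subgroup ((ι → F) ≃ₗ[F] (ι → F))) : Prop :=
  ∀ v, X K v → #(supp v) ≤ 3 → #(supp v) ≤ 2 ∧ ∀ a b, v a ≠ 0 → v b ≠ 0 → v a * v a = v b * v b

theorem dot_const {v : ι → F} {c : F} (h : ∀ l, v l ≠ 0 → v l * v l = c) :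
    v ⬝ᵥ v = #(supp v) * c := by
  rw [dot_eq_sum subset_rfl, Finset.sum_congr rfl fun l hl => h l (mem_supp.1 hl)]; simp

namespace AK

variable (h : AK K) (h3 : H3 K) (p3 : (3 : F) ≠ 0)
include h h3

theorem L0 {a b : ι → F} (ha : a ⬝ᵥ a ≠ 0) (hc : #(supp a) = 3) (hb : ∀ l, a l ≠ 0 → b l = 0) :
    rf a * rf b ∉ K := fun hK => by
  have h2 := h.two
  have key : ∀ i, a i ≠ 0 → a i * a i = a ⬝ᵥ a / 2 := fun i hi => by
    have h4 := h.map (h.xe i) hK
    rw [LinearEquiv.mul_apply, rf_perp (u := b) (by simp [hb i hi]), rf_apply, e_dot] at h4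
    by_contra h5
    have h6 : supp (e i - (2 * a i / a ⬝ᵥ a) • a) = supp a := by
      ext l
      by_cases hl : l = i
      · subst hl
        simp only [mem_supp, Pi.sub_apply, e_self, Pi.smul_apply, smul_eq_mul, ne_eq, hi,
          not_false_eq_true, iff_true]
        exact fun e => h5 (by field_simp at e ⊢; linear_combination -e)
      · simp [e_ne hl, h2, hi, ha]
    have := (h3 _ h4 (by rw [h6, hc])).1
    rw [h6] at this; omega
  have := dot_const key
  rw [hc] at this
  field_simp at this; push_cast at this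
  exact one_ne_zero (α := F) (by linear_combination -this)

include p3

theorem L1 {v : ι → F} (hv : X K v) {S : Finset ι} (hS : #(supp (res S v)) ≤ 3) (h0 : res S v ≠ 0) :
    res S v ⬝ᵥ res S v ≠ 0 := fun ha => by
  have h2 := h.two
  obtain ⟨j, hj, hj'⟩ : ∃ j, j ∉ S ∧ v j ≠ 0 := by
    by_contra e
    push Not at e
    refine hv.1 ?_
    rwa [show res S v = v from funext fun l => by by_cases hl : l ∈ S <;> simp [res, hl, e]] at ha
  have hX := h.sing_e hv S ha hj hj'
  have haj : res S v j = 0 := res_not _ hj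
  generalize res S v = a at *
  obtain ⟨l, hl⟩ := Function.ne_iff.1 h0
  have hl : a l ≠ 0 := hl
  have hne : ∀ l, a l ≠ 0 → l ≠ j := by rintro l hl rfl; exact hl haj
  have hc : #(supp a) = 3 := by
    by_contra e
    have key : ∀ t : F, t ≠ 0 → t * a l * (t * a l) = 1 := fun t ht => by
      have := (h3 _ (hX t) ((card_le_card (show _ ⊆ insert j (supp a) from fun m hm => by
        by_cases hmj : m = j
        · simp [hmj]
        · simpa [e_ne hmj, hmj, ht] using hm)).trans ((card_insert_le _ _).trans (by omega)))).2 l j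
        (by simp [e_ne (hne l hl), ht, hl]) (by simp [haj])
      simpa [e_ne (hne l hl), haj] using this
    exact p3 (by linear_combination key 2 h2 - 4 * key 1 one_ne_zero)
  have key : ∀ m, a m ≠ 0 → a m * a m = a l * a l := fun m hm => by
    obtain ⟨k, hk, hk'⟩ := exists_mem_notMem_of_card_lt_card (s := {m, l}) (t := supp a)
      (card_le_two.trans_lt (by omega))
    simp only [mem_supp, mem_insert, mem_singleton, not_or] at hk hk'
    have h4 := h.map (h.map (hX (1 / (4 * a k))) (h.sg1 k)) (hX (1 / a k)).2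
    have h5 : a ⬝ᵥ Fr.sg {k} a = -2 * (a k * a k) := by
      rw [← rf_e, rf_apply]; simp [ha]; ring
    have h6 : rf (e j + (1 / a k) • a) (Fr.sg {k} (e j + (1 / (4 * a k)) • a)) =
        (1 / (4 * a k)) • Fr.sg {k} a - (1 / a k) • a := by
      rw [map_add, map_smul, sg_e, if_neg (by simpa using (hne k hk).symm), rf_apply]
      have : Fr.sg {k} a j = 0 := by simp [sg_apply, haj]
      simp only [add_dotProduct, dotProduct_add, smul_dotProduct, dotProduct_smul, ha, e_dot, dot_e,
        dotProduct_comm (Fr.sg {k} a) a, h5, haj, this, e_self, smul_eq_mul, Pi.add_apply,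
        Pi.smul_apply]
      have h4 : (4 : F) ≠ 0 := by rw [show (4 : F) = 2 * 2 by norm_num]; exact mul_ne_zero h2 h2
      match_scalars <;> field_simp <;> ring
    rw [h6] at h4
    have h7 : ∀ n, n ≠ k → ((1 / (4 * a k)) • Fr.sg {k} a - (1 / a k) • a) n = -3 / (4 * a k) * a n :=
      fun n hn => by
        have h4 : (4 : F) ≠ 0 := by rw [show (4 : F) = 2 * 2 by norm_num]; exact mul_ne_zero h2 h2
        simp [sg_apply, hn]; field_simp; ring
    have h8 : -3 / (4 * a k) ≠ 0 := by
      rw [show (4 : F) = 2 * 2 by norm_num]; simp [p3, h2, hk]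
    have := (h3 _ h4 ((card_le_card (show _ ⊆ supp a from fun n hn => by
      by_contra e
      rw [mem_supp, not_not] at e
      simp [sg_apply, e] at hn)).trans hS)).2 m l (by rw [h7 m (Ne.symm hk'.1)]; exact mul_ne_zero h8 hm)
      (by rw [h7 l (Ne.symm hk'.2)]; exact mul_ne_zero h8 hl)
    rw [h7 m (Ne.symm hk'.1), h7 l (Ne.symm hk'.2)] at this
    exact mul_left_cancel₀ (mul_ne_zero h8 h8) (by linear_combination this)
  rw [dot_const key, hc] at ha
  simp [p3, hl] at ha

theorem L2 {v : ι → F} (hv : X K v) {S : Finset ι} (hS : S ⊆ supp v) (hc : #S = 3) :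
    X K (res Sᶜ v) := by
  have h1 : supp (res S v) = S := by rw [supp_res, inter_eq_right.2 hS]
  have h4 : ¬ X K (res S v) := fun e => by have := (h3 _ e (by rw [h1, hc])).1; rw [h1] at this; omega
  have ha := h.L1 h3 p3 hv (S := S) (by rw [h1, hc]) fun e => by
    rw [e] at h1
    obtain ⟨l, hl⟩ := card_pos.1 (hc ▸ three_pos)
    simp [← h1] at hl
  by_cases hb : res Sᶜ v ⬝ᵥ res Sᶜ v = 0
  · exact absurd (by simpa using h.sing hv Sᶜ hb 0) h4
  refine ((h.dih hv S ha hb).resolve_left h4).resolve_right (h.L0 h3 ha (by rw [h1, hc]) ?_)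
  exact fun l hl => res_not _ (by rw [mem_compl, not_not, ← h1]; exact mem_supp.2 hl)

theorem L5 {v : ι → F} (hv : X K v) : #(supp v) ≠ 5 := fun h5 => by
  have h2 := h.two
  have key : ∀ v, X K v → #(supp v) = 5 → ∀ a b, v a ≠ 0 → v b ≠ 0 → a ≠ b →
      X K (res {a, b} v) ∧ v a * v a = v b * v b := fun v hv h5 a b ha hb hab => by
    have h6 : {a, b} ⊆ supp v := by simp [insert_subset_iff, ha, hb]
    have h7 := h.L2 h3 p3 hv (S := supp v \ {a, b}) sdiff_subset (by
      rw [card_sdiff_of_subset h6, card_pair hab, h5])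
    rw [show res (supp v \ {a, b})ᶜ v = res {a, b} v from funext fun l => by
      by_cases hl : l ∈ ({a, b} : Finset ι) <;> by_cases hl' : v l = 0 <;> simp [res, hl, hl']] at h7
    refine ⟨h7, ?_⟩
    simpa [res] using (h3 _ h7 (by
      rw [supp_res]; exact (card_le_card inter_subset_right).trans (card_le_two.trans (by omega)))).2
      a b (by simpa [res]) (by simpa [res])
  obtain ⟨a, ha, b, hb, c, hc, hab, hac, hbc⟩ := two_lt_card.1 (show 2 < #(supp v) by omega)
  rw [mem_supp] at ha hb hc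
  have h6 : ∀ l, v l ≠ 0 → v l * v l = v a * v a := fun l hl => by
    by_cases e : l = a
    · rw [e]
    · exact (key v hv h5 l a hl ha e).2
  have h7 := dot_const h6
  rw [h5] at h7
  have p5 : (5 : F) ≠ 0 := fun e => hv.1 (by rw [h7]; simp [e])
  have h8 := h.map (key v hv h5 a b ha hb hab).1 hv.2
  have h9 : res {a, b} v ⬝ᵥ v = 2 * (v a * v a) := by
    rw [dot_eq_sum (S := {a, b}) (by rw [supp_res]; exact inter_subset_right), sum_pair hab]
    simp [res, h6 b hb]; ring
  have h10 : ∀ l, rf v (res {a, b} v) l = (if l ∈ ({a, b} : Finset ι) then 1 else -4) / 5 * v l := by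
    intro l
    rw [rf_apply, h9, h7]
    by_cases hl : l ∈ ({a, b} : Finset ι) <;> simp only [res, hl, Pi.sub_apply, Pi.smul_apply,
      smul_eq_mul, if_true, if_false] <;> push_cast <;> field_simp <;> ring
  have h4 : (4 : F) ≠ 0 := by rw [show (4 : F) = 2 * 2 by norm_num]; exact mul_ne_zero h2 h2
  have h11 : supp (rf v (res {a, b} v)) = supp v := by
    ext l; rw [mem_supp, mem_supp, h10]; split_ifs <;> simp [p5, h4]
  have := (key _ h8 (h11 ▸ h5) a c (mem_supp.1 (h11 ▸ mem_supp.2 ha))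
    (mem_supp.1 (h11 ▸ mem_supp.2 hc)) hac).2
  rw [h10, h10, if_pos (by simp), if_neg (by simp [hac.symm, hbc.symm])] at this
  have h12 := h6 c hc
  field_simp at this
  exact mul_ne_zero (mul_ne_zero p3 p5) (mul_ne_zero ha ha) (by linear_combination -this - 16 * h12)

theorem L4 {v : ι → F} (hv : X K v) : #(supp v) ≠ 4 := fun h4 => by
  have h2 := h.two
  have := h.seven
  have hN := hv.1
  obtain ⟨l, hl⟩ := exists_not_mem (S := supp v) (by omega)
  have hl' : v l = 0 := by simpa using hl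
  have key : ∀ d, v d ≠ 0 → v d * v d = v ⬝ᵥ v / 2 := fun d hd => by
    have hdl : d ≠ l := by rintro rfl; exact hd hl'
    have h5 := h.perm hv (by omega) (Equiv.swap d l)
    have h6 : Fr.pm (Equiv.swap d l) v = v - v d • (e d - e l) := by
      rw [pm_swap h2 hdl, rf_apply]
      simp [hl', e_ne hdl, e_ne hdl.symm, one_add_one_eq_two, h2]
    have h7 : res {d}ᶜ v = v - v d • e d := by
      funext m; by_cases hm : m = d <;> simp [res, hm, e_ne]
    have h8 : supp (res {d}ᶜ v) = (supp v).erase d := by ext m; simp [supp_res, and_comm]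
    have h9 := h.L1 h3 p3 hv (S := {d}ᶜ) (by rw [h8, card_erase_of_mem (mem_supp.2 hd), h4]) fun e => by
      have := card_erase_of_mem (mem_supp.2 hd)
      rw [← h8, e, show supp (0 : ι → F) = ∅ by ext; simp, card_empty] at this
      omega
    by_contra h10
    refine h.L5 h3 p3 (h.map hv h5.2) ?_
    rw [← show #(insert l (supp v)) = 5 by rw [card_insert_of_notMem hl, h4]]
    congr 1
    ext m
    rw [mem_supp, rf_apply, OG_dot h2 (pm_mem_OG _), h6]
    rw [h7] at h9
    simp only [sub_dotProduct, dotProduct_sub, smul_dotProduct, dotProduct_smul, e_dot, dot_e, hl',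
      e_self, smul_eq_mul, Pi.sub_apply, Pi.smul_apply, mem_insert, mem_supp] at h9 ⊢
    have h11 : v ⬝ᵥ v - v d * v d ≠ 0 := fun e => h9 (by linear_combination e)
    by_cases hm : m = l
    · simp [hm, hl', e_ne hdl.symm, h2, h11, hd, hN]
    by_cases hm' : m = d
    · simp [hm', e_ne hdl, hd, hdl]
    · simp only [e_ne hm, e_ne hm', hm, false_or, sub_zero, mul_zero]
      rw [← one_sub_mul, mul_ne_zero_iff, and_iff_right]
      exact fun e => h10 (by field_simp at e ⊢; linear_combination e)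
  have := dot_const key
  rw [h4] at this
  field_simp at this; push_cast at this
  exact h2 (by linear_combination -this)

theorem small : ∀ v, X K v → #(supp v) ≤ 2 := by
  intro v
  induction hn : #(supp v) using Nat.strong_induction_on generalizing v with
  | _ n ih =>
    intro hv
    by_contra h1
    have h4 := h.L4 h3 p3 hv
    have h5 := h.L5 h3 p3 hv
    obtain ⟨S, hS, hc⟩ := exists_subset_card_eq (s := supp v) (n := 3) (by omega)
    have h6 : #(supp (res Sᶜ v)) = n - 3 := by
      rw [supp_res, ← sdiff_eq_inter_compl, card_sdiff_of_subset hS, hn, hc]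
    have := ih _ (by omega) _ h6 (h.L2 h3 p3 hv hS hc)
    have := (h3 v hv (by omega)).1
    omega

end AK

end Cfsg.Agent.H4.Fr
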