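import Cfsg.Agent.H4.Fr2
import Cfsg.Agent.H4.BinPSL

/-! Overgroups of the monomial group containing reflections contain `Ω`. -/

set_option autoImplicit false
set_option linter.unusedSectionVars false

namespace Cfsg.Agent.H4.Fr

open QuadraticMap Module Cfsg.Agent.H8 Finset Cfsg.Agent.H4.Mob Cfsg.Agent.H4.MobCard
  Cfsg.Agent.H4.Bar Cfsg.Agent.H4.Pair Cfsg.Agent.H4.Dick Cfsg.Agent.H4.Quat Cfsg.Agent.H4.Max

variable {ι : Type*} [Fintype ι] [DecidableEq ι] {F : Type*} [Field F] [Finite F]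

section quat
variable {a b : F} (hab : a * a + b * b = -1)
include hab

theorem io_det (x y z : F) : (y * a - z * b) * (z * b - y * a) -
    (y * b + z * a - x) * (y * b + z * a + x) = x * x + y * y + z * z := by
  linear_combination (-y * y - z * z) * hab

open Classical in
/-- the involution given by a pure quaternion -/
noncomputable def io (x y z : F) : PG F :=
  if h : x * x + y * y + z * z ≠ 0 then
    mob (y * a - z * b) (y * b + z * a - x) (y * b + z * a + x) (z * b - y * a) (io_det hab x y z ▸ h)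
  else 1

theorem io_eq {x y z : F} (h : x * x + y * y + z * z ≠ 0) : io hab x y z =
    mob (y * a - z * b) (y * b + z * a - x) (y * b + z * a + x) (z * b - y * a)
      (io_det hab x y z ▸ h) := dif_pos h

theorem io_conj {x y z x' y' z' c : F} (h : x * x + y * y + z * z ≠ 0)
    (h' : x' * x' + y' * y' + z' * z' ≠ 0)
    (hc : c * (x * x + y * y + z * z) = 2 * (x' * x + y' * y + z' * z)) :
    io hab (x' - c * x) (y' - c * y) (z' - c * z) =
      io hab x y z * io hab x' y' z' * (io hab x y z)⁻¹ := by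
  rw [eq_mul_inv_iff_mul_eq, io_eq hab h, io_eq hab h', io_eq hab (by
    convert h' using 1; linear_combination c * hc), mob_mul, mob_mul, mob_eq_mob]
  refine ⟨-1, ?_, ?_, ?_, ?_⟩ <;> grind

theorem io_inj (h2 : (2 : F) ≠ 0) {x y z x' y' z' : F} (h : x * x + y * y + z * z ≠ 0)
    (h' : x' * x' + y' * y' + z' * z' ≠ 0) (e : io hab x y z = io hab x' y' z') :
    ∃ c, x' = c * x ∧ y' = c * y ∧ z' = c * z := by
  rw [io_eq hab h, io_eq hab h', mob_eq_mob] at e
  obtain ⟨c, h1, h3, h4, -⟩ := e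
  refine ⟨c, mul_left_cancel₀ h2 ?_, mul_left_cancel₀ h2 ?_, mul_left_cancel₀ h2 ?_⟩ <;> grind

theorem io_invol (h2 : (2 : F) ≠ 0) {x y z : F} (h : x * x + y * y + z * z ≠ 0) :
    io hab x y z ≠ 1 ∧ io hab x y z * io hab x y z = 1 := by
  rw [io_eq hab h, mob_mul, Ne, mob_eq_one, mob_eq_one]
  refine ⟨fun ⟨h1, h3, h4⟩ => h ?_, by ring, by ring, by ring⟩
  have : y * a - z * b = 0 := mul_left_cancel₀ h2 (by linear_combination h4)
  rw [← io_det hab, h1, this]; ring

theorem io_i : io hab 1 0 0 = qi := by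
  rw [io_eq hab (by simp), qi]; exact mob_congr (by ring) (by ring) (by ring) (by ring)

theorem io_j : io hab 0 1 0 = qj hab := by
  rw [io_eq hab (by simp), qj]; exact mob_congr (by ring) (by ring) (by ring) (by ring)

theorem io_k : io hab 0 0 1 = qi * qj hab := by
  rw [io_eq hab (by simp), qj, qi, mob_mul]; exact mob_congr (by ring) (by ring) (by ring) (by ring)

theorem io_w (h2 : (2 : F) ≠ 0) : io hab 0 1 (-1) * io hab 1 (-1) 0 = qw h2 hab := by
  rw [io_eq hab (by simpa [one_add_one_eq_two]), io_eq hab (by simpa [one_add_one_eq_two]), qw,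
    mob_mul, mob_eq_mob]
  refine ⟨-1, ?_, ?_, ?_, ?_⟩ <;> grind

theorem io_t (h2 : (2 : F) ≠ 0) : io hab 0 1 (-1) * io hab 0 0 1 = qt h2 := by
  rw [io_eq hab (by simpa [one_add_one_eq_two]), io_eq hab (by simp), qt, mob_mul, mob_eq_mob]
  refine ⟨1, ?_, ?_, ?_, ?_⟩ <;> grind

theorem io_trans (h2 : (2 : F) ≠ 0) {x y z x' y' z' : F} (h : x * x + y * y + z * z ≠ 0)
    (h' : x * x + y * y + z * z = x' * x' + y' * y' + z' * z') :
    ∃ g ∈ LS F, g * io hab x y z * g⁻¹ = io hab x' y' z' := by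
  obtain ⟨h1, h3⟩ := io_invol hab h2 h
  obtain ⟨p, q, hpq, hT⟩ := exists_pair_of_invol h2 h1 h3
  suffices ∃ g, g * io hab x y z * g⁻¹ = io hab x' y' z' by
    obtain ⟨g, hg⟩ := this
    exact hg ▸ BinPSL.exists_LS_conj ⟨hpq, _, h1, hT⟩ hT g
  by_cases h4 : (x - x') * (x - x') + (y - y') * (y - y') + (z - z') * (z - z') = 0
  · refine ⟨io hab (x + x') (y + y') (z + z'), ?_⟩
    rw [← io_conj hab (c := 1) (fun e => mul_ne_zero (mul_ne_zero h2 h2) h (by
      linear_combination e + h4 + 2 * h')) h (by linear_combination -h'),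
      io_eq hab (fun e => h (by linear_combination e + h')), io_eq hab (h' ▸ h), mob_eq_mob]
    exact ⟨-1, by ring, by ring, by ring, by ring⟩
  · refine ⟨io hab (x - x') (y - y') (z - z'), ?_⟩
    rw [← io_conj hab (c := 1) h4 h (by linear_combination -h')]
    congr 1 <;> ring

theorem io_N0 (h2 : (2 : F) ≠ 0) {x y z : F} (h : x * x + y * y + z * z ≠ 0)
    (hN : io hab x y z ∈ N0 h2 hab) : x * y * z = 0 ∧ (x ≠ 0 → y ≠ 0 → x * x = y * y) ∧
      (x ≠ 0 → z ≠ 0 → x * x = z * z) ∧ (y ≠ 0 → z ≠ 0 → y * y = z * z) := by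
  have key : ∀ x' y' z' : F, x' * x' + y' * y' + z' * z' = 1 → io hab x' y' z' ∈ (k4 h2 hab).V →
      ∃ c, c * (x * x + y * y + z * z) = 2 * (x' * x + y' * y + z' * z) ∧
      ((y' = c * y ∧ z' = c * z) ∨ (x' = c * x ∧ z' = c * z) ∨ (x' = c * x ∧ y' = c * y)) := by
    intro x' y' z' h' hV
    have hc := div_mul_cancel₀ (2 * (x' * x + y' * y + z' * z)) h
    refine ⟨_, hc, ?_⟩
    have h1 := (k4 h2 hab).conj_mem hN hV
    rw [← io_conj hab h (h' ▸ one_ne_zero) hc, K4.mem_V, ← io_k, ← io_i hab, ← io_j] at h1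
    generalize 2 * (x' * x + y' * y + z' * z) / (x * x + y * y + z * z) = c at *
    have h3 : (x' - c * x) * (x' - c * x) + (y' - c * y) * (y' - c * y) +
        (z' - c * z) * (z' - c * z) ≠ 0 := fun e => one_ne_zero (α := F) (by
      linear_combination e - h' - c * hc)
    rcases h1 with e | e | e | e
    · exact absurd e (io_invol hab h2 h3).1
    all_goals
      obtain ⟨d, e1, e2, e3⟩ := io_inj hab h2 (by simp) h3 e.symm
      simp only [mul_zero, sub_eq_zero] at e1 e2 e3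
      tauto
  obtain ⟨c, hc, h1⟩ := key 1 0 0 (by simp) (by rw [io_i]; exact (k4 h2 hab).u_mem)
  obtain ⟨d, hd, h3⟩ := key 0 1 0 (by simp) (by rw [io_j]; exact (k4 h2 hab).v_mem)
  grind

end quat

theorem LS_le_of_N0 (h2 : (2 : F) ≠ 0) {a b : F} (hab : a * a + b * b = -1)
    (hn : ∀ t : F, ∃ n : ℕ, (n : F) = t) {M : Subgroup (PG F)} (hM : N0 h2 hab ≤ M)
    (hM' : ¬ M ≤ N0 h2 hab) : LS F ≤ M := by
  have hc := Subgroup.card_dvd_of_le hM
  rw [card_N0] at hc
  rcases dickson M with ⟨x, h⟩ | ⟨x, y, hxy, h⟩ | ⟨-, -, h | h⟩ | ⟨-, -, -, h⟩ | ⟨g, E, -, h, -⟩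
  · exact absurd h (not_le_stab h2 hab (hM (qi_N0 h2 hab)) (hM (qj_N0 h2 hab)) x)
  · exact absurd h (not_le_Nor h2 hab (hM (qi_N0 h2 hab)) (hM (qw_N0 h2 hab)) hxy.ne)
  · rw [card_of_A4 h] at hc; omega
  · exact absurd (Subgroup.eq_of_le_of_card_ge hM (by rw [card_of_S4 h, card_N0])).ge hM'
  · rw [card_of_A5 h] at hc; omega
  · rwa [show E = ⊤ from eq_top_iff.2 fun t _ => by
      obtain ⟨n, rfl⟩ := hn t; exact natCast_mem E n, PSsub_top, le_cj_iff, cj_normal] at h

theorem inj3 {i j k : ι} (hij : i ≠ j) (hik : i ≠ k) (hjk : j ≠ k) : Function.Injective ![i, j, k] := by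
  intro a b; fin_cases a <;> fin_cases b <;> simp [hij, hik, hjk, hij.symm, hik.symm, hjk.symm]

variable {K : Subgroup ((ι → F) ≃ₗ[F] (ι → F))}

namespace AK
variable (h : AK K)
include h

theorem three {i j k : ι} (hij : i ≠ j) (hik : i ≠ k) (hjk : j ≠ k) {v : ι → F} (hv : X K v)
    (hs : supp v ⊆ {i, j, k}) (hn : ¬ (v i * v j * v k = 0 ∧ (v i ≠ 0 → v j ≠ 0 → v i * v i = v j * v j) ∧
      (v i ≠ 0 → v k ≠ 0 → v i * v i = v k * v k) ∧ (v j ≠ 0 → v k ≠ 0 → v j * v j = v k * v k)))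
    {w : ι → F} {x y z : F} (hw : w i * w i + w j * w j + w k * w k ≠ 0)
    (hw' : w i * w i + w j * w j + w k * w k = x * x + y * y + z * z) :
    ∃ g ∈ K, #(supp (g w) \ {i, j, k}) = #(supp w \ {i, j, k}) ∧ g w i = x ∧ g w j = y ∧ g w k = z := by
  have h2 := h.two
  obtain ⟨a, b, hab, -⟩ := exists_ab (F := F)
  let R : PG F → ((ι → F) ≃ₗ[F] (ι → F)) → Prop := fun m g => ∀ w,
    #(supp (g w) \ {i, j, k}) = #(supp w \ {i, j, k}) ∧
    g w i * g w i + g w j * g w j + g w k * g w k = w i * w i + w j * w j + w k * w k ∧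
    (w i * w i + w j * w j + w k * w k ≠ 0 →
      io hab (g w i) (g w j) (g w k) = m * io hab (w i) (w j) (w k) * m⁻¹)
  have Rmul : ∀ m g m' g', R m g → R m' g' → R (m * m') (g * g') := fun m g m' g' h1 h3 w =>
    ⟨(h1 _).1.trans (h3 w).1, (h1 _).2.1.trans (h3 w).2.1, fun hw => by
      rw [LinearEquiv.mul_apply, (h1 _).2.2 ((h3 w).2.1 ▸ hw), (h3 w).2.2 hw]; group⟩
  let M : Subgroup (PG F) :=
    { carrier := {m | ∃ g ∈ K, R m g}
      mul_mem' := fun ⟨g, hg, h1⟩ ⟨g', hg', h3⟩ => ⟨_, K.mul_mem hg hg', Rmul _ _ _ _ h1 h3⟩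
      one_mem' := ⟨1, K.one_mem, fun w => ⟨rfl, rfl, fun _ => by simp⟩⟩
      inv_mem' := fun ⟨g, hg, h1⟩ => ⟨_, K.inv_mem hg, fun w => by
        have := h1 (g⁻¹ w)
        rw [apply_inv_apply] at this
        exact ⟨this.1.symm, this.2.1.symm, fun hw => by rw [this.2.2 (this.2.1 ▸ hw)]; group⟩⟩ }
  have hdot : ∀ u : ι → F, supp u ⊆ {i, j, k} → ∀ w : ι → F, w ⬝ᵥ u = w i * u i + w j * u j + w k * u k :=
    fun u hu w => by
      rw [dotProduct_comm, dot_eq_sum hu, sum_insert (by simp [hij, hik]), sum_pair hjk]; ring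
  have Rrf : ∀ u : ι → F, supp u ⊆ {i, j, k} → u ⬝ᵥ u ≠ 0 → R (io hab (u i) (u j) (u k)) (rf u) := by
    intro u hu hu0 w
    have hc := div_mul_cancel₀ (2 * w ⬝ᵥ u) hu0
    rw [rf_apply]
    generalize 2 * w ⬝ᵥ u / u ⬝ᵥ u = c at hc
    rw [hdot u hu, hdot u hu] at hc
    refine ⟨congrArg card (Finset.ext fun l => ?_), by simp; linear_combination c * hc,
      fun hw => io_conj hab (hdot u hu u ▸ hu0) hw hc⟩
    simp only [mem_sdiff]
    exact and_congr_left fun hl => by simp [not_not.1 (mt (fun e => hu (mem_supp.2 e)) hl)]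
  have hX : ∀ u, X K u → supp u ⊆ {i, j, k} → io hab (u i) (u j) (u k) ∈ M :=
    fun u hu hs => ⟨_, hu.2, Rrf u hs hu.1⟩
  have hE : ∀ l, l ∈ ({i, j, k} : Finset ι) → io hab (e l i) (e l j) (e l k) ∈ M := fun l hl =>
    hX _ (h.xe l) fun m hm => by
      by_contra e
      exact mem_supp.1 hm (e_ne (by rintro rfl; exact e hl))
  have hS : ∀ l l', l ≠ l' → l ∈ ({i, j, k} : Finset ι) → l' ∈ ({i, j, k} : Finset ι) →
      io hab ((e l - e l' : ι → F) i) ((e l - e l' : ι → F) j) ((e l - e l' : ι → F) k) ∈ M := by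
    intro l l' hll hl hl'
    have := h.seven
    have h3 : #({i, j, k} : Finset ι) ≤ 3 := card_le_three
    obtain ⟨m, hm⟩ := exists_not_mem (S := {i, j, k}) (by omega)
    obtain ⟨m', hm'⟩ := exists_not_mem (S := insert m {i, j, k}) (by
      rw [card_insert_of_notMem hm]; omega)
    rw [mem_insert, not_or] at hm'
    have hf : ∀ n ∈ ({i, j, k} : Finset ι), Equiv.swap m m' n = n := fun n hn =>
      Equiv.swap_apply_of_ne_of_ne (by rintro rfl; exact hm hn) (by rintro rfl; exact hm'.2 hn)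
    refine ⟨_, h.pm (Equiv.swap l l' * Equiv.swap m m') (by simp [hll, Ne.symm hm'.1]), ?_⟩
    rw [map_mul, pm_swap h2 hll, ← mul_one (io _ _ _ _)]
    refine Rmul _ _ _ _ (Rrf _ (fun n hn => ?_) (by simpa [e_ne hll, e_ne hll.symm, one_add_one_eq_two]))
      fun w => ⟨card_equiv (Equiv.swap m m') fun n => ?_, ?_⟩
    · by_contra e
      exact mem_supp.1 hn (by
        simp [e_ne (show n ≠ l by rintro rfl; exact e hl), e_ne (show n ≠ l' by rintro rfl; exact e hl')])
    · simp only [mem_sdiff, mem_supp, pm_apply, Equiv.symm_swap]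
      refine and_congr_right fun _ => not_congr ⟨fun e => by rwa [hf n e], fun e => ?_⟩
      rwa [← Equiv.swap_apply_self m m' n, hf _ e]
    · simp [pm_apply, hf]
  have e1 := hE i (by simp)
  have e2 := hE j (by simp)
  have e3 := hE k (by simp)
  have e4 := hS i j hij (by simp) (by simp)
  have e5 := hS j k hjk (by simp) (by simp)
  simp only [Pi.sub_apply, e_self, e_ne hij, e_ne hik, e_ne hjk, e_ne hij.symm, e_ne hik.symm,
    e_ne hjk.symm, sub_zero, zero_sub, sub_self] at e1 e2 e3 e4 e5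
  have hL := LS_le_of_N0 h2 hab h.nat (N0_le h2 hab (io_i hab ▸ e1) (io_j hab ▸ e2)
    (io_w hab h2 ▸ M.mul_mem e5 e4) (io_t hab h2 ▸ M.mul_mem e5 e3))
    fun e => hn (io_N0 hab h2 (hdot v hs v ▸ hv.1) (e (hX v hv hs)))
  obtain ⟨m, hm, e⟩ := io_trans hab h2 hw hw'
  obtain ⟨g, hg, hR⟩ := hL hm
  obtain ⟨r1, r2, r3⟩ := hR w
  obtain ⟨c, c1, c2, c3⟩ := io_inj hab h2 (hw' ▸ hw) (r2 ▸ hw) (e.symm.trans (r3 hw).symm)
  have hc : c * c = 1 := mul_right_cancel₀ (hw' ▸ hw) (by
    rw [c1, c2, c3] at r2; linear_combination r2 + hw')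
  rcases mul_self_eq_one_iff.1 hc with rfl | rfl
  · exact ⟨g, hg, r1, by simp [*]⟩
  · refine ⟨Fr.sg univ * g, K.mul_mem (h.sg _) hg, ?_, by simp [sg_apply, *]⟩
    rw [← r1]; congr 2; ext l; simp [sg_apply]

theorem sq_three (p3 : (3 : F) = 0) (t : F) (ht : t ≠ 0) : t * t = 1 := by
  obtain ⟨n, rfl⟩ := h.nat t
  rw [← Nat.div_add_mod n 3] at ht ⊢
  have : n % 3 = 0 ∨ n % 3 = 1 ∨ n % 3 = 2 := by omega
  rcases this with e | e | e <;> rw [e] at ht ⊢ <;> push_cast at ht ⊢ <;> grind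

theorem all_of_not_H3 (h3 : ¬ H3 K) (u : ι → F) (hu : u ⬝ᵥ u = 1) : X K u := by
  have h7 := h.seven
  have h2 := h.two
  obtain ⟨v, hv, hc, hn⟩ : ∃ v, X K v ∧ #(supp v) ≤ 3 ∧ ¬ (#(supp v) ≤ 2 ∧
      ∀ a b, v a ≠ 0 → v b ≠ 0 → v a * v a = v b * v b) := by
    by_contra e; push Not at e; exact h3 fun v h1 h4 => e v h1 h4
  obtain ⟨T, hT, hT'⟩ := exists_superset_card_eq hc (by omega)
  obtain ⟨i, j, k, hij, hik, hjk, rfl⟩ := card_eq_three.1 hT'
  have hn' : ¬ (v i * v j * v k = 0 ∧ (v i ≠ 0 → v j ≠ 0 → v i * v i = v j * v j) ∧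
      (v i ≠ 0 → v k ≠ 0 → v i * v i = v k * v k) ∧ (v j ≠ 0 → v k ≠ 0 → v j * v j = v k * v k)) := by
    rintro ⟨h4, h5, h6, h8⟩
    refine hn ⟨?_, fun a b ha hb => ?_⟩
    · by_contra e
      have h9 := eq_of_subset_of_card_le hT (by omega)
      exact mul_ne_zero (mul_ne_zero (mem_supp.1 (h9 ▸ by simp)) (mem_supp.1 (h9 ▸ by simp)))
        (mem_supp.1 (h9 ▸ by simp)) h4
    · have h9 := hT (mem_supp.2 ha)
      have h10 := hT (mem_supp.2 hb)
      simp only [mem_insert, mem_singleton] at h9 h10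
      rcases h9 with rfl | rfl | rfl <;> rcases h10 with rfl | rfl | rfl <;> simp [*]
  have p3 : (3 : F) ≠ 0 := fun p3 => by
    have key := h.sq_three p3
    refine hn' ⟨?_, fun a b => by rw [key _ a, key _ b], fun a b => by rw [key _ a, key _ b],
      fun a b => by rw [key _ a, key _ b]⟩
    by_contra e
    simp only [mul_eq_zero, not_or] at e
    refine hv.1 ?_
    rw [dot_eq_sum hT, sum_insert (by simp [hij, hik]), sum_pair hjk, key _ e.1.1, key _ e.1.2, key _ e.2]
    linear_combination p3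
  have key : ∀ {i' j' k' : ι}, i' ≠ j' → i' ≠ k' → j' ≠ k' → ∀ {w : ι → F} {x y z : F},
      w i' * w i' + w j' * w j' + w k' * w k' ≠ 0 →
      w i' * w i' + w j' * w j' + w k' * w k' = x * x + y * y + z * z →
      ∃ g ∈ K, #(supp (g w) \ {i', j', k'}) = #(supp w \ {i', j', k'}) ∧
        g w i' = x ∧ g w j' = y ∧ g w k' = z := by
    intro i' j' k' h4 h5 h6
    obtain ⟨σ, hσ⟩ := Equiv.Perm.exists_extending_pair ![i, j, k] ![i', j', k']
      (inj3 hij hik hjk) (inj3 h4 h5 h6)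
    obtain rfl : σ i = i' := hσ 0
    obtain rfl : σ j = j' := hσ 1
    obtain rfl : σ k = k' := hσ 2
    refine h.three h4 h5 h6 (h.perm hv (by omega) σ) (fun l hl => ?_) (by simpa [pm_apply] using hn')
    simpa [Equiv.symm_apply_eq] using hT (show σ.symm l ∈ supp v by simpa [pm_apply] using hl)
  induction hn : #(supp u) using Nat.strong_induction_on generalizing u with
  | _ n ih =>
    by_cases h4 : n ≤ 3
    · obtain ⟨T, hT, hT'⟩ := exists_superset_card_eq (hn ▸ h4) (by omega)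
      obtain ⟨i, j, k, hij, hik, hjk, rfl⟩ := card_eq_three.1 hT'
      rw [dot_eq_sum hT, sum_insert (by simp [hij, hik]), sum_pair hjk] at hu
      obtain ⟨g, hg, r1, r2, r3, r4⟩ := key hij hik hjk (w := u) (x := 1) (y := 0) (z := 0)
        (by rw [add_assoc, hu]; simp) (by rw [add_assoc, hu]; simp)
      rw [sdiff_eq_empty_iff_subset.2 hT, card_empty, card_eq_zero, sdiff_eq_empty_iff_subset] at r1
      have : g u = e i := funext fun l => by
        by_cases hl : l ∈ ({i, j, k} : Finset ι)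
        · simp only [mem_insert, mem_singleton] at hl
          rcases hl with rfl | rfl | rfl <;> simp [*, e_ne, Ne.symm]
        · rw [not_not.1 (mt (fun e => r1 (mem_supp.2 e)) hl), e_ne (by rintro rfl; simp at hl)]
      simpa [← this, inv_apply_apply] using h.map (h.xe i) (K.inv_mem hg)
    obtain ⟨i, j, k, hi, hj, hk, hij, hik, hjk, h5⟩ : ∃ i j k, u i ≠ 0 ∧ u j ≠ 0 ∧ u k ≠ 0 ∧ i ≠ j ∧
        i ≠ k ∧ j ≠ k ∧ u i * u i + u j * u j + u k * u k ≠ 0 := by
      obtain ⟨a, ha, b, hb, c, hc, d, hd, h5, h6, h8, h9, h10, h11⟩ :=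
        three_lt_card.1 (show 3 < #(supp u) by omega)
      rw [mem_supp] at ha hb hc hd
      by_contra e
      push Not at e
      have e1 := e a b c ha hb hc h5 h6 h9
      have e2 := e a b d ha hb hd h5 h8 h10
      have e3 := e a c d ha hc hd h6 h8 h11
      have e4 := e b c d hb hc hd h9 h10 h11
      exact mul_ne_zero p3 (mul_ne_zero ha ha) (by linear_combination e1 + e2 + e3 - 2 * e4)
    obtain ⟨x, y, hxy⟩ : ∃ x y : F, x ^ 2 + y ^ 2 = u i * u i + u j * u j + u k * u k := by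
      obtain ⟨m, hm⟩ := h.nat (u i * u i + u j * u j + u k * u k)
      obtain ⟨p, hp⟩ := CharP.exists F
      have : NeZero p := ⟨CharP.char_ne_zero_of_finite F p⟩
      obtain ⟨a, b, h⟩ := CharP.sq_add_sq F p m
      exact ⟨a, b, by simpa [hm] using h⟩
    obtain ⟨g, hg, r1, r2, r3, r4⟩ := key hij hik hjk (x := x) (y := y) (z := 0) h5
      (by linear_combination -hxy)
    have h6 : #(supp (g u)) < n := by
      have e1 := card_sdiff_add_card_inter (supp (g u)) {i, j, k}
      have e2 := card_sdiff_add_card_inter (supp u) {i, j, k}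
      have e3 : #(supp (g u) ∩ {i, j, k}) ≤ 2 := (card_le_card (show supp (g u) ∩ {i, j, k} ⊆ {i, j} from fun l hl => by
        simp only [mem_inter, mem_supp, mem_insert, mem_singleton] at hl ⊢
        rcases hl with ⟨h8, rfl | rfl | rfl⟩ <;> simp_all)).trans card_le_two
      rw [inter_eq_right.2 (by simp [insert_subset_iff, *]),
        card_eq_three.2 ⟨i, j, k, hij, hik, hjk, rfl⟩] at e2
      omega
    simpa [inv_apply_apply] using h.map (ih _ h6 (g u) (by rw [OG_dot h2 (h.le hg), hu]) rfl)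
      (K.inv_mem hg)

theorem all_of_H3 (hK : ¬ K ≤ Mon) (h3 : H3 K) (u : ι → F) (hu : u ⬝ᵥ u = 1) : X K u := by
  obtain ⟨v, hv, hc⟩ := h.exists_big hK
  have p3 : (3 : F) = 0 := by
    by_contra p3
    have := h.small h3 p3 v hv
    omega
  have h2 := h.two
  have hd : ∀ w : ι → F, w ⬝ᵥ w = #(supp w) := fun w => by
    rw [dot_const fun l hl => h.sq_three p3 _ hl, mul_one]
  obtain ⟨S, hS, hS'⟩ := exists_subset_card_eq hc
  obtain ⟨j, hj, hj'⟩ := exists_mem_notMem_of_card_lt_card (s := S) (t := supp v) (by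
    have := mt (h3 v hv) (by omega)
    omega)
  have h1 : supp (res S v) = S := by rw [supp_res, inter_eq_right.2 hS]
  have h4 := h.sing_e hv S (by rw [hd, h1, hS']; exact_mod_cast p3) hj' (mem_supp.1 hj) 1
  have h5 : supp (e j + (1 : F) • res S v) = insert j S := by
    ext l
    by_cases hl : l = j
    · simp [hl, res_not v hj']
    · simpa [e_ne hl, hl] using mem_supp.symm.trans (Finset.ext_iff.1 h1 l)
  have all4 : ∀ w : ι → F, #(supp w) = 4 → X K w := fun w hw => by
    obtain ⟨σ, hσ⟩ := Equiv.Perm.exists_map_finset_eq (insert j S) (supp w) (by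
      rw [card_insert_of_notMem hj', hS', hw])
    refine h.of_sq (h.perm h4 (by rw [h5, card_insert_of_notMem hj']; omega) σ) fun l => ?_
    have : w l ≠ 0 ↔ Fr.pm σ (e j + (1 : F) • res S v) l ≠ 0 := by
      rw [pm_apply, ← mem_supp, ← mem_supp, h5, ← hσ, mem_map_equiv]
    by_cases hl : w l = 0
    · rw [hl, not_not.1 (mt this.2 (not_not.2 hl))]
    · rw [h.sq_three p3 _ hl, h.sq_three p3 _ (this.1 hl)]
  induction hn : #(supp u) using Nat.strong_induction_on generalizing u with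
  | _ n ih =>
    by_cases h6 : n ≤ 3
    · rw [hd, hn] at hu
      have : n = 1 := by
        interval_cases n
        · simp at hu
        · rfl
        · exact absurd (show (1 : F) = 0 by push_cast at hu; linear_combination hu) one_ne_zero
        · exact absurd (show (1 : F) = 0 by push_cast at hu; linear_combination p3 - hu) one_ne_zero
      obtain ⟨a, ha⟩ := card_eq_one.1 (hn.trans this)
      rw [eq_smul_e (x := u) (a := a) fun b hb => mem_singleton.1 (ha ▸ mem_supp.2 hb)]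
      exact (h.xe a).smul (mem_supp.1 (ha ▸ mem_singleton_self a))
    obtain ⟨T, hT, hT'⟩ := exists_subset_card_eq (s := supp u) (n := 4) (by omega)
    obtain ⟨d, hdT⟩ := card_pos.1 (show 0 < #T by omega)
    obtain ⟨d', hd', hdd⟩ := exists_mem_notMem_of_card_lt_card (s := {d}) (t := T) (by simp [hT'])
    have h7 : supp (res T u) = T := by rw [supp_res, inter_eq_right.2 hT]
    have h8 : supp (Fr.sg {d} (res T u)) = T := by
      rw [← h7]; ext l; simp only [mem_supp, sg_apply]; split_ifs <;> simp [h7]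
    have h9 := all4 _ (h8 ▸ hT')
    have h10 : rf (Fr.sg {d} (res T u)) u = u - Fr.sg {d} (res T u) := by
      have e1 : u ⬝ᵥ res T u = res T u ⬝ᵥ res T u := by
        conv_lhs => enter [1]; rw [← res_add_res T u]
        rw [add_dotProduct, dotProduct_comm (res Tᶜ u), res_dot_res, add_zero]
      rw [rf_apply, hd, h8, ← rf_e, rf_apply, dotProduct_sub, e1, hd, h7, hT']
      simp only [dot_e, e_self, dotProduct_smul, res_mem u hdT, smul_eq_mul, div_one, mul_assoc,
        h.sq_three p3 _ (mem_supp.1 (hT hdT))]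
      rw [show ((4 : ℕ) : F) = 1 by push_cast; linear_combination p3,
        show (2 : F) * (1 - 2 * 1) / 1 = 1 by linear_combination -p3, one_smul]
    have h11 : #(supp (rf (Fr.sg {d} (res T u)) u)) < n := by
      refine hn ▸ card_lt_card ⟨fun l hl => ?_, fun e => ?_⟩
      · by_contra e
        rw [mem_supp, not_not] at e
        simp [h10, sg_apply, res, e] at hl
      · simpa [h10, sg_apply, res, hd', hdd] using e (hT hd')
    simpa [← LinearEquiv.mul_apply, refl_mul_self] using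
      h.map (ih _ h11 _ (by rw [OG_dot h2 (refl_mem_OG _), hu]) rfl) h9.2

theorem Om_le (hK : ¬ K ≤ Mon) : Om Q0 ≤ K := by
  have hX : ∀ u : ι → F, u ⬝ᵥ u = 1 → X K u := fun u hu =>
    (em (H3 K)).elim (fun h3 => h.all_of_H3 hK h3 u hu) fun h3 => h.all_of_not_H3 h3 u hu
  have h7 := h.seven
  obtain ⟨i, j, hij⟩ := Fintype.exists_pair_of_one_lt_card (α := ι) (by omega)
  refine (Om_le_of_normalized (nd_Q0 h.two) (by simpa using h7)
    (N := Subgroup.closure {g | ∃ u : ι → F, u ⬝ᵥ u = 1 ∧ g = rf u}) ?_ (fun g hg x hx => ?_)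
    (Subgroup.subset_closure ⟨e i, by simp, rfl⟩) ?_).trans ?_
  · rw [Subgroup.closure_le]; rintro _ ⟨u, -, rfl⟩; exact refl_mem_OG u
  · refine (show _ ≤ (Subgroup.closure _).comap (MulAut.conj g).toMonoidHom from ?_) hx
    rw [Subgroup.closure_le]; rintro _ ⟨u, hu, rfl⟩
    exact Subgroup.subset_closure ⟨g u, by rw [OG_dot h.two (Om_le_OG hg), hu], refl_conj (Om_le_OG hg) u⟩
  · rintro ⟨c, hc⟩
    have e1 := congrFun (hc (e i)) i
    have e2 := congrFun (hc (e j)) j
    simp [rf_e, sg_apply, hij.symm] at e1 e2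
    exact h.two (by linear_combination e2 - e1)
  · rw [Subgroup.closure_le]; rintro _ ⟨u, hu, rfl⟩; exact (hX u hu).2

end AK

end Cfsg.Agent.H4.Fr
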