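import Cfsg.Agent.H4.Fr3

/-! Overgroups of the monomial subgroup of `Ω`. -/

set_option autoImplicit false
set_option linter.unusedSectionVars false

namespace Cfsg.Agent.H4.Fr

open QuadraticMap Module Cfsg.Agent.H8 Finset

variable {ι : Type*} [Fintype ι] [DecidableEq ι] {F : Type*} [Field F] [Finite F]

/-- a subgroup of `Ω` containing all even sign changes and even permutations -/
structure BK (K : Subgroup ((ι → F) ≃ₗ[F] (ι → F))) : Prop where
  two : (2 : F) ≠ 0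
  nat : ∀ t : F, ∃ n : ℕ, (n : F) = t
  seven : 7 ≤ Fintype.card ι
  le : K ≤ Om Q0
  sg2 : ∀ i j, sg {i} * sg {j} ∈ K
  pm : ∀ σ, Equiv.Perm.sign σ = 1 → pm σ ∈ K

variable {K : Subgroup ((ι → F) ≃ₗ[F] (ι → F))}

theorem refl_e (i : ι) : refl (Q0 : QuadraticForm F (ι → F)) (e i) = sg {i} := rf_e i

theorem Mon.diff {y : (ι → F) ≃ₗ[F] (ι → F)} (hy : y ∈ Mon) (l : ι) :
    #(supp (e l - y (e l))) ≤ 2 ∧ (e l - y (e l) ≠ 0 → (e l - y (e l) : ι → F) l ≠ 0) := by
  obtain ⟨σ, hσ⟩ := hy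
  obtain ⟨c, hc⟩ := hσ l
  rw [hc]
  refine ⟨(card_le_card (t := {l, σ l}) fun m hm => ?_).trans card_le_two, fun h e1 => h ?_⟩
  · by_contra e1
    simp only [mem_insert, mem_singleton, not_or] at e1
    simp [e_ne e1.1, e_ne e1.2] at hm
  · by_cases h1 : l = σ l
    · rw [← h1] at e1 ⊢
      simp only [Pi.sub_apply, e_self, Pi.smul_apply, smul_eq_mul, mul_one, sub_eq_zero] at e1
      simp [← e1]
    · simp [e_ne h1] at e1

theorem rf_rf_e {u v : ι → F} (huv : u ⬝ᵥ v = 0) (l : ι) : e l - (rf u * rf v) (e l) =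
    (2 * u l / u ⬝ᵥ u) • u + (2 * v l / v ⬝ᵥ v) • v := by
  rw [LinearEquiv.mul_apply, rf_apply, rf_apply]
  simp only [sub_dotProduct, smul_dotProduct, dotProduct_comm v u, huv, e_dot, smul_zero, sub_zero]
  module

theorem supp_le_four (h2 : (2 : F) ≠ 0) {u v : ι → F} (hu : u ⬝ᵥ u ≠ 0) (huv : u ⬝ᵥ v = 0)
    (h : rf u * rf v ∈ Mon) : #(supp u) ≤ 4 := by
  have h1 := Mon.diff h
  simp only [rf_rf_e huv] at h1
  have h0 : ∀ l, u l ≠ 0 → 2 * u l / u ⬝ᵥ u ≠ 0 := fun l hl => by simp [h2, hl, hu]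
  generalize hα : (fun l => 2 * u l / u ⬝ᵥ u) = α at *
  generalize hβ : (fun l => 2 * v l / v ⬝ᵥ v) = β at *
  replace hα : ∀ l, 2 * u l / u ⬝ᵥ u = α l := congrFun hα
  replace hβ : ∀ l, 2 * v l / v ⬝ᵥ v = β l := congrFun hβ
  simp only [hα, hβ] at h0 h1
  obtain ⟨l, hl⟩ : ∃ l, u l ≠ 0 := Function.ne_iff.1 fun e => hu (by simp [e])
  by_cases h3 : ∀ l', u l' ≠ 0 → α l * β l' = α l' * β l
  · refine (card_le_card fun l' hl' => ?_).trans ((h1 l).1.trans (by omega))
    rw [mem_supp] at hl' ⊢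
    have h4 := (h1 l').2 fun e => by
      simpa [huv, h0 l' hl', hu] using congrArg (u ⬝ᵥ ·) e
    simp only [Pi.add_apply, Pi.smul_apply, smul_eq_mul] at h4 ⊢
    exact fun e => mul_ne_zero (h0 l hl) h4 (by linear_combination α l' * e + v l' * h3 l' hl')
  · push Not at h3
    obtain ⟨l', -, h3⟩ := h3
    refine (card_le_card (show _ ⊆ supp (α l • u + β l • v) ∪ supp (α l' • u + β l' • v) from
      fun m hm => ?_)).trans ((card_union_le _ _).trans (add_le_add (h1 l).1 (h1 l').1))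
    by_contra e
    simp only [mem_union, mem_supp, not_or, not_not, Pi.add_apply, Pi.smul_apply, smul_eq_mul] at e hm
    exact mul_ne_zero (sub_ne_zero.2 h3) hm (by linear_combination β l' * e.1 - β l * e.2)

theorem supp_of_comm (h2 : (2 : F) ≠ 0) {g : (ι → F) ≃ₗ[F] (ι → F)} {T : Finset ι}
    (h : g * sg T = sg T * g) {i l : ι} (hl : g (e i) l ≠ 0) : i ∈ T ↔ l ∈ T := by
  have := congrFun (congrArg (fun x : (ι → F) ≃ₗ[F] (ι → F) => x (e i)) h) l
  simp only [LinearEquiv.mul_apply, sg_e, sg_apply] at this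
  by_contra e1
  split_ifs at this with h3 h4 h4
  · exact e1 (by simp [*])
  · exact mul_ne_zero h2 hl (by simp at this; linear_combination -this)
  · exact mul_ne_zero h2 hl (by linear_combination this)
  · exact e1 (by simp [*])

namespace BK

variable (h : BK K)
include h

theorem sg (S : Finset ι) (hS : Even #S) : sg S ∈ K := by
  obtain ⟨n, hn⟩ := hS
  induction n generalizing S with
  | zero => rw [card_eq_zero.1 hn, sg_empty]; exact K.one_mem
  | succ n ih =>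
    obtain ⟨i, S, hi, rfl, h1⟩ := card_eq_succ.1 (show #S = (n + n + 1) + 1 by omega)
    obtain ⟨j, S, hj, rfl, h3⟩ := card_eq_succ.1 h1
    rw [sg_insert hi, sg_insert hj, ← mul_assoc]
    exact K.mul_mem (h.sg2 i j) (ih S h3)

theorem Om_le {g : (ι → F) ≃ₗ[F] (ι → F)} (hg : g ∈ K) (hM : g ∉ Mon) {i : ι}
    (hi : Fr.sg {i} * g * Fr.sg {i} ∈ K) : Om Q0 ≤ K := by
  have rr := sg_mul_self (F := F) ({i} : Finset ι)
  have rr' : ∀ x : (ι → F) ≃ₗ[F] (ι → F), Fr.sg {i} * (Fr.sg {i} * x) = x := fun x => by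
    rw [← mul_assoc, rr, one_mul]
  let K0 : Subgroup _ := K ⊓ K.comap (MulAut.conj (Fr.sg {i})).toMonoidHom
  have m0 : ∀ x, x ∈ K0 ↔ x ∈ K ∧ Fr.sg {i} * x * Fr.sg {i} ∈ K := fun x => by
    simp [K0, sg_inv]
  have hc : ∀ x ∈ K0, Fr.sg {i} * x * Fr.sg {i} ∈ K0 := fun x hx => by
    rw [m0] at hx ⊢; simpa [mul_assoc, rr, rr'] using hx.symm
  let K1 : Subgroup ((ι → F) ≃ₗ[F] (ι → F)) :=
    { carrier := {x | x ∈ K0 ∨ x * Fr.sg {i} ∈ K0}
      mul_mem' := by
        rintro a b (ha | ha) (hb | hb)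
        · exact Or.inl (K0.mul_mem ha hb)
        · exact Or.inr (by rw [mul_assoc]; exact K0.mul_mem ha hb)
        · exact Or.inr (by simpa [mul_assoc, rr'] using K0.mul_mem ha (hc _ hb))
        · exact Or.inl (by simpa [mul_assoc, rr', rr] using K0.mul_mem ha (hc _ hb))
      one_mem' := Or.inl K0.one_mem
      inv_mem' := by
        rintro a (ha | ha)
        · exact Or.inl (K0.inv_mem ha)
        · exact Or.inr (by simpa [mul_assoc, rr', sg_inv] using hc _ (K0.inv_mem ha)) }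
  have hA : AK K1 := by
    refine ⟨h.two, h.nat, h.seven, ?_, fun j => Or.inr ((m0 _).2 ⟨h.sg2 j i, ?_⟩),
      fun σ hσ => Or.inl ((m0 _).2 ⟨h.pm σ hσ, ?_⟩)⟩
    · rintro a (ha | ha)
      · exact Om_le_OG (h.le ha.1)
      · exact (mul_mem_cancel_right (sg_mem_OG _)).1 (Om_le_OG (h.le ha.1))
    · simpa [mul_assoc, rr] using h.sg2 i j
    · have := refl_conj (pm_mem_OG (F := F) σ) (e i)
      rw [mul_inv_eq_iff_eq_mul, pm_e, refl_e, refl_e] at this
      rw [mul_assoc, this, ← mul_assoc]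
      exact K.mul_mem (h.sg2 _ _) (h.pm σ hσ)
  intro x hx
  rcases hA.Om_le (fun e => hM (e (Or.inl ((m0 g).2 ⟨hg, hi⟩)))) hx with e1 | e1
  · exact e1.1
  · have := det_Om (h.le e1.1)
    rw [map_mul, det_Om hx, one_mul, det_of_line (m := e i) (fun e => by simpa using congrFun e i)
      (by simp [sg_e]) fun j => ⟨if j = i then -2 else 0, by
        rw [sg_e]; split_ifs with h1 h3 h3 <;> simp_all; module⟩] at this
    exact absurd (by simpa using congrArg Units.val this : (-1 : F) = 1) fun e =>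
      h.two (by linear_combination -e)

variable (h0 : ∀ g ∈ K, ∀ i, Fr.sg {i} * g * Fr.sg {i} ∈ K → g ∈ Mon)
include h0

theorem of_fix {g : (ι → F) ≃ₗ[F] (ι → F)} (hg : g ∈ K) {i j : ι} {c : F} (hc : g (e i) = c • e j) :
    g ∈ Mon := by
  have := h.seven
  obtain ⟨σ, hσ, hj⟩ : ∃ σ : Equiv.Perm ι, Equiv.Perm.sign σ = 1 ∧ σ j = i := by
    obtain ⟨k, hk⟩ := exists_not_mem (S := {j}) (by simp; omega)
    obtain ⟨l, hl⟩ := exists_not_mem (S := {k, j}) (card_le_two.trans_lt (by omega))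
    simp only [mem_insert, mem_singleton, not_or] at hk hl
    rcases exists_even hl.1 (Equiv.swap j i) with e1 | e1
    · exact ⟨_, e1, by simp⟩
    · exact ⟨_, e1, by simp [Equiv.swap_apply_of_ne_of_ne (Ne.symm hl.2) (Ne.symm hk)]⟩
  have h1 := K.mul_mem (h.pm σ hσ) hg
  refine (mul_mem_cancel_left (pm_mem_Mon σ)).1 (h0 _ h1 i ?_)
  have h3 := refl_conj (Om_le_OG (h.le h1)) (e i)
  have h4 : c ≠ 0 := by
    rintro rfl
    obtain ⟨l, hl⟩ := map_e_ne g i
    simp [hc] at hl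
  rw [mul_inv_eq_iff_eq_mul, LinearEquiv.mul_apply, hc, map_smul, pm_e, hj, refl_smul h4,
    refl_e] at h3
  rwa [mul_assoc, h3, ← mul_assoc, sg_mul_self, one_mul]

theorem norm {T : Finset ι} (h5 : 5 ≤ #T) (hR : ∀ u v : ι → F, supp u ⊆ T → supp v ⊆ T →
    u ⬝ᵥ u ≠ 0 → v ⬝ᵥ v ≠ 0 → u ⬝ᵥ v = 0 → rf u * rf v ∈ K → rf u * rf v ∈ Mon)
    {g : (ι → F) ≃ₗ[F] (ι → F)} (hg : g ∈ K) (hT : ∀ i l, g (e i) l ≠ 0 → (i ∈ T ↔ l ∈ T)) :
    g ∈ Mon := by
  have h2 := h.two
  let P : ((ι → F) ≃ₗ[F] (ι → F)) → Prop := fun g => g ∈ K ∧ ∀ i l, g (e i) l ≠ 0 → (i ∈ T ↔ l ∈ T)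
  have hO : ∀ g, P g → g ∈ OG Q0 := fun g hg => Om_le_OG (h.le hg.1)
  have Pinv : ∀ g, P g → P g⁻¹ := fun g hg => ⟨K.inv_mem hg.1, fun i l hl =>
    (hg.2 l i (inv_e h2 (hO g hg) i l ▸ hl)).symm⟩
  have key : ∀ g, P g → ∀ u v : ι → F, supp u ⊆ T → supp v ⊆ T → u ⬝ᵥ u ≠ 0 → v ⬝ᵥ v ≠ 0 →
      u ⬝ᵥ v = 0 → rf u * rf v ∈ K → rf (g u) * rf (g v) ∈ Mon := by
    intro g hg u v h1 h3 h4 h6 h7 h8
    have hs : ∀ u : ι → F, supp u ⊆ T → supp (g u) ⊆ T := fun u hu l hl => by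
      by_contra e1
      refine mem_supp.1 hl ?_
      rw [← dot_e (g u), ← apply_inv_apply g (e l), OG_dot h2 (hO g hg), dot_eq_sum hu]
      exact sum_eq_zero fun m hm => by
        rw [not_not.1 (mt (fun e => e1 (((Pinv g hg).2 l m e).2 hm)) not_false), mul_zero]
    refine hR _ _ (hs u h1) (hs v h3) (by rwa [OG_dot h2 (hO g hg)]) (by rwa [OG_dot h2 (hO g hg)])
      (by rwa [OG_dot h2 (hO g hg)]) ?_
    rw [rf, rf, ← refl_conj (hO g hg), ← refl_conj (hO g hg)]
    simpa [mul_assoc] using K.mul_mem (K.mul_mem hg.1 h8) (K.inv_mem hg.1)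
  have he : ∀ i ∈ T, supp (e i : ι → F) ⊆ T := fun i hi l hl => by
    by_contra e1
    exact mem_supp.1 hl (e_ne (by rintro rfl; exact e1 hi))
  have key1 : ∀ g, P g → ∀ i ∈ T, ∀ j ∈ T, j ≠ i → rf (g (e i)) * rf (g (e j)) ∈ Mon :=
    fun g hg i hi j hj hij => key g hg _ _ (he i hi) (he j hj) (by simp) (by simp)
      (by simp [e_ne hij]) (by rw [rf_e, rf_e]; exact h.sg2 i j)
  have s4 : ∀ g, P g → ∀ i ∈ T, #(supp (g (e i))) ≤ 4 := fun g hg i hi => by
    obtain ⟨j, hj, hij⟩ := exists_mem_notMem_of_card_lt_card (s := {i}) (t := T) (by simp; omega)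
    rw [mem_singleton] at hij
    exact supp_le_four h2 (by simp [OG_dot h2 (hO g hg)]) (by simp [OG_dot h2 (hO g hg), e_ne hij])
      (key1 g hg i hi j hj hij)
  have s2 : ∀ g, P g → ∀ i ∈ T, #(supp (g (e i))) ≤ 2 := fun g hg i hi => by
    obtain ⟨a, ha⟩ := map_e_ne g i
    obtain ⟨j, hj, hj'⟩ := exists_mem_notMem_of_card_lt_card (t := T)
      ((s4 _ (Pinv g hg) a ((hg.2 i a ha).1 hi)).trans_lt (by omega))
    rw [mem_supp, not_not, inv_e h2 (hO g hg)] at hj'
    have h1 := key1 g hg i hi j hj (by rintro rfl; exact ha hj')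
    have h3 : ∀ b ∈ (supp (g (e i))).erase a, (rf (g (e i)) * rf (g (e j))) (e a) b ≠ 0 := by
      intro b hb
      rw [mem_erase, mem_supp] at hb
      rw [LinearEquiv.mul_apply, rf_perp (u := g (e j)) (by simpa using hj'), rf_apply]
      simp [e_ne hb.1, hb.2, h2, ha, OG_dot h2 (hO g hg)]
    have := card_le_one.2 fun b hb c hc => Mon.eq h1 (h3 b hb) (h3 c hc)
    rw [card_erase_of_mem (mem_supp.2 ha)] at this
    omega
  have hP : P g := ⟨hg, hT⟩
  obtain ⟨i, hi⟩ := card_pos.1 (show 0 < #T by omega)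
  obtain ⟨a, ha⟩ := map_e_ne g i
  refine h.of_fix h0 hg (i := i) (eq_smul_e (a := a) fun b hb => ?_)
  by_contra hab
  have h1 := s2 _ (Pinv g hP) a ((hT i a ha).1 hi)
  have h3 := s2 _ (Pinv g hP) b ((hT i b hb).1 hi)
  obtain ⟨k, hk, hk'⟩ := exists_mem_notMem_of_card_lt_card (t := T)
    ((card_union_le _ _).trans_lt (show #(supp (g⁻¹ (e a))) + #(supp (g⁻¹ (e b))) < _ by omega))
  obtain ⟨l, hl, hl'⟩ := exists_mem_notMem_of_card_lt_card (t := T)
    ((card_insert_le k _).trans_lt (show #(supp (g⁻¹ (e a))) + 1 < _ by omega))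
  obtain ⟨m, hm, hm'⟩ := exists_mem_notMem_of_card_lt_card (t := T) ((card_insert_le l _).trans_lt
    ((Nat.succ_le_succ (card_insert_le k _)).trans_lt (show #(supp (g⁻¹ (e a))) + 1 + 1 < _ by omega)))
  simp only [mem_union, mem_insert, mem_supp, not_or, not_not, inv_e h2 (hO g hP)] at hk' hl' hm'
  have hki : k ≠ i := by rintro rfl; exact ha hk'.1
  have hli : l ≠ i := by rintro rfl; exact ha hl'.2
  have hmi : m ≠ i := by rintro rfl; exact ha hm'.2.2
  have hs : ∀ p ∈ T, ∀ q ∈ T, supp (e p - e q : ι → F) ⊆ T := fun p hp q hq n hn => by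
    by_contra e1
    simp [e_ne (show n ≠ p by rintro rfl; exact e1 hp), e_ne (show n ≠ q by rintro rfl; exact e1 hq)] at hn
  have h11 : (e i - e k : ι → F) ⬝ᵥ (e i - e k) = 2 := by
    simp [e_ne hki, e_ne hki.symm, one_add_one_eq_two]
  have h4 := key g hP _ _ (hs i hi k hk) (hs l hl m hm) (by rwa [h11])
    (by simpa [e_ne hm'.1, e_ne (Ne.symm hm'.1), one_add_one_eq_two])
    (by simp [e_ne hli, e_ne hmi, e_ne hl'.1, e_ne hm'.2.1]) (by
      rw [← pm_swap h2 hki.symm, ← pm_swap h2 (Ne.symm hm'.1), ← map_mul]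
      exact h.pm _ (by simp [hki.symm, Ne.symm hm'.1]))
  have h6 : (rf (g (e i - e k)) * rf (g (e l - e m))) (e a) = e a - g (e i) a • (g (e i) - g (e k)) := by
    rw [LinearEquiv.mul_apply, rf_perp (u := g (e l - e m)) (by simp [hl'.2, hm'.2.2]), rf_apply,
      OG_dot h2 (hO g hP), h11]
    simp [hk'.1, h2]
  obtain ⟨c, hc⟩ := map_e_ne g k
  have hca : c ≠ a := by rintro rfl; exact hc hk'.1
  have hcb : c ≠ b := by rintro rfl; exact hc hk'.2
  have h7 : g (e i) c = 0 := by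
    by_contra e1
    have := (card_le_card (show {c, a, b} ⊆ supp (g (e i)) by
      simp [insert_subset_iff, ha, hb, e1])).trans (s2 g hP i hi)
    rw [card_eq_three.2 ⟨c, a, b, hca, hcb, Ne.symm hab, rfl⟩] at this
    omega
  exact hcb (Mon.eq h4 (i := a) (by rw [h6]; simp [e_ne hca, h7, ha, hc])
    (by rw [h6]; simp [e_ne hab, hk'.2, ha, hb]))

theorem star (h10 : 10 ≤ Fintype.card ι) {T : Finset ι} (h4 : #T = 4) {g : (ι → F) ≃ₗ[F] (ι → F)}
    (hg : g ∈ K) (hc : g * Fr.sg T = Fr.sg T * g) : g ∈ Mon := by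
  refine h.norm h0 (T := Tᶜ) (by rw [card_compl]; omega) (fun u v hu hv _ _ _ hK => ?_) hg
    fun i l hl => by simp [supp_of_comm h.two hc hl]
  obtain ⟨k, hk⟩ := card_pos.1 (show 0 < #T by omega)
  have key : ∀ u : ι → F, supp u ⊆ Tᶜ → rf u (e k) = e k := fun u hu => rf_perp (by
    by_contra e1
    exact mem_compl.1 (hu (by simpa using e1)) hk)
  exact h.of_fix h0 hK (i := k) (j := k) (c := 1) (by
    rw [LinearEquiv.mul_apply, key v hv, key u hu, one_smul])

theorem pair (h10 : 10 ≤ Fintype.card ι) {T : Finset ι} (h4 : #T = 4) {u v : ι → F}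
    (huv : u ⬝ᵥ v = 0) (hK : rf u * rf v ∈ K) (hM : rf u * rf v ∉ Mon) :
    ∃ (α β γ δ : F) (S S' : Finset ι), (S = T ∨ S = Tᶜ) ∧ (S' = T ∨ S' = Tᶜ) ∧
      res S (α • u + β • v) ≠ 0 ∧ #(supp (res S (α • u + β • v))) ≤ 2 ∧
      #(supp (res S' (γ • u + δ • v))) ≤ 2 ∧
      ∀ c : F, res S' (γ • u + δ • v) ≠ c • res S (α • u + β • v) := by
  let U : AddSubgroup (ι → F) :=
    { carrier := {z | ∀ S, S = T ∨ S = Tᶜ → ∃ α β : F, ∀ l ∈ S, z l = (α • u + β • v) l}
      add_mem' := fun ha hb S hS => by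
        obtain ⟨α, β, h1⟩ := ha S hS
        obtain ⟨γ, δ, h3⟩ := hb S hS
        exact ⟨α + γ, β + δ, fun l hl => by simp [h1 l hl, h3 l hl]; ring⟩
      zero_mem' := fun S _ => ⟨0, 0, by simp⟩
      neg_mem' := fun ha S hS => by
        obtain ⟨α, β, h1⟩ := ha S hS
        exact ⟨-α, -β, fun l hl => by simp [h1 l hl]; ring⟩ }
  have hd : ∀ z ∈ U, Fr.sg T z ∈ U := by
    rintro z hz S (rfl | rfl)
    · obtain ⟨α, β, h1⟩ := U.neg_mem hz S (Or.inl rfl)
      exact ⟨α, β, fun l hl => by rw [← h1 l hl]; simp [sg_apply, hl]⟩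
    · obtain ⟨α, β, h1⟩ := hz _ (Or.inr rfl)
      exact ⟨α, β, fun l hl => by rw [← h1 l hl]; simp [sg_apply, mem_compl.1 hl]⟩
  have hx : ∀ z, z - (rf u * rf v) z ∈ U := fun z S _ => ⟨2 * (z - (2 * z ⬝ᵥ v / v ⬝ᵥ v) • v) ⬝ᵥ u / u ⬝ᵥ u,
    2 * z ⬝ᵥ v / v ⬝ᵥ v, fun l _ => by
      rw [LinearEquiv.mul_apply, rf_apply, rf_apply]; simp; ring⟩
  have xx : rf u * rf v * (rf u * rf v) = 1 := by
    have := refl_conj (refl_mem_OG (Q := (Q0 : QuadraticForm F (ι → F))) u) v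
    rw [refl_inv, show refl Q0 u v = v from rf_perp (by rwa [dotProduct_comm])] at this
    rw [← mul_assoc, this, refl_mul_self]
  have dd := sg_mul_self (F := F) T
  have hdK := h.sg T (by rw [h4]; decide)
  have hst := fun g hg => h.star h0 h10 h4 (g := g) hg
  have hdM := sg_mem_Mon (F := F) T
  have hdc := fun (g : (ι → F) ≃ₗ[F] (ι → F)) hg i l => supp_of_comm h.two (g := g) (T := T) hg (i := i) (l := l)
  generalize rf u * rf v = x at *
  generalize (Fr.sg T : (ι → F) ≃ₗ[F] (ι → F)) = d at *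
  have dp : ∀ k : ℕ, d ^ (2 * k) = 1 := fun k => by rw [pow_mul, pow_two, dd, one_pow]
  have hU : ∀ (k : ℕ) z, z - ((x * d) ^ k * d ^ k) z ∈ U := by
    intro k
    induction k with
    | zero => intro z; simp
    | succ k ih =>
      intro z
      have h1 := U.add_mem (hd _ (ih (d z))) (hx (d (((x * d) ^ k * d ^ k) (d z))))
      rw [map_sub, ← LinearEquiv.mul_apply d d, dd] at h1
      simpa [pow_succ' (x * d), pow_succ d] using h1
  obtain ⟨y, y1, yy, yK, yd, yU⟩ : ∃ y : (ι → F) ≃ₗ[F] (ι → F), y ≠ 1 ∧ y * y = 1 ∧ y ∈ K ∧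
      y * d = d * y ∧ ∀ z, z - y z ∈ U := by
    have hxd : x * d ≠ d * x := fun e1 => hM (hst x hK e1)
    rcases Nat.even_or_odd' (orderOf (x * d)) with ⟨k, hk | hk⟩
    · have hpos := orderOf_pos (x * d)
      have s1 : (x * d) ^ k ≠ 1 := pow_ne_one_of_lt_orderOf (by omega) (by omega)
      have ss : (x * d) ^ k * (x * d) ^ k = 1 := by rw [← pow_add, ← two_mul, ← hk, pow_orderOf_eq_one]
      have c1 : Commute ((x * d) ^ k) d := by
        have : d * (x * d) * d⁻¹ = (x * d)⁻¹ := by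
          rw [mul_inv_rev, inv_eq_of_mul_eq_one_right xx, inv_eq_of_mul_eq_one_right dd, mul_assoc,
            mul_assoc, dd, mul_one]
        refine (mul_inv_eq_iff_eq_mul.1 ?_ : d * _ = _ * d).symm
        rw [← conj_pow, this, inv_pow, inv_eq_of_mul_eq_one_right ss]
      refine ⟨_, fun e1 => ?_, ?_, K.mul_mem (K.pow_mem (K.mul_mem hK hdK) k) (K.pow_mem hdK k),
        (c1.mul_left ((Commute.refl d).pow_left k)).eq, hU k⟩
      · rcases Nat.even_or_odd' k with ⟨m, hm | hm⟩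
        · rw [show d ^ k = 1 from hm ▸ dp m, mul_one] at e1; exact s1 e1
        · rw [show d ^ k = d by rw [hm, pow_succ, dp, one_mul], mul_eq_one_iff_eq_inv,
            inv_eq_of_mul_eq_one_right dd] at e1
          have := (Commute.refl (x * d)).pow_right k
          rw [e1] at this
          exact hxd (mul_right_cancel (this.eq.trans (mul_assoc _ _ _).symm))
      · rw [← pow_two, (c1.pow_right k).mul_pow, pow_two, ss, ← pow_mul, mul_comm, dp, one_mul]
    · refine ⟨d, fun e1 => hxd (by simp [e1]), dd, hdK, rfl, fun z => ?_⟩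
      simpa [hk ▸ pow_orderOf_eq_one (x * d), pow_succ d, dp] using hU (2 * k + 1) z
  have yM := hst y yK yd
  have key : ∀ l, ∃ (α β : F) (S : Finset ι), (S = T ∨ S = Tᶜ) ∧
      e l - y (e l) = res S (α • u + β • v) := fun l => by
    obtain ⟨S, hS, h1⟩ : ∃ S : Finset ι, (S = T ∨ S = Tᶜ) ∧ ∀ m, (l ∈ T ↔ m ∈ T) → m ∈ S := by
      by_cases hl : l ∈ T
      · exact ⟨T, Or.inl rfl, fun m hm => hm.1 hl⟩
      · exact ⟨Tᶜ, Or.inr rfl, fun m hm => mem_compl.2 (mt hm.2 hl)⟩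
    obtain ⟨α, β, h3⟩ := yU (e l) S hS
    refine ⟨α, β, S, hS, funext fun m => ?_⟩
    by_cases hm : m ∈ S
    · rw [h3 m hm, res_mem _ hm]
    · rw [res_not _ hm, Pi.sub_apply, e_ne (by rintro rfl; exact hm (h1 _ Iff.rfl)),
        not_not.1 (mt (fun e1 => h1 m (hdc y yd l m e1)) hm), sub_zero]
  obtain ⟨l, hl⟩ : ∃ l, e l - y (e l) ≠ 0 := by
    by_contra e1
    push Not at e1
    exact y1 (ext_e fun i => (sub_eq_zero.1 (e1 i)).symm)
  obtain ⟨j, hj⟩ : ∃ j, ∀ c : F, e j - y (e j) ≠ c • (e l - y (e l)) := by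
    by_contra e1
    push Not at e1
    have := det_of_line hl (by rw [map_sub, ← LinearEquiv.mul_apply y y, yy]; simp) fun j => by
      obtain ⟨c, hc⟩ := e1 j
      exact ⟨-c, by rw [neg_smul, ← hc, neg_sub]⟩
    rw [det_Om (h.le yK)] at this
    exact h.two (by linear_combination (by simpa using congrArg Units.val this : (1 : F) = -1))
  obtain ⟨α, β, S, hS, h1⟩ := key l
  obtain ⟨γ, δ, S', hS', h3⟩ := key j
  exact ⟨α, β, γ, δ, S, S', hS, hS', h1 ▸ hl, h1 ▸ (Mon.diff yM l).1, h3 ▸ (Mon.diff yM j).1, h1 ▸ h3 ▸ hj⟩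

theorem rank_two (h10 : 10 ≤ Fintype.card ι) {u v : ι → F} (huv : u ⬝ᵥ v = 0)
    (hK : rf u * rf v ∈ K) : rf u * rf v ∈ Mon := by
  classical
  by_contra hM
  have hp : ∀ i, u i ≠ 0 ∨ v i ≠ 0 := fun i => by
    by_contra e1
    push Not at e1
    exact hM (h.of_fix h0 hK (i := i) (j := i) (c := 1) (by
      rw [LinearEquiv.mul_apply, rf_perp (u := v) (by simp [e1.2]), rf_perp (by simp [e1.1]), one_smul]))
  have hz : ∀ {S : Finset ι} {w : ι → F} {i : ι}, i ∈ S \ supp (res S w) → w i = 0 := fun hi => by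
    rw [mem_sdiff, mem_supp, not_not, res_mem _ hi.1] at hi; exact hi.2
  have c2 : ∀ (α β : F) (S : Finset ι), res S (α • u + β • v) ≠ 0 →
      ∀ i ∈ S \ supp (res S (α • u + β • v)), ∀ j ∈ S \ supp (res S (α • u + β • v)),
        u i * v j = u j * v i := by
    intro α β S h1 i hi j hj
    have h3 : α ≠ 0 ∨ β ≠ 0 := by
      by_contra e1; push Not at e1; exact h1 (by funext l; simp [res, e1])
    have h4 := hz hi
    have h5 := hz hj
    simp only [Pi.add_apply, Pi.smul_apply, smul_eq_mul] at h4 h5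
    grind
  have c3 : ∀ (α β γ δ : F) (S : Finset ι), res S (α • u + β • v) ≠ 0 →
      (∀ c : F, res S (γ • u + δ • v) ≠ c • res S (α • u + β • v)) →
      Disjoint (S \ supp (res S (α • u + β • v))) (S \ supp (res S (γ • u + δ • v))) := by
    intro α β γ δ S h1 h3
    refine disjoint_left.2 fun i hi hi' => ?_
    obtain ⟨l, hl⟩ := Function.ne_iff.1 h1
    have hl : α * u l + β * v l ≠ 0 := fun e1 => hl (by simp [res, e1])
    refine h3 ((γ * u l + δ * v l) / (α * u l + β * v l)) (funext fun m => ?_)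
    have h4 := hz hi
    have h5 := hz hi'
    have := hp i
    by_cases hm : m ∈ S
    · simp only [Pi.add_apply, Pi.smul_apply, smul_eq_mul, res_mem _ hm] at h4 h5 ⊢
      field_simp
      grind
    · simp [res, hm]
  have hc : ∀ (S : Finset ι) (w : ι → F), #(supp (res S w)) ≤ 2 → #S ≤ #(S \ supp (res S w)) + 2 :=
    fun S w h1 => by have := le_card_sdiff (supp (res S w)) S; omega
  have A : ∀ T : Finset ι, 4 ≤ #T → ¬ ∀ i ∈ T, ∀ j ∈ T, u i * v j = u j * v i := by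
    intro T' h4 h1
    obtain ⟨T, hT, h4⟩ := exists_subset_card_eq h4
    have key : ∀ α β : F, #(supp (res T (α • u + β • v))) ≤ 2 → res T (α • u + β • v) = 0 := by
      intro α β h3
      obtain ⟨i, hi⟩ := card_pos.1 (show 0 < #(T \ supp (res T (α • u + β • v))) by
        have := hc _ _ h3; omega)
      funext l
      by_cases hl : l ∈ T
      · have h5 := hz hi
        have h6 := h1 i (hT (mem_sdiff.1 hi).1) l (hT hl)
        have := hp i
        simp only [Pi.add_apply, Pi.smul_apply, smul_eq_mul, res_mem _ hl, Pi.zero_apply] at h5 ⊢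
        grind
      · exact res_not _ hl
    obtain ⟨α, β, γ, δ, S, S', rfl | rfl, hS', h3, h5, h6, h7⟩ := h.pair h0 h10 h4 huv hK hM
    · exact h3 (key _ _ h5)
    rcases hS' with rfl | rfl
    · exact h7 0 (by rw [key _ _ h6, zero_smul])
    have := (card_union_of_disjoint (c3 _ _ _ _ _ h3 h7)).symm.trans_le
      (card_le_card (union_subset sdiff_subset sdiff_subset))
    have := hc _ _ h5
    have := hc _ _ h6
    have := card_compl T
    omega
  have B : ∀ a, #(univ.filter fun i => u a * v i = u i * v a) ≤ 3 := fun a => by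
    by_contra e1
    refine A _ (not_le.1 e1) fun i hi j hj => ?_
    have := hp a
    simp only [mem_filter, mem_univ, true_and] at hi hj
    grind
  obtain ⟨a, -⟩ := exists_not_mem (S := (∅ : Finset ι)) (by simp; omega)
  obtain ⟨b, hb⟩ := exists_not_mem ((B a).trans_lt (by omega))
  obtain ⟨c, hc'⟩ := exists_not_mem ((card_union_le _ _).trans_lt
    ((add_le_add (B a) (B b)).trans_lt (by omega)))
  simp only [mem_union, mem_filter, mem_univ, true_and, not_or] at hb hc'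
  obtain ⟨T, hT, h4⟩ := exists_superset_card_eq (s := {a, b, c}) (n := 4)
    (card_le_three.trans (by omega)) (by omega)
  have key : ∀ α β : F, res Tᶜ (α • u + β • v) ≠ 0 → ¬ #(supp (res Tᶜ (α • u + β • v))) ≤ 2 :=
    fun α β h1 h3 => A _ (by have := hc _ _ h3; have := card_compl T; omega) (c2 _ _ _ h1)
  obtain ⟨α, β, γ, δ, S, S', hS, hS', h3, h5, h6, h7⟩ := h.pair h0 h10 h4 huv hK hM
  have h8 : res S' (γ • u + δ • v) ≠ 0 := by simpa using h7 0
  obtain rfl : S = T := hS.resolve_right (by rintro rfl; exact key _ _ h3 h5)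
  obtain rfl : S' = S := hS'.resolve_right (by rintro rfl; exact key _ _ h8 h6)
  have h9 := eq_of_subset_of_card_le (union_subset sdiff_subset sdiff_subset :
      S' \ supp (res S' (α • u + β • v)) ∪ S' \ supp (res S' (γ • u + δ • v)) ⊆ S') (by
    rw [card_union_of_disjoint (c3 _ _ _ _ _ h3 h7)]
    have := hc _ _ h5
    have := hc _ _ h6
    omega)
  have ha := h9.ge (hT (by simp : a ∈ _))
  have hb' := h9.ge (hT (by simp : b ∈ _))
  have hc'' := h9.ge (hT (by simp : c ∈ _))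
  rw [mem_union] at ha hb' hc''
  have e1 := c2 _ _ _ h3
  have e2 := c2 _ _ _ h8
  rcases ha with ha | ha <;> rcases hb' with hb' | hb' <;> rcases hc'' with hc'' | hc''
  all_goals first
    | exact hb (e1 _ ha _ hb') | exact hb (e2 _ ha _ hb') | exact hc'.1 (e1 _ ha _ hc'')
    | exact hc'.1 (e2 _ ha _ hc'') | exact hc'.2 (e1 _ hb' _ hc'') | exact hc'.2 (e2 _ hb' _ hc'')

omit h0 in
theorem main (hn : Odd (Fintype.card ι) ∨ 10 ≤ Fintype.card ι) (hK : ¬ K ≤ Mon) : Om Q0 ≤ K := by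
  by_contra h1
  have h0 : ∀ g ∈ K, ∀ i, Fr.sg {i} * g * Fr.sg {i} ∈ K → g ∈ Mon := fun g hg i hi => by
    by_contra hM; exact h1 (h.Om_le hg hM hi)
  have := h.seven
  refine hK fun g hg => ?_
  rcases hn with hn | hn
  · obtain ⟨i, -⟩ := exists_not_mem (S := (∅ : Finset ι)) (by simp; omega)
    have h3 := h.sg {i}ᶜ (by rw [card_compl, card_singleton]; exact Nat.Odd.sub_odd hn odd_one)
    have h4 : ∀ x : ι → F, Fr.sg {i}ᶜ x = -Fr.sg {i} x := fun x => by
      funext l; by_cases hl : l = i <;> simp [sg_apply, hl]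
    refine h0 g hg i ?_
    convert K.mul_mem (K.mul_mem h3 hg) h3 using 1
    ext x; simp [h4]
  · exact h.norm h0 (T := univ) (by rw [card_univ]; omega)
      (fun u v _ _ _ _ huv => h.rank_two h0 hn huv) hg (by simp)

end BK

end Cfsg.Agent.H4.Fr
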