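import Cfsg.Agent.H4.Fr4
import Cfsg.Agent.H8.Decomp
import Cfsg.Agent.H8.Coord

/-! Maximality of the stabiliser of an orthonormal frame in `Ω` over a prime field. -/

set_option autoImplicit false
set_option linter.unusedSectionVars false

namespace Cfsg.Agent.H4.Fr

open QuadraticMap Module Cfsg.Agent.H8 Finset

variable {F : Type*} [Field F] [Finite F]

theorem nat_of_prime (hp : (Nat.card F).Prime) (t : F) : ∃ n : ℕ, (n : F) = t := by
  have := Fact.mk hp
  have := Fintype.ofFinite F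
  obtain ⟨z, rfl⟩ := (ZMod.ringEquivOfPrime F hp Nat.card_eq_fintype_card.symm).surjective t
  exact ⟨z.val, by rw [← map_natCast (ZMod.ringEquivOfPrime F hp Nat.card_eq_fintype_card.symm)]; simp⟩

theorem mon_max {ι : Type*} [Fintype ι] [DecidableEq ι] (hp : (Nat.card F).Prime) (h2 : (2 : F) ≠ 0)
    (h7 : 7 ≤ Fintype.card ι) (hn : Odd (Fintype.card ι) ∨ 10 ≤ Fintype.card ι) :
    Geo.IsMaximalIn (Om (Q0 : QuadraticForm F (ι → F))) (Mon ⊓ Om Q0) := by
  have hN := nd_Q0 (ι := ι) h2
  have h5 : 5 ≤ finrank F (ι → F) := by simp; omega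
  refine isMaximalIn_of ?_ fun K h1 h3 g hg hM => BK.main ⟨h2, nat_of_prime hp, h7, h3,
    fun i j => h1 ⟨mul_mem (sg_mem_Mon _) (sg_mem_Mon _), ?_⟩, fun σ hσ => h1 ⟨pm_mem_Mon σ, ?_⟩⟩ hn
    fun e => hM (e hg)
  · obtain ⟨T, -, hT⟩ := exists_superset_card_eq (s := (∅ : Finset ι)) (n := 4) (by simp) (by omega)
    obtain ⟨a, ha, b, hb, hab⟩ := one_lt_card.1 (show 1 < #T by omega)
    have h4 : supp (res T fun _ => (2 : F)⁻¹) = T := by ext l; simp [supp_res, h2]
    obtain ⟨g, hg, e1⟩ := Om_trans hN h5 (x := e a) (y := res T fun _ => (2 : F)⁻¹)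
      (fun e1 => by simpa using congrFun e1 a) (fun e1 => by simpa [res, ha, h2] using congrFun e1 a) (by
        rw [Q0_apply, Q0_apply, dot_const (v := res _ _) (c := 2⁻¹ * 2⁻¹) fun l hl => by
          simp [res, h4 ▸ mem_supp.2 hl], h4, hT]
        simp; field_simp; norm_num)
    exact ⟨g, hg, fun hM => hab (Mon.eq hM (i := a) (by simp [e1, res, ha, h2]) (by simp [e1, res, hb, h2]))⟩
  · rw [← rf_e, ← rf_e]; exact refl_mul_refl_mem_Om hN h5 (by simp [Q0_apply])
  · have : σ ∈ ⁅(⊤ : Subgroup (Equiv.Perm ι)), (⊤ : Subgroup (Equiv.Perm ι))⁆ := by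
      rw [← commutator_def, alternatingGroup.commutator_perm_eq (by simpa using by omega)]; exact hσ
    have := Subgroup.mem_map_of_mem (pm (F := F)) this
    rw [Subgroup.map_commutator] at this
    exact Subgroup.commutator_mono (by rintro _ ⟨τ, -, rfl⟩; exact pm_mem_OG τ)
      (by rintro _ ⟨τ, -, rfl⟩; exact pm_mem_OG τ) this

/-- conjugation by a linear equivalence -/
def cjE {V W : Type*} [AddCommGroup V] [Module F V] [AddCommGroup W] [Module F W] (φ : V ≃ₗ[F] W) :
    (V ≃ₗ[F] V) ≃* (W ≃ₗ[F] W) where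
  toFun g := φ.symm.trans (g.trans φ)
  invFun g := φ.trans (g.trans φ.symm)
  left_inv g := by ext; simp
  right_inv g := by ext; simp
  map_mul' g h := by ext; simp

theorem frame_max {V : Type*} [AddCommGroup V] [Module F V] [FiniteDimensional F V]
    {Q : QuadraticForm F V} {t : ℕ} {D : Fin t → Submodule F V} (h : OD Q D 1)
    (hp : (Nat.card F).Prime) (h2 : (2 : F) ≠ 0) (h7 : 7 ≤ t) (hn : Odd t ∨ 10 ≤ t) :
    Geo.IsMaximalIn (Om Q) (DStab D ⊓ Om Q) := by
  let i0 : Fin t := ⟨0, by omega⟩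
  obtain ⟨v, hv, hv'⟩ := finrank_eq_one_iff'.1 (h.dim i0)
  choose f hf using h.iso i0
  let b : Fin t → V := fun i => f i v
  have hb : ∀ i, b i ∈ D i := fun i => (f i v).2
  have hb0 : ∀ i, b i ≠ 0 := fun i e => hv ((f i).map_eq_zero_iff.1 (Subtype.ext e))
  have hD : ∀ i, D i = F ∙ b i := fun i => (Submodule.eq_of_le_of_finrank_eq
    ((Submodule.span_singleton_le_iff_mem _ _).2 (hb i)) (by
      rw [finrank_span_singleton (hb0 i), h.dim])).symm
  have hc : Q v ≠ 0 := fun e => hv (Subtype.ext (h.nd i0 v v.2 fun y hy => by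
    obtain ⟨c, hc⟩ := hv' ⟨y, hy⟩
    rw [← show c • (v : V) = y from congrArg Subtype.val hc, pol_smul_right, pol_self, e]; simp))
  let B : Basis (Fin t) F V := Basis.mk (h.indep.linearIndependent D hb hb0) (by
    rw [← h.top, iSup_le_iff]
    exact fun i => hD i ▸ Submodule.span_mono (by simp))
  let φ := B.equivFun.symm
  have hφ : ∀ i, φ (e i) = b i := fun i => by simp [φ, e, B, Pi.single_apply]
  have hQ : ∀ x, Q (φ x) = Q v * Q0 x := fun x => by
    have h1 : ∀ i j, polar Q (b i) (b j) = if i = j then 2 * Q v else 0 := fun i j => by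
      split_ifs with e
      · rw [e, pol_self, hf]
      · exact h.orth i j e _ (hb i) _ (hb j)
    refine mul_left_cancel₀ h2 ?_
    rw [← pol_self, Basis.equivFun_symm_apply, pol_sum_left]
    simp only [pol_sum_right, pol_smul_left, pol_smul_right, B, Basis.mk_apply, h1, Q0_apply,
      dotProduct, mul_sum]
    exact sum_congr rfl fun i _ => by simp; ring
  have key : ∀ g x, cjE φ g (φ x) = φ (g x) := fun g x => by simp [cjE]
  have h1 : (OG Q0).map (cjE φ).toMonoidHom = OG Q := by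
    ext g
    obtain ⟨g, rfl⟩ := (cjE φ).surjective g
    refine (Subgroup.mem_map_iff_mem (cjE φ).injective).trans ⟨fun hg x => ?_, fun hg x => ?_⟩
    · obtain ⟨x, rfl⟩ := φ.surjective x
      rw [key, hQ, hQ, hg]
    · have := hg (φ x)
      rw [key, hQ, hQ] at this
      exact mul_left_cancel₀ hc this
  have h3 : Mon.map (cjE φ).toMonoidHom = DStab D := by
    ext g
    obtain ⟨g, rfl⟩ := (cjE φ).surjective g
    refine (Subgroup.mem_map_iff_mem (cjE φ).injective).trans
      (exists_congr fun σ => forall_congr' fun i => ?_)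
    rw [hD, hD, Submodule.map_span, Set.image_singleton, ← hφ, ← hφ, LinearEquiv.coe_coe, key]
    constructor
    · rintro ⟨c, hc⟩
      obtain ⟨l, hl⟩ := map_e_ne g i
      rw [hc, map_smul, Submodule.span_singleton_smul_eq (IsUnit.mk0 c (by rintro rfl; simp [hc] at hl))]
    · intro e1
      obtain ⟨c, hc⟩ := Submodule.mem_span_singleton.1 (e1 ▸ Submodule.mem_span_singleton_self _)
      exact ⟨c, φ.injective (by rw [← hc, map_smul])⟩
  have := isMaximalIn_map (cjE φ) (mon_max (ι := Fin t) hp h2 (by simpa) (by simpa))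
  rwa [map_equiv_inf, h3, Om, Subgroup.map_commutator, h1] at this

theorem geo_frame {ι : Type} [Fintype ι] [DecidableEq ι] {Q : QuadraticForm F (ι → F)} {t : ℕ}
    {D : Fin t → Submodule F (ι → F)} (hD : Geo.IsOrthogonalMDecomposition Q 1 D)
    (hp : (Nat.card F).Prime) (h2 : (2 : F) ≠ 0) (h7 : 7 ≤ Fintype.card ι)
    (hn : Odd (Fintype.card ι) ∨ 10 ≤ Fintype.card ι) :
    Geo.IsMaximalIn (Geo.omegaGL Q) (Geo.decompositionStabilizer D ⊓ Geo.omegaGL Q) := by
  have h := od_of_geo hD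
  have ht : Fintype.card ι = t := by simpa using h.total
  rw [omegaGL_eq, decompositionStabilizer_eq, ← pull_inf]
  exact isMaximalIn_pull (frame_max h hp h2 (ht ▸ h7) (ht ▸ hn))

end Cfsg.Agent.H4.Fr
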