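import Cfsg.Agent.H1.N2a
import Cfsg.Agent.H4.CA1

/-!
Groups with a homocyclic Sylow subgroup of order sixteen: fusion and the odd core of the centraliser of an involution.
-/

set_option autoImplicit false
set_option synthInstance.maxSize 100000
set_option linter.unusedSectionVars false

namespace Cfsg.Agent.H4.HC

open Subgroup Cfsg.Agent.MH Cfsg.Agent.H1.Mit Cfsg.Agent.H1.N1

abbrev A4 := ZMod 4 × ZMod 4

/-- a linear map -/
def lin (p q r : A4) : A4 := r.1.val • p + r.2.val • q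

theorem lin0 : ∀ p q : A4, (∀ r, lin p q r = 0 → r = 0) → (∀ u, u ≠ 0 → u + u = 0 → lin p q u = u →
    ∀ r ∈ [(1, 0), (0, 1)], lin p q (lin p q (lin p q (lin p q r))) = r) ∧ ((∀ u, u ≠ 0 → u + u = 0 → lin p q u ≠ u) →
    ∀ u, u ≠ 0 → u + u = 0 → ∀ v, v ≠ 0 → v + v = 0 → u = v ∨ lin p q u = v ∨ lin p q (lin p q u) = v) := by
  decide +kernel

variable {T : Type*} [Group T]

/-- coordinates -/
def e (x y : T) (p : A4) : T := x ^ p.1.val * y ^ p.2.val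

variable {x y : T}

theorem e0 : e x y 0 = 1 := by simp [e]

theorem e1 (a : ZMod 4) : e x y (a, 0) = x ^ a.val := by simp [e]

theorem ex : e x y (1, 0) = x := (e1 _).trans (pow_one x)

theorem ey : e x y (0, 1) = y := by simp [e, show (1 : ZMod 4).val = 1 from rfl]

theorem ez : e x y (2, 0) = x * x := (e1 _).trans (sq x)

theorem ew : e x y (0, 2) = y * y := by simp [e, show (2 : ZMod 4).val = 2 from rfl, sq]

variable [Finite T] {S : Sylow 2 T} {Ro : T → Prop} {p0 : ℕ} (H : HCT S x y)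
include H

theorem e_add (p q : A4) : e x y (p + q) = e x y p * e x y q := by
  simp only [e, Prod.fst_add, Prod.snd_add, ZMod.val_add, ← pow_eq_pow_mod _ H.x4, ← pow_eq_pow_mod _ H.y4, pow_add, mul_assoc]
  rw [← mul_assoc (y ^ _), ← (Commute.pow_pow H.comm _ _).eq, mul_assoc]

theorem e_smul (n : ℕ) (p : A4) : e x y (n • p) = e x y p ^ n := by
  induction n with
  | zero => simp [e0]
  | succ n ih => rw [succ_nsmul, e_add H, ih, pow_succ]

theorem mem_iff {g : T} : g ∈ S ↔ ∃ p, e x y p = g := (H.mem g).trans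
  ⟨fun ⟨a, b, h⟩ => ⟨(a, b), by simp [e, h, ← pow_eq_pow_mod _ H.x4, ← pow_eq_pow_mod _ H.y4]⟩, fun ⟨_, h⟩ => ⟨_, _, h.symm⟩⟩

theorem e_mem (p : A4) : e x y p ∈ S := (mem_iff H).2 ⟨p, rfl⟩

theorem e_inj : Function.Injective (e x y) := fun _ _ h =>
  (Function.Surjective.bijective_of_nat_card_le (f := fun p => (⟨_, e_mem H p⟩ : S))
    (fun g => ((mem_iff H).1 g.2).imp fun _ => Subtype.ext) (le_of_eq ((by simp : Nat.card A4 = 16).trans H.card.symm))).1 (Subtype.ext h)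

theorem e_inv {u : A4} : MH.Inv (e x y u) ↔ u ≠ 0 ∧ u + u = 0 := by
  rw [MH.Inv, ← e_add H, ← e0 (x := x) (y := y), (e_inj H).ne_iff, (e_inj H).eq_iff]

theorem comm {a b : T} (ha : a ∈ S) (hb : b ∈ S) : a * b = b * a := by
  obtain ⟨p, rfl⟩ := (mem_iff H).1 ha
  obtain ⟨q, rfl⟩ := (mem_iff H).1 hb
  rw [← e_add H, ← e_add H, add_comm]

theorem four {a : T} (ha : a ∈ S) : a ^ 4 = 1 := by
  obtain ⟨p, rfl⟩ := (mem_iff H).1 ha
  rw [← e_smul H, (by decide : ∀ p : A4, 4 • p = 0), e0]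

theorem xS : x ∈ S := ex (x := x) (y := y) ▸ e_mem H _

theorem yS : y ∈ S := ey (x := x) (y := y) ▸ e_mem H _

theorem iz : MH.Inv (x * x) := ez (x := x) (y := y) ▸ (e_inv H).2 (by decide)

theorem cS {a : T} (h1 : a ∈ Cn x) (h2 : a ∈ Cn y) : a ∈ S := by
  obtain ⟨k, m, hm, e'⟩ := Nat.exists_eq_two_pow_mul_odd (orderOf_pos a).ne'
  refine mem_sylow_of_Nm S (k := k) (H.cs _ ⟨m, hm, by rw [← pow_mul, ← e', pow_orderOf_eq_one]⟩ (pow_mem h1 _) (pow_mem h2 _))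
    (mem_Nm fun s hs => ?_)
  obtain ⟨p, rfl⟩ := (mem_iff H).1 hs
  rwa [conj_eq_of_Cn (y := e x y p) (mem_Cn_comm.1 (mul_mem (pow_mem (mem_Cn_comm.1 h1) _) (pow_mem (mem_Cn_comm.1 h2) _)))]

theorem exists_lin {g : T} (hg : g ∈ Nm (S : Subgroup T)) : ∃ p q, (∀ r, lin p q r = 0 → r = 0) ∧
    ∀ r, g * e x y r * g⁻¹ = e x y (lin p q r) := by
  obtain ⟨p, hp⟩ := (mem_iff H).1 (Nm_conj hg (xS H))
  obtain ⟨q, hq⟩ := (mem_iff H).1 (Nm_conj hg (yS H))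
  have : ∀ r, g * e x y r * g⁻¹ = e x y (lin p q r) := fun r => by
    rw [lin, e_add H, e_smul H, e_smul H, hp, hq, conj_pow, conj_pow, e]; group
  exact ⟨p, q, fun r h => e_inj H (by simpa [h, e0] using this r), this⟩

theorem nS {g u : T} (hg : g ∈ Nm (S : Subgroup T)) (hu : u ∈ S) (iu : MH.Inv u) (h : g * u * g⁻¹ = u) : g ∈ S := by
  obtain ⟨p, q, h1, h2⟩ := exists_lin H hg
  obtain ⟨u, rfl⟩ := (mem_iff H).1 hu
  have h3 := (lin0 p q h1).1 u ((e_inv H).1 iu).1 ((e_inv H).1 iu).2 (e_inj H ((h2 u).symm.trans h))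
  have h4 : ∀ r ∈ [(1, 0), (0, 1)], g ^ 4 ∈ Cn (e x y r) := fun r hr => Cn_of_conj (by
    conv_rhs => rw [← h3 r hr, ← h2, ← h2, ← h2, ← h2]
    simp only [pow_succ, pow_zero, one_mul]; group)
  exact mem_sylow_of_Nm S (k := 4) ((pow_mul g 4 4).trans (four H (cS H (ex (x := x) (y := y) ▸ h4 _ (by simp))
    (ey (x := x) (y := y) ▸ h4 _ (by simp))))) hg

theorem core : ∃ O ≤ Cn (x * x), Odd (Nat.card O) ∧ (∀ a ∈ Cn (x * x), Od a → a ∈ O) ∧
    (∀ a ∈ Cn (x * x), ∃ o ∈ O, ∃ p, a = o * e x y p) ∧ Nat.card (Cn (x * x)) = 16 * Nat.card O := by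
  have zS : x * x ∈ S := mul_mem (xS H) (xS H)
  have le : (S : Subgroup T) ≤ Cn (x * x) := fun s hs => mem_Cn.2 (comm H zS hs)
  let P := S.subtype le
  have hP : normalizer P ≤ centralizer (P : Set (Cn (x * x))) := fun n hn a ha => Subtype.ext (comm H ha
    (nS H (mem_Nm fun s hs => Nm_conj (H := (P : Subgroup (Cn (x * x)))) hn (y := ⟨s, le hs⟩) hs) zS (iz H) (conj_eq_of_Cn n.2)))
  have k := MonoidHom.ker_transferSylow_isComplement' P hP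
  refine ⟨(MonoidHom.transferSylow P hP).ker.map (Cn _).subtype, map_subtype_le _, ?_, fun a ha ⟨n, hn, e⟩ => ⟨⟨a, ha⟩, ?_, rfl⟩,
    fun a ha => ?_, ?_⟩
  · rw [card_map_of_injective (subtype_injective _), ← k.index_eq_card, ← Nat.not_even_iff_odd, even_iff_two_dvd]
    exact P.not_dvd_index
  · obtain ⟨j, hj⟩ := P.2 (MonoidHom.transferSylow P hP ⟨a, ha⟩)
    exact Od.eq_one' ⟨n, hn, by rw [← map_pow, show (⟨a, ha⟩ : Cn _) ^ n = 1 from Subtype.ext e, map_one]⟩ hj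
  · obtain ⟨⟨o, s⟩, h, -⟩ := k.existsUnique ⟨a, ha⟩
    obtain ⟨p, hp⟩ := (mem_iff H (g := s.1)).1 s.2
    exact ⟨o.1, ⟨_, o.2, rfl⟩, p, hp ▸ (congrArg Subtype.val h).symm⟩
  · rw [card_map_of_injective (subtype_injective _), ← k.card_mul_card, mul_comm, ← H.card]
    exact congrArg (· * _) (Nat.card_congr (subgroupOfEquivOfLe le).toEquiv)

theorem swap : HCT S (x * (y * y)) y ∧ x * (y * y) * (x * (y * y)) = x * x := by
  have h1 : x * (y * y) = e x y (1, 2) := by rw [show ((1, 2) : A4) = (1, 0) + (0, 2) from rfl, e_add H, ex, ew]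
  have h2 : x * (y * y) * (y * y) = x := by
    rw [mul_assoc, show y * y * (y * y) = y ^ 4 by simp [pow_succ, mul_assoc], H.y4, mul_one]
  have h3 := h1 ▸ e_mem H (1, 2)
  refine ⟨⟨H.card, fun g => ⟨fun hg => ?_, ?_⟩, four H h3, H.y4, comm H h3 (yS H), fun a o c1 c2 => H.cs a o (mem_Cn_comm.1 ?_) c2,
    fun x' h => H.ca x' (h.symm.imp_left (·.trans h2))⟩, by rw [h1, ← e_add H, ← ez (y := y)]; rfl⟩
  · obtain ⟨p, rfl⟩ := (mem_iff H).1 hg
    obtain ⟨a, -, b, -, rfl⟩ := (by decide : ∀ p : A4, ∃ a < 4, ∃ b < 4, p = a • (1, 2) + b • (0, 1)) p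
    exact ⟨a, b, by rw [e_add H, e_smul H, e_smul H, h1, ey]⟩
  · rintro ⟨a, b, rfl⟩
    exact mul_mem (pow_mem h3 _) (pow_mem (yS H) _)
  · have := mem_Cn_comm.1 c2
    exact h2 ▸ mul_mem (mem_Cn_comm.1 c1) (mul_mem this this)

variable (g : LG Ro p0)
include g

theorem tr {u v : T} (hu : u ∈ S) (hv : v ∈ S) (iu : MH.Inv u) (iv : MH.Inv v) : ∃ n ∈ Nm (S : Subgroup T), n * u * n⁻¹ = v := by
  obtain ⟨n, hn, h⟩ : ∃ n ∈ Nm (S : Subgroup T), n * u * n⁻¹ ≠ u := by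
    by_contra! k
    exact iu.1 (fix_eq_one g.perf Nat.prime_two S (fun a ha b hb => comm H ha hb) hu k)
  obtain ⟨p, q, h1, h2⟩ := exists_lin H hn
  have h3 := (lin0 p q h1).2 fun w w0 w2 k => h (by
    rw [← comm H hu (nS H hn (e_mem H w) ((e_inv H).2 ⟨w0, w2⟩) (by rw [h2, k])), mul_inv_cancel_right])
  obtain ⟨u, rfl⟩ := (mem_iff H).1 hu
  obtain ⟨v, rfl⟩ := (mem_iff H).1 hv
  rcases h3 u ((e_inv H).1 iu).1 ((e_inv H).1 iu).2 v ((e_inv H).1 iv).1 ((e_inv H).1 iv).2 with rfl | rfl | rfl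
  · exact ⟨1, one_mem _, by simp⟩
  · exact ⟨n, hn, h2 u⟩
  · exact ⟨n * n, mul_mem hn hn, by rw [← h2, ← h2]; group⟩

theorem cls : Cls (x * x) := fun s hs => by
  obtain ⟨a, ha⟩ := exists_conj_mem_sylow (k := 1) Nat.prime_two S (z := s) (by simpa [sq] using hs.2)
  obtain ⟨n, -, h⟩ := tr H g ha (mul_mem (xS H) (xS H)) (hs.conj a) (iz H)
  exact ⟨n * a, by rw [← h]; group⟩

theorem oc {a b : T} (ha : a ∈ Cn (x * x)) (hb : b ∈ Cn (x * x)) (oa : Od a) (ob : Od b) : a * b = b * a :=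
  let ⟨O, h1, h2, h3, _⟩ := core H; g.oa _ O (iz H).1 h1 h2 a (h3 a ha oa) b (h3 b hb ob)

theorem nf0 {d : T} (od : Od d) (h1 : d ∈ Cn (x * x)) (h2 : d ∈ Cn (y * y)) : d = 1 := by
  by_contra d1
  obtain ⟨r, k, hr, ro, d1, dr⟩ := od.exists_prime d1
  have zS : x * x ∈ S := mul_mem (xS H) (xS H)
  have z2 := (iz H).2
  let D : T → Prop := fun d => d ≠ 1 ∧ d ^ r = 1 ∧ ∀ s ∈ S, s * s = 1 → s ∈ Cn d
  let Pm : T → T → Prop := fun s d => s * d * s⁻¹ = d ∨ s * d * s⁻¹ = d⁻¹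
  have cj : ∀ n ∈ Nm (S : Subgroup T), ∀ d, D d → D (n * d * n⁻¹) := fun n hn d h => ⟨by simpa using h.1, by simp [h.2.1], fun s hs s2 => by
    simpa [mul_assoc] using (conj_mem_Cn (g := n)).2 (h.2.2 _ (Nm_conj' hn hs) (by simpa using (conj_mul_self (g := n⁻¹)).2 s2))⟩
  have cm : ∀ a b, D a → D b → a * b = b * a := fun a b ha hb =>
    oc H g (mem_Cn_comm.1 (ha.2.2 _ zS z2)) (mem_Cn_comm.1 (hb.2.2 _ zS z2)) ⟨r, ro, ha.2.1⟩ ⟨r, ro, hb.2.1⟩
  have eig : ∀ t ∈ S, ∀ d, D d → ∃ d', D d' ∧ Pm t d' ∧ ∀ s ∈ S, Pm s d → Pm s d' := fun t ht d h => by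
    have h3 := cj t (le_normalizer ht) d h
    have h4 := cm _ _ h h3
    by_cases k : d * (t * d * t⁻¹) = 1
    · exact ⟨d, h, .inr (eq_inv_of_mul_eq_one_right k), fun _ _ => id⟩
    have h5 := conj_eq_of_Cn (h.2.2 _ (mul_mem ht ht) (by simpa [pow_succ, mul_assoc] using four H ht))
    refine ⟨_, ⟨k, by rw [Commute.mul_pow h4, h.2.1, h3.2.1, one_mul], fun s hs s2 => mem_Cn_comm.1 (mul_mem (mem_Cn_comm.1 (h.2.2 s hs s2))
      (mem_Cn_comm.1 (h3.2.2 s hs s2)))⟩, .inl ?_, fun s hs k => ?_⟩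
    · calc _ = t * d * t⁻¹ * (t * t * d * (t * t)⁻¹) := by group
        _ = _ := by rw [h5, h4]
    · have : s * (d * (t * d * t⁻¹)) * s⁻¹ = s * d * s⁻¹ * (t * (s * d * s⁻¹) * t⁻¹) := by
        rw [show t * (s * d * s⁻¹) * t⁻¹ = t * s * d * (t * s)⁻¹ by group, comm H ht hs]; group
      exact k.imp (fun k => by rw [this, k]) fun k => by rw [this, k, h4]; group
  obtain ⟨a, ha, h3, -⟩ := eig x (xS H) (d ^ k) ⟨d1, dr, fun s hs s2 => by
    obtain ⟨p, rfl⟩ := (mem_iff H).1 hs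
    have h3 := mem_Cn_comm.1 (pow_mem h1 k)
    have h4 := mem_Cn_comm.1 (pow_mem h2 k)
    rcases (by decide : ∀ p : A4, p + p = 0 → p = 0 ∨ p = (2, 0) ∨ p = (0, 2) ∨ p = (2, 0) + (0, 2)) p
      (e_inj H (by rw [e_add H, s2, e0])) with rfl | rfl | rfl | rfl <;> simp only [e0, ez, ew, e_add H]
    exacts [one_mem _, h3, h4, mul_mem h3 h4]⟩
  obtain ⟨b, hb, h4, h5⟩ := eig y (yS H) a ha
  replace h3 := h5 x (xS H) h3
  have ns : ∀ d, D d → x ∈ Cn d → y ∉ Cn d := fun d h a b => h.1 (H.cs d ⟨r, ro, h.2.1⟩ (mem_Cn_comm.1 a) (mem_Cn_comm.1 b))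
  have all : ∀ s ∈ S, Pm s b := fun s hs => by
    obtain ⟨p, rfl⟩ := (mem_iff H).1 hs
    have m : ∀ s t, Pm s b → Pm t b → Pm (s * t) b := fun s t h h' => by
      have : s * t * b * (s * t)⁻¹ = s * (t * b * t⁻¹) * s⁻¹ := by group
      rcases h' with k | k <;> rcases h with k' | k' <;> simp only [Pm, this, k, k', ← conj_inv, inv_inv, true_or, or_true]
    have w : ∀ s n, Pm s b → Pm (s ^ n) b := fun s n h => by
      induction n with
      | zero => simp [Pm]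
      | succ n ih => exact pow_succ s n ▸ m _ _ ih h
    exact m _ _ (w _ _ h3) (w _ _ h4)
  obtain ⟨s, hs, s2, hc⟩ : ∃ s ∈ S, MH.Inv (s * s) ∧ s ∈ Cn b := by
    rcases h3 with h3 | h3
    · exact ⟨x, xS H, iz H, Cn_of_conj h3⟩
    rcases h4 with h4 | h4
    · exact ⟨y, yS H, ew (x := x) (y := y) ▸ (e_inv H).2 (by decide), Cn_of_conj h4⟩
    refine ⟨x * y, mul_mem (xS H) (yS H), ?_, Cn_of_conj (by rw [show x * y * b * (x * y)⁻¹ = x * (y * b * y⁻¹) * x⁻¹ by group, h4,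
      ← conj_inv, h3, inv_inv])⟩
    rw [show x * y = e x y (1, 0) * e x y (0, 1) by rw [ex, ey], ← e_add H, ← e_add H]
    exact (e_inv H).2 (by decide)
  have key : ∀ p : A4, p + p ≠ 0 → ∃ d, D d ∧ e x y p ∈ Cn d ∧ ∀ s ∈ S, Pm s d := fun p hp => by
    obtain ⟨n, hn, h⟩ := tr H g (mul_mem hs hs) (e_mem H (p + p)) s2 ((e_inv H).2 ⟨hp, by revert p; decide⟩)
    have hd := cj n hn b hb
    obtain ⟨q, hq⟩ := (mem_iff H).1 (Nm_conj hn hs)
    have h6 : q + q = p + p := e_inj H (by rw [← h, e_add H, hq]; group)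
    refine ⟨_, hd, ?_, fun t ht => ?_⟩
    · rw [← sub_add_cancel p q, e_add H]
      exact mul_mem (hd.2.2 _ (e_mem H _) (by rw [← e_add H, sub_add_sub_comm, h6, sub_self, e0])) (hq ▸ conj_mem_Cn.2 hc)
    · have : t * (n * b * n⁻¹) * t⁻¹ = n * (n⁻¹ * t * n * b * (n⁻¹ * t * n)⁻¹) * n⁻¹ := by group
      exact (all _ (Nm_conj' hn ht)).imp (fun k => by rw [this, k]) fun k => by rw [this, k, conj_inv]
  obtain ⟨d1, a1, b1, c1⟩ := key (1, 0) (by decide)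
  obtain ⟨d2, a2, b2, c2⟩ := key (0, 1) (by decide)
  obtain ⟨d3, a3, b3, c3⟩ := key ((1, 0) + (0, 1)) (by decide)
  rw [e_add H] at b3
  rw [ex] at b1 b3
  rw [ey] at b2 b3
  have nv0 : ∀ d, D d → nv d ≠ 0 := fun d h k => nv_eq_zero.1 k _ (iz H) (h.2.2 _ zS z2)
  exact g.tri r x y d1 d2 d3 hr ro a1.2.1 a2.2.1 a3.2.1 a1.1 a2.1 a3.1 (cm _ _ a1 a2) (cm _ _ a1 a3) (cm _ _ a2 a3) (nv0 _ a1) (nv0 _ a2)
    (nv0 _ a3) (conj_eq_of_Cn b1) ((c2 x (xS H)).resolve_left fun k => ns _ a2 (Cn_of_conj k) b2)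
    ((c3 x (xS H)).resolve_left fun k => ns _ a3 (Cn_of_conj k) ((mul_mem_cancel_left (Cn_of_conj k)).1 b3))
    ((c1 y (yS H)).resolve_left fun k => ns _ a1 b1 (Cn_of_conj k)) (conj_eq_of_Cn b2)
    ((c3 y (yS H)).resolve_left fun k => ns _ a3 ((mul_mem_cancel_right (Cn_of_conj k)).1 b3) (Cn_of_conj k))

end Cfsg.Agent.H4.HC
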