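import Cfsg.Agent.MH.Grp

/-!
Groups in which the centraliser of every involution is a Sylow 2-subgroup of `L₃(4)`: arithmetic.
-/

set_option autoImplicit false
set_option synthInstance.maxSize 100000

namespace Cfsg.Agent.H4.L34

open Finset

theorem key : ∀ x < 76, 0 < x → ∀ y < 76, 0 < y → x * y < 76 → ∀ a ∈ [8, 16, 32], a * (x - 1) % 64 = 0 →
    ∀ b ∈ [8, 16, 32], b * (y - 1) % 64 = 0 → ∀ k < 76, x * y * k < 76 →
    ∀ c ∈ [8, 16, 32], ∀ M ∈ [(123 - c + a * (x - 1) + b * (y - 1)) / (x * y * k - c)],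
    M * (x * y * k) = 123 + a * (x - 1) + b * (y - 1) + c * (M - 1) → c * (M - 1) % 64 = 0 → x * y * M % 15 = 0 →
    a * (x - 1) * (y * M) + b * (y - 1) * (x * M) + c * (M - 1) * (x * y) < 51 * (x * y * M) →
    M * (x * y * k) = 315 ∧ ∀ m ∈ [x, y, M], m ∣ 9 ∨ m = 5 := by
  decide +kernel

theorem key3 : ∀ x < 76, x % 2 = 1 → 1 < x → ∀ y < 76, y % 2 = 1 → 1 < y → x.gcd y = 1 → ∀ z < 76, x * y * z < 76 →
    z % 2 = 1 → 1 < z → x.gcd z = 1 → y.gcd z ≠ 1 := by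
  decide +kernel

theorem small (E : Finset ℕ) {e : ℕ} (e0 : 0 < e) (h8 : e < 76) (h : ∀ x ∈ E, x ∣ e ∧ Odd x ∧ 1 < x)
    (h4 : ∀ a ∈ E, ∀ b ∈ E, a ≠ b → a.Coprime b) : ∃ x y, x * y ∣ e ∧ (x = 1 ∨ x ∈ E) ∧ (y = 1 ∨ y ∈ E) ∧
      (∀ m ∈ E, m = x ∨ m = y) ∧ ∀ f : ℕ → ℕ, ∑ m ∈ E, f m = (if x = 1 then 0 else f x) + (if y = 1 then 0 else f y) := by
  have n1 := fun x hx => (h x hx).2.2.ne'
  rcases (by omega : #E = 0 ∨ #E = 1 ∨ #E = 2 ∨ 2 < #E) with k | k | k | k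
  · obtain rfl := card_eq_zero.1 k
    exact ⟨1, 1, by simp⟩
  · obtain ⟨x, rfl⟩ := card_eq_one.1 k
    exact ⟨x, 1, by simpa using (h x (by simp)).1, by simp [n1]⟩
  · obtain ⟨x, y, k', rfl⟩ := card_eq_two.1 k
    exact ⟨x, y, (h4 x (by simp) y (by simp) k').mul_dvd_of_dvd_of_dvd (h x (by simp)).1 (h y (by simp)).1, by simp [n1, k']⟩
  obtain ⟨x, y, z, hx, hy, hz, a, b, c⟩ := two_lt_card_iff.1 k
  have a := h4 x hx y hy a
  have b := h4 x hx z hz b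
  have c := h4 y hy z hz c
  have f := fun x hx => (Nat.le_of_dvd e0 (h x hx).1).trans_lt h8
  have g := fun x hx => Nat.odd_iff.1 (h x hx).2.1
  exact absurd c (key3 x (f x hx) (g x hx) (h x hx).2.2 y (f y hy) (g y hy) (h y hy).2.2 a z (f z hz)
    ((Nat.le_of_dvd e0 ((b.mul_left c).mul_dvd_of_dvd_of_dvd (a.mul_dvd_of_dvd_of_dvd (h x hx).1 (h y hy).1) (h z hz).1)).trans_lt h8)
    (g z hz) (h z hz).2.2 b)

theorem fin3 {x y k M a b c N u v w : ℕ} (x0 : 0 < x) (y0 : 0 < y) (M0 : 0 < M) (h8 : x * y * k < 76) (a1 : a ∈ [8, 16, 32])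
    (b1 : b ∈ [8, 16, 32]) (c1 : c ∈ [8, 16, 32]) (he : N = M * (x * y * k))
    (h1 : N = 123 + (a * (x - 1) + b * (y - 1) + c * (M - 1))) (a2 : 64 ∣ a * (x - 1)) (b2 : 64 ∣ b * (y - 1))
    (c2 : 64 ∣ c * (M - 1)) (h15 : 15 ∣ x * y * M) (a4 : u * x = N * (a * (x - 1))) (b4 : v * y = N * (b * (y - 1)))
    (c4 : w * M = N * (c * (M - 1))) (h2 : u + v + w < 51 * N) : N = 315 ∧ ∀ m ∈ [x, y, M], m ∣ 9 ∨ m = 5 := by
  have k0 : 0 < k := Nat.pos_of_ne_zero fun h => by rw [h] at he; omega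
  have c5 : c ≤ 32 := by simp at c1; omega
  have h16 : M * (x * y * k - c) = 123 - c + a * (x - 1) + b * (y - 1) := by
    rw [Nat.mul_sub, ← he, h1, Nat.mul_sub_one c, mul_comm M]
    have := Nat.le_mul_of_pos_right c M0
    omega
  have k1 : x * y < 76 := (Nat.le_mul_of_pos_right _ k0).trans_lt h8
  rw [he]
  refine key x ((Nat.le_mul_of_pos_right _ y0).trans_lt k1) x0 y ((Nat.le_mul_of_pos_left _ x0).trans_lt k1) y0 k1
    a a1 (Nat.mod_eq_zero_of_dvd a2) b b1 (Nat.mod_eq_zero_of_dvd b2) k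
    ((Nat.le_mul_of_pos_left _ (Nat.mul_pos x0 y0)).trans_lt h8) h8 c c1 M (by
      rw [← h16, Nat.mul_div_cancel _ (Nat.pos_of_ne_zero fun h => by rw [h] at h16; omega)]; simp) (by omega)
    (Nat.mod_eq_zero_of_dvd c2) (Nat.mod_eq_zero_of_dvd h15)
    (lt_of_mul_lt_mul_left (a := N) ?_ N.zero_le)
  calc _ = (u + v + w) * (x * y * M) := by linear_combination (exp := 1) y * M * a4.symm + x * M * b4.symm + x * y * c4.symm
    _ < 51 * N * (x * y * M) := Nat.mul_lt_mul_of_pos_right h2 (by positivity)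
    _ = _ := by ring

theorem arith (D : Finset ℕ) (n r : ℕ → ℕ) (N : ℕ) (h1 : N = 123 + ∑ m ∈ D, n m) (h2 : ∑ m ∈ D, r m < 51 * N)
    (h3 : ∀ m ∈ D, r m * m = N * n m ∧ m ∣ N ∧ Odd m ∧ 1 < m ∧ 64 ∣ n m ∧ ∃ c ∈ [8, 16, 32], n m = c * (m - 1))
    (h4 : ∀ a ∈ D, ∀ b ∈ D, a ≠ b → a.Coprime b) (h5 : ∃ a ∈ D, 3 ∣ a) (h6 : ∃ a ∈ D, 5 ∣ a) :
    N = 315 ∧ ∀ m ∈ D, m ∣ 9 ∨ m = 5 := by
  obtain ⟨M, hM, h7⟩ := D.exists_max_image id (h5.imp fun _ h => h.1)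
  obtain ⟨e, he⟩ := (h3 M hM).2.1
  have h8 : e < 76 := by
    have h8 : N * ∑ m ∈ D, n m ≤ M * ∑ m ∈ D, r m := by
      rw [mul_sum, mul_sum]
      exact sum_le_sum fun m hm => by rw [← (h3 m hm).1, mul_comm]; exact Nat.mul_le_mul_right _ (h7 m hm)
    obtain ⟨a, ha, h9⟩ := h6
    have h10 : 5 ≤ M := (Nat.le_of_dvd (by have := (h3 a ha).2.2.2.1; omega) h9).trans (h7 a ha)
    have h11 : ∑ m ∈ D, n m < 51 * M := lt_of_mul_lt_mul_left (a := N)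
      (h8.trans_lt ((Nat.mul_lt_mul_of_pos_left h2 (by omega)).trans_eq (by ring))) N.zero_le
    exact lt_of_mul_lt_mul_left (a := M) (by omega) M.zero_le
  obtain ⟨x, y, ⟨k, rfl⟩, h11, h12, h13, h14⟩ := small (D.erase M) (Nat.pos_of_ne_zero fun h => by rw [h] at he; omega) h8
    (fun x hx => have := h3 x (mem_of_mem_erase hx)
      ⟨(h4 x (mem_of_mem_erase hx) M hM (ne_of_mem_erase hx)).dvd_of_dvd_mul_left (he ▸ this.2.1), this.2.2.1, this.2.2.2.1⟩)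
    fun a ha b hb => h4 a (mem_of_mem_erase ha) b (mem_of_mem_erase hb)
  have h15 : ∀ x, x = 1 ∨ x ∈ D.erase M → 0 < x ∧ ∃ a ∈ [8, 16, 32], 64 ∣ a * (x - 1) ∧
      (if x = 1 then 0 else n x) = a * (x - 1) ∧ (if x = 1 then 0 else r x) * x = N * (a * (x - 1)) := by
    rintro x (rfl | h)
    · simp
    obtain ⟨h1, -, -, h2, h3, a, h4, h5⟩ := h3 x (mem_of_mem_erase h)
    exact ⟨by omega, a, h4, h5 ▸ h3, by simp [h2.ne', h5], by simp [h2.ne', h1, h5]⟩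
  obtain ⟨x0, a, a1, a2, a3, a4⟩ := h15 x h11
  obtain ⟨y0, b, b1, b2, b3, b4⟩ := h15 y h12
  obtain ⟨c4, -, -, M0, c2, c, c1, c3⟩ := h3 M hM
  rw [← sum_erase_add D _ hM, h14] at h1 h2
  rw [a3, b3, c3] at h1
  rw [c3] at c4 c2
  have h16 : ∀ m ∈ D, m ∈ [x, y, M] := fun m hm => by
    by_cases h : m = M
    · simp [h]
    · rcases h13 m (mem_erase.2 ⟨h, hm⟩) with h | h <;> simp [h]
  have h17 : ∀ p, (∃ a ∈ D, p ∣ a) → p ∣ x * y * M := fun p ⟨m, hm, h⟩ => by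
    have := h16 m hm
    simp only [List.mem_cons, List.not_mem_nil, or_false] at this
    rcases this with rfl | rfl | rfl
    exacts [(h.mul_right _).mul_right _, (h.mul_left _).mul_right _, h.mul_left _]
  exact (fin3 x0 y0 (by omega) h8 a1 b1 c1 he h1 a2 b2 c2 (Nat.Coprime.mul_dvd_of_dvd_of_dvd (m := 3) (n := 5) rfl
    (h17 3 h5) (h17 5 h6)) a4 b4 c4 h2).imp_right fun h m hm => h m (h16 m hm)

end Cfsg.Agent.H4.L34
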