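import Cfsg.Agent.H4.L34a

/-!
Groups in which the centraliser of every involution is a Sylow 2-subgroup of `L₃(4)`: the order.
-/

set_option autoImplicit false

namespace Cfsg.Agent.H4.L34

open Subgroup MH

variable {T : Type*} [Group T] [Finite T]

/-- the local hypotheses -/
structure Cit (t : T) : Prop where
  iv : MH.Inv t
  cj : ∀ s, MH.Inv s → ∃ g, g * s * g⁻¹ = t
  card : Nat.card (Cn t) = 64
  four : ∀ y ∈ Cn t, y ^ 4 = 1
  c122 : {p : T × T | MH.Inv p.1 ∧ MH.Inv p.2 ∧ (p.1 * p.2 = t ∨ (p.1 * p.2) ^ 2 = t)}.ncard = 122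
  c12 : {y : T | y ^ 2 = t}.ncard = 12
  h8 : ∀ H ≤ Cn t, (∀ y ∈ H, MH.Inv y → y = t) → Nat.card H ≤ 8

/-- elements of odd order inverted by `u` -/
def J (u : T) : Set T := {x | x ^ 4 ≠ 1 ∧ u * x * u = x⁻¹}

omit [Finite T] in
theorem inv_conj {s g : T} : MH.Inv (g * s * g⁻¹) ↔ MH.Inv s := ⟨fun h => by simpa [mul_assoc] using h.conj g⁻¹, fun h => h.conj g⟩

omit [Finite T] in
theorem cancel {s : T} (h : MH.Inv s) (a : T) : s * (s * a) = a := by rw [← mul_assoc, h.2, one_mul]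

omit [Finite T] in
theorem J_conj {u x g : T} : g * x * g⁻¹ ∈ J (g * u * g⁻¹) ↔ x ∈ J u := by
  rw [J, J, Set.mem_ofPred_eq, Set.mem_ofPred_eq, conj_pow, show g * u * g⁻¹ * (g * x * g⁻¹) * (g * u * g⁻¹) = g * (u * x * u) * g⁻¹ by group,
    conj_inv]
  simp

namespace Cit

variable {t : T} (h : Cit t)
include h

omit [Finite T] in
theorem four' {s y : T} (hs : MH.Inv s) (hy : y ∈ Cn s) : y ^ 4 = 1 := by
  obtain ⟨g, rfl⟩ := h.cj s hs
  simpa using h.four _ (conj_mem_Cn.2 hy)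

omit [Finite T] in
theorem eq_one {x y : T} (hx : x ^ 4 ≠ 1) (hy : y ∈ Cn x) (h4 : y ^ 4 = 1) : y = 1 := by
  have key : ∀ y ∈ Cn x, y * y = 1 → y = 1 := fun y hy e => of_not_not fun h1 => hx (h.four' ⟨h1, e⟩ (mem_Cn_comm.1 hy))
  exact key y hy (key _ (mul_mem hy hy) (by rw [← h4]; simp [pow_succ, mul_assoc]))

theorem inv_all {u x : T} (hu : MH.Inv u) (hx : x ∈ J u) : Odd (Nat.card (Cn x)) ∧ ∀ y ∈ Cn x, u * y * u = y⁻¹ := by
  let φ : Cn x →* Cn x := ((MulAut.conj u).toMonoidHom.comp (Cn x).subtype).codRestrict _ fun y => by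
    have := conj_mem_Cn (g := u) |>.2 (show y.1 ∈ Cn x⁻¹ from mem_Cn_comm.1 (inv_mem (mem_Cn_comm.1 y.2)))
    simpa [← hx.2, hu.inv_eq, mul_assoc, cancel hu, hu.2] using this
  have h1 : MonoidHom.FixedPointFree φ := fun y e => Subtype.ext (h.eq_one hx.1 y.2
    (h.four' hu (mem_Cn.2 (mul_inv_eq_iff_eq_mul.1 (congrArg Subtype.val e)))))
  have h2 : Function.Involutive φ := fun y => Subtype.ext (by
    change u * (u * y * u⁻¹) * u⁻¹ = y
    rw [hu.inv_eq, show u * (u * y * u) * u = u * u * y * (u * u) by group, hu.2, one_mul, mul_one])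
  exact ⟨h1.odd_card_of_involutive h2, fun y hy => (congrArg _ hu.inv_eq).symm.trans (congrArg Subtype.val
    (congrFun (h1.coe_eq_inv_of_involutive h2) ⟨y, hy⟩))⟩

theorem mem_J {u x y : T} (hu : MH.Inv u) (hx : x ∈ J u) (hy : y ∈ Cn x) (h1 : y ≠ 1) : y ∈ J u :=
  ⟨fun e => h1 (h.eq_one hx.1 hy e), (h.inv_all hu hx).2 y hy⟩

theorem ca {u x : T} (hu : MH.Inv u) (hx : x ∈ J u) : CA (Cn x) := by
  have key : ∀ x ∈ J u, ∀ y ∈ Cn x, Cn x ≤ Cn y := fun x hx y hy w hw => mem_Cn.2 (inv_injective (by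
    have h1 := (h.inv_all hu hx).2
    rw [← h1 _ (mul_mem hy hw), mul_inv_rev, ← h1 y hy, ← h1 w hw,
      show u * y * u * (u * w * u) = u * y * (u * u) * w * u by group, hu.2]
    group))
  exact fun y hy h1 => le_antisymm (key y (h.mem_J hu hx hy h1) x (mem_Cn_comm.1 hy)) (key x hx y hy)

theorem conj_into {x y : T} (hx : x ∈ J t) (hy : y ∈ J t) (hc : ¬ (Nat.card (Cn x)).Coprime (Nat.card (Cn y))) :
    ∃ c ∈ Cn t, c * y * c⁻¹ ∈ Cn x := by
  obtain ⟨r, hr, h1, h2⟩ := Nat.Prime.not_coprime_iff_dvd.1 hc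
  obtain ⟨b, hb, e⟩ := exists_mem_orderOf hr h2
  have b1 : b ≠ 1 := fun e' => hr.one_lt.ne (by rw [← e, e', orderOf_one])
  obtain ⟨g, hg⟩ := (h.ca h.iv hx).exists_conj hr h1 (e ▸ pow_orderOf_eq_one b)
  have h3 := h.ca h.iv hx _ hg (by simpa using b1)
  have h4 := (h.mem_J h.iv hx hg (by simpa using b1)).2
  have h5 := (J_conj (g := g).2 (h.mem_J h.iv hy hb b1)).2
  have h6 : g * t * g⁻¹ * t ∈ Cn x := h3 ▸ mem_Cn.2 (by
    generalize g * b * g⁻¹ = w at h4 h5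
    have := (h.iv.conj g).2
    generalize g * t * g⁻¹ = s at h5 this
    calc w * (s * t) = s * s * w * s * t := by rw [this]; group
      _ = s * (t * w * t) * t := by rw [h4, ← h5]; group
      _ = s * t * w * (t * t) := by group
      _ = _ := by rw [h.iv.2, mul_one])
  obtain ⟨⟨k, hk⟩, h7⟩ := h.inv_all h.iv hx
  have h8 : (g * t * g⁻¹ * t) ^ (2 * k + 1) = 1 := hk ▸ orderOf_dvd_iff_pow_eq_one.1 (orderOf_dvd_card_of_mem h6)
  generalize hw : g * t * g⁻¹ * t = w at h6 h8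
  refine ⟨w ^ k * g, mem_Cn.2 ?_, ?_⟩
  · have h9 : g * t = w * t * g := by rw [← hw, mul_assoc _ t t, h.iv.2]; group
    have h10 := h7 _ (pow_mem h6 k)
    calc t * (w ^ k * g) = t * w ^ k * t * (t * t)⁻¹ * t * g := by group
      _ = w ^ (2 * k + 1) * (w ^ k)⁻¹ * t * g := by rw [h10, h.iv.2, h8]; group
      _ = w ^ k * (w * t * g) := by group
      _ = _ := by rw [← h9, mul_assoc]
  · have : g * y * g⁻¹ ∈ Cn x := h3 ▸ conj_mem_Cn.2 (mem_Cn_comm.1 hb)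
    simpa [mul_assoc] using mul_mem (mul_mem (pow_mem h6 k) this) (inv_mem (pow_mem h6 k))

omit [Finite T] in
theorem J_S {c x : T} (hc : c ∈ Cn t) : c * x * c⁻¹ ∈ J t ↔ x ∈ J t := by
  rw [← J_conj (g := c) (u := t) (x := x), ← mem_Cn.1 hc, mul_inv_cancel_right]

theorem one_lt {u x : T} (hx : x ∈ J u) : 1 < Nat.card (Cn x) :=
  (one_lt_card_iff_ne_bot _).2 fun e => hx.1 (by rw [mem_bot.1 (e ▸ self_mem_Cn x : x ∈ ⊥), one_pow])

theorem cls {x : T} (hx : x ∈ J t) : 64 ∣ {y ∈ J t | Nat.card (Cn y) = Nat.card (Cn x)}.ncard ∧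
    ∃ c ∈ [8, 16, 32], {y ∈ J t | Nat.card (Cn y) = Nat.card (Cn x)}.ncard = c * (Nat.card (Cn x) - 1) := by
  have hM := h.ca h.iv hx
  have ne : ∀ y ∈ J t, y ≠ 1 := fun y hy e => hy.1 (by rw [e, one_pow])
  constructor
  · obtain ⟨k, hk⟩ := card_dvd_of_conj_free (Cn t) ⊥ bot_le {y ∈ J t | Nat.card (Cn y) = Nat.card (Cn x)}
      (fun g hg y hy => ⟨(h.J_S hg).2 hy.1, (card_Cn_conj g y).trans hy.2⟩) fun g hg y hy =>
        ⟨fun e => h.eq_one hy.1.1 e (h.four g hg), fun e => mem_bot.1 e ▸ one_mem _⟩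
    exact ⟨k, by rw [← h.card, mul_comm, ← hk, card_bot, one_mul]⟩
  have h1 := ncard_double (fun y c : T => c * y * c⁻¹ ∈ Cn x) {y ∈ J t | Nat.card (Cn y) = Nat.card (Cn x)} (Cn t)
    (m := Nat.card ↥(Cn t ⊓ Nm (Cn x))) (n := Nat.card (Cn x) - 1) (fun y hy => by
      obtain ⟨c, hc, h1⟩ := h.conj_into hx hy.1 (by rw [hy.2, Nat.coprime_self]; exact (h.one_lt hx).ne')
      rw [← ncard_coset _ c]
      congr 1
      ext k
      refine ⟨fun hk => ⟨(Cn t).mul_mem hk.1 (inv_mem hc), hM.mem_Nm h1 (by simpa using ne y hy.1) (by simpa [mul_assoc] using hk.2)⟩,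
        fun hk => ⟨((Cn t).mul_mem_cancel_right (inv_mem hc)).1 hk.1, by simpa [mul_assoc] using Nm_conj hk.2 h1⟩⟩)
    (fun c hc => by
      refine Eq.trans ?_ ((ncard_conj c _).trans ((Set.ncard_sdiff_singleton_of_mem (one_mem (Cn x))).trans
        (congrArg (· - 1) (ncard_coe _))))
      congr 1
      ext y
      refine ⟨fun hy => ⟨hy.2, by simpa using ne y hy.1.1⟩, fun hy => ⟨⟨(h.J_S hc).1 (h.mem_J h.iv hx hy.1 hy.2), ?_⟩, hy.1⟩⟩
      rw [← card_Cn_conj c, hM _ hy.1 hy.2])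
  have h2 := (h.inv_all h.iv hx).2
  have h3 : Nat.card ↥(Cn t ⊓ Nm (Cn x)) ≤ 8 := h.h8 _ inf_le_left fun s hs i => by
    have h3 := h.inv_all i (x := x) ⟨hx.1, of_not_not fun e => ?_⟩
    · refine mul_eq_one_iff_eq_inv.1 (h.eq_one hx.1 (mem_Cn.2 ?_) (h.four _ (mul_mem hs.1 (self_mem_Cn t)))) |>.trans h.iv.inv_eq
      calc x * (s * t) = s * s * x * s * t := by rw [i.2]; group
        _ = s * (t * x * t) * t := by rw [hx.2, ← h3.2 x (self_mem_Cn x)]; group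
        _ = s * t * x * (t * t) := by group
        _ = _ := by rw [h.iv.2, mul_one]
    have h4 := Nm_conj hs.2 (self_mem_Cn x)
    rw [i.inv_eq] at h4
    refine e (eq_inv_of_mul_eq_one_right (h.eq_one hx.1 (mul_mem (self_mem_Cn x) h4) (h.four' i (mem_Cn.2 ?_))))
    conv_rhs => rw [mem_Cn.1 h4]
    simp [mul_assoc]
  have h4 : 2 ∣ Nat.card ↥(Cn t ⊓ Nm (Cn x)) := h.iv.orderOf ▸ orderOf_dvd_card_of_mem
    ⟨self_mem_Cn t, mem_Nm fun y hy => by rw [h.iv.inv_eq, h2 y hy]; exact inv_mem hy⟩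
  have h5 : Nat.card ↥(Cn t ⊓ Nm (Cn x)) ∣ 64 := h.card ▸ card_dvd_of_le inf_le_left
  rw [ncard_coe, h.card] at h1
  generalize Nat.card ↥(Cn t ⊓ Nm (Cn x)) = k at h1 h3 h4 h5
  interval_cases k <;> simp at h4 h5 ⊢ <;> omega

theorem card_eq : Nat.card T = {s : T | MH.Inv s}.ncard * 64 := by
  rw [← card_class t, h.card]
  congr 2
  exact Set.ext fun s => ⟨fun ⟨g, e⟩ => inv_conj.1 (e ▸ h.iv), h.cj s⟩

omit h in
theorem pair_conj (P : T → T → T → Prop) (hP : ∀ g a b c, P (g * a * g⁻¹) (g * b * g⁻¹) (g * c * g⁻¹) ↔ P a b c) (g c : T) :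
    {p : T × T | P p.1 p.2 (g * c * g⁻¹)}.ncard = {p : T × T | P p.1 p.2 c}.ncard :=
  (Set.ncard_congr (fun p _ => (g * p.1 * g⁻¹, g * p.2 * g⁻¹)) (fun _ hp => (hP ..).2 hp)
    (fun a b _ _ e => by simpa [Prod.ext_iff] using e)
    fun b hb => ⟨(g⁻¹ * b.1 * g, g⁻¹ * b.2 * g), (hP g ..).1 (by simpa [mul_assoc] using hb), by simp [mul_assoc]⟩).symm

theorem pos : 0 < {s : T | MH.Inv s}.ncard := (Set.ncard_pos (Set.toFinite _)).2 ⟨t, h.iv⟩

theorem count : {s : T | MH.Inv s}.ncard = 123 + (J t).ncard := by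
  have e : ∀ g a b : T, g * a * g⁻¹ * (g * b * g⁻¹) = g * (a * b) * g⁻¹ := fun g a b => by group
  have h1 := ncard_double (α := T × T) (fun u p => p.2 = u) {s | MH.Inv s}
    {p | MH.Inv p.1 ∧ MH.Inv p.2 ∧ p.1 ≠ p.2 ∧ (p.1 * p.2) ^ 4 = 1} (n := 1)
    (m := {s | MH.Inv s ∧ s ≠ t ∧ (s * t) ^ 4 = 1}.ncard) (fun u hu => by
      obtain ⟨g, hg⟩ := h.cj u hu
      refine (pair_conj (fun a b c => (MH.Inv a ∧ MH.Inv b ∧ a ≠ b ∧ (a * b) ^ 4 = 1) ∧ b = c)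
        (fun g a b c => by simp [inv_conj, e, conj_pow]) g u).symm.trans (hg.symm ▸ ?_)
      exact Set.ncard_congr (fun p _ => p.1) (fun p hp => ⟨hp.1.1, hp.2 ▸ hp.1.2.2⟩)
        (fun a b ha hb e => Prod.ext e (ha.2.trans hb.2.symm)) fun s hs => ⟨(s, t), ⟨⟨hs.1, h.iv, hs.2⟩, rfl⟩, rfl⟩)
    fun p hp => Set.ncard_eq_one.2 ⟨p.2, Set.ext fun u => ⟨fun h => h.2.symm, by rintro rfl; exact ⟨hp.2.1, rfl⟩⟩⟩
  have h2 := ncard_double (α := T × T) (fun z p => p.1 * p.2 = z ∨ (p.1 * p.2) ^ 2 = z) {s | MH.Inv s}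
    {p | MH.Inv p.1 ∧ MH.Inv p.2 ∧ p.1 ≠ p.2 ∧ (p.1 * p.2) ^ 4 = 1} (n := 1) (m := 122) (fun z hz => by
      obtain ⟨g, hg⟩ := h.cj z hz
      rw [← h.c122, ← hg, pair_conj (fun a b c => MH.Inv a ∧ MH.Inv b ∧ (a * b = c ∨ (a * b) ^ 2 = c))
        fun g a b c => by simp [inv_conj, e, conj_pow]]
      refine congrArg _ (Set.ext fun p => ⟨fun hp => ⟨hp.1.1, hp.1.2.1, hp.2⟩, fun hp => ⟨⟨hp.1, hp.2.1, fun e => hz.1 ?_, ?_⟩, hp.2.2⟩⟩)
      · simpa [e, hp.2.1.2, eq_comm] using hp.2.2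
      · rcases hp.2.2 with e | e
        · rw [e, show 4 = 2 * 2 from rfl, pow_mul, sq z, hz.2, one_pow]
        · rw [show 4 = 2 * 2 from rfl, pow_mul, e, sq, hz.2])
    fun p hp => by
      have h3 : p.1 * p.2 ≠ 1 := fun e => hp.2.2.1 ((eq_inv_of_mul_eq_one_left e).trans hp.2.1.inv_eq)
      have h4 := hp.2.2.2
      generalize p.1 * p.2 = w at h3 h4
      by_cases h5 : w ^ 2 = 1
      · exact Set.ncard_eq_one.2 ⟨w, Set.ext fun z => ⟨fun hz => (hz.2.resolve_right fun e => hz.1.1 (e.symm.trans h5)).symm,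
          by rintro rfl; exact ⟨⟨h3, sq z ▸ h5⟩, .inl rfl⟩⟩⟩
      · exact Set.ncard_eq_one.2 ⟨w ^ 2, Set.ext fun z => ⟨fun hz => (hz.2.resolve_left fun e => h5 (by rw [e, sq, hz.1.2])).symm,
          by rintro rfl; exact ⟨⟨h5, by rw [← pow_add, h4]⟩, .inr rfl⟩⟩⟩
  have h3 := Nat.eq_of_mul_eq_mul_left h.pos (h1.trans h2.symm)
  have h4 : {s | MH.Inv s ∧ (s * t) ^ 4 ≠ 1}.ncard = (J t).ncard := Set.ncard_congr (fun s _ => s * t)
    (fun s hs => ⟨hs.2, by simp [mul_assoc, h.iv.2, h.iv.inv_eq, hs.1.inv_eq]⟩) (fun a b _ _ e => mul_right_cancel e)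
    fun x hx => ⟨x * t, ⟨⟨fun e => hx.1 (by rw [eq_inv_of_mul_eq_one_left e, inv_pow, h.four t (self_mem_Cn t), inv_one]),
      by rw [mul_assoc, ← mul_assoc t, hx.2, mul_inv_cancel]⟩, by simpa [mul_assoc, h.iv.2] using hx.1⟩, by simp [mul_assoc, h.iv.2]⟩
  rw [← h4, show 123 = 122 + 1 from rfl, ← h3, ← Set.ncard_insert_of_notMem (a := t) (by simp), ← Set.ncard_union_eq
    (Set.disjoint_left.2 (by rintro s (rfl | hs) h'; exacts [h'.2 (by rw [h.iv.2, one_pow]), h'.2 hs.2.2]))]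
  refine congrArg _ (Set.ext fun s => ⟨fun hs => ?_, ?_⟩)
  · by_cases e : (s * t) ^ 4 = 1
    · exact .inl (or_iff_not_imp_left.2 fun e' => ⟨hs, e', e⟩)
    · exact .inr ⟨hs, e⟩
  · rintro ((rfl | hs) | hs)
    exacts [h.iv, hs.1, hs.1]

/-- real elements of odd order with centraliser of order `m` -/
def R (T : Type*) [Group T] (m : ℕ) : Set T := {x | Nat.card (Cn x) = m ∧ ∃ u, MH.Inv u ∧ x ∈ J u}

theorem real (m : ℕ) : (R T m).ncard * m = {s : T | MH.Inv s}.ncard * {y ∈ J t | Nat.card (Cn y) = m}.ncard := by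
  refine ncard_double (fun x u => x ∈ J u) _ _ ?_ fun u hu => ?_
  · rintro x ⟨rfl, u, hu, hx⟩
    rw [← ncard_coset _ u, hu.inv_eq]
    refine congrArg _ (Set.ext fun v => ⟨fun hv => mem_Cn.2 ?_, fun hv => ?_⟩)
    · calc x * (v * u) = v * (v * x * v) * u := by simp [mul_assoc, cancel hv.1]
        _ = _ := by rw [hv.2.2, ← hx.2]; simp [mul_assoc, hu.2]
    have h1 := (h.inv_all hu hx).2 _ hv
    have h2 : v * v = 1 := by
      simpa [mul_assoc, hu.inv_eq, hu.2, eq_inv_iff_mul_eq_one] using h1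
    have h3 : v * x * v = x⁻¹ := by
      calc v * x * v = v * (x * (v * u)) * u := by simp [mul_assoc, hu.2]
        _ = v * v * (u * x * u) := by rw [mem_Cn.1 hv]; group
        _ = _ := by rw [h2, hx.2, one_mul]
    refine ⟨⟨fun e => hx.1 ?_, h2⟩, hx.1, h3⟩
    rw [e, one_mul, mul_one, eq_inv_iff_mul_eq_one] at h3
    rw [show 4 = 2 * 2 from rfl, pow_mul, sq x, h3, one_pow]
  · obtain ⟨g, rfl⟩ := h.cj u hu
    refine Eq.trans ?_ (ncard_conj g _)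
    refine congrArg _ (Set.ext fun x => ?_)
    simp only [Set.mem_ofPred_eq, J_conj, card_Cn_conj]
    exact ⟨fun hx => ⟨hx.2, hx.1.1⟩, fun hx => ⟨⟨hx.2, u, hu, hx.1⟩, hx.1⟩⟩

theorem bound : {x : T | x ^ 4 ≠ 1}.ncard < 51 * {s : T | MH.Inv s}.ncard := by
  have h1 := ncard_double (fun u y : T => y ^ 2 = u) {s | MH.Inv s} {y | MH.Inv (y ^ 2)} (m := 12) (n := 1) (fun u hu => by
      obtain ⟨g, hg⟩ := h.cj u hu
      rw [← h.c12, ← ncard_conj g {y | y ^ 2 = t}]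
      refine congrArg _ (Set.ext fun y => ?_)
      simp only [Set.mem_ofPred_eq, conj_pow, ← hg, mul_left_inj, mul_right_inj]
      exact ⟨And.right, fun e => ⟨e ▸ hu, e⟩⟩)
    fun y hy => Set.ncard_eq_one.2 ⟨y ^ 2, Set.ext fun u => ⟨fun h => h.2.symm, by rintro rfl; exact ⟨hy, rfl⟩⟩⟩
  have h2 := Set.ncard_add_ncard_compl {x : T | x ^ 4 ≠ 1}
  have h3 := Set.ncard_le_ncard (s := insert 1 ({s : T | MH.Inv s} ∪ {y | MH.Inv (y ^ 2)})) (t := {x : T | x ^ 4 ≠ 1}ᶜ) (by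
    rintro y (rfl | hy | hy)
    · simp
    · exact fun e => e (by rw [show 4 = 2 * 2 from rfl, pow_mul, sq y, hy.2, one_pow])
    · simpa [← pow_add] using hy.2)
  rw [Set.ncard_insert_of_notMem (by simp [MH.Inv]), Set.ncard_union_eq
    (Set.disjoint_left.2 fun y h1 h2 => h2.1 ((sq y).trans h1.2))] at h3
  have := h.card_eq
  omega

theorem main (h3 : ∃ u x : T, MH.Inv u ∧ u * x * u = x⁻¹ ∧ orderOf x = 3)
    (h5 : ∃ u x : T, MH.Inv u ∧ u * x * u = x⁻¹ ∧ orderOf x = 5) :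
    Nat.card T = 20160 ∧ ∀ s u : T, MH.Inv s → MH.Inv u → (s * u) ^ 4 = 1 ∨ (s * u) ^ 9 = 1 ∨ (s * u) ^ 5 = 1 := by
  classical
  have := Fintype.ofFinite T
  let D := (J t).toFinset.image fun x => Nat.card (Cn x)
  have hD : ∀ u x, MH.Inv u → x ∈ J u → Nat.card (Cn x) ∈ D := fun u x hu hx => by
    obtain ⟨g, hg⟩ := h.cj u hu
    exact Finset.mem_image.2 ⟨_, Set.mem_toFinset.2 (hg ▸ J_conj.2 hx), card_Cn_conj g x⟩
  have hp : ∀ p, ¬ p ∣ 4 → (∃ u x : T, MH.Inv u ∧ u * x * u = x⁻¹ ∧ orderOf x = p) → ∃ a ∈ D, p ∣ a :=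
    fun p hp ⟨u, x, hu, h1, h2⟩ => ⟨_, hD u x hu ⟨fun e => hp (h2 ▸ orderOf_dvd_of_pow_eq_one e), h1⟩,
      h2 ▸ orderOf_dvd_card_of_mem (self_mem_Cn x)⟩
  obtain ⟨h1, h2⟩ := arith D (fun m => {y ∈ J t | Nat.card (Cn y) = m}.ncard) (fun m => (R T m).ncard) _
    (h.count.trans (by
      rw [Set.ncard_eq_toFinset_card', Finset.card_eq_sum_card_image fun x => Nat.card (Cn x)]
      exact congrArg _ (Finset.sum_congr rfl fun m _ => by rw [Set.ncard_eq_toFinset_card']; congr 1; ext; simp)))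
    (lt_of_le_of_lt (by
      simp only [Set.ncard_eq_toFinset_card']
      rw [← Finset.card_biUnion fun a _ b _ e => by
        simpa using Set.disjoint_left.2 fun x ha hb => e (ha.1.symm.trans hb.1)]
      exact Finset.card_le_card fun x hx => by
        simp only [Finset.mem_biUnion, Set.mem_toFinset] at hx ⊢
        obtain ⟨m, -, -, u, -, hx⟩ := hx
        exact hx.1) h.bound)
    (fun m hm => by
      obtain ⟨x, hx, rfl⟩ := Finset.mem_image.1 hm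
      rw [Set.mem_toFinset] at hx
      have h1 := (h.inv_all h.iv hx).1
      exact ⟨h.real _, (Nat.Coprime.pow_right 6 (Nat.coprime_two_right.2 h1)).dvd_of_dvd_mul_right
        (h.card_eq ▸ card_subgroup_dvd_card _), h1, h.one_lt hx, h.cls hx⟩)
    (fun a ha b hb e => of_not_not fun hc => e (by
      obtain ⟨x, hx, rfl⟩ := Finset.mem_image.1 ha
      obtain ⟨y, hy, rfl⟩ := Finset.mem_image.1 hb
      rw [Set.mem_toFinset] at hx hy
      obtain ⟨c, -, h1⟩ := h.conj_into hx hy hc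
      rw [← card_Cn_conj c y, h.ca h.iv hx _ h1 (by simpa using fun e => hy.1 (by rw [e, one_pow]))]))
    (hp 3 (by decide) h3) (hp 5 (by decide) h5)
  refine ⟨by rw [h.card_eq, h1], fun s u hs hu => or_iff_not_imp_left.2 fun e => ?_⟩
  have h4 := orderOf_dvd_card_of_mem (self_mem_Cn (s * u))
  exact (h2 _ (hD u _ hu ⟨e, by simp [mul_assoc, hu.2, hu.inv_eq, hs.inv_eq]⟩)).imp
    (fun h' => orderOf_dvd_iff_pow_eq_one.1 (h4.trans h')) fun h' => orderOf_dvd_iff_pow_eq_one.1 (h4.trans h'.dvd)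

end Cit

end Cfsg.Agent.H4.L34
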