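import Cfsg.Agent.H4.L34b
import Cfsg.Agent.O6.Def

/-!
Signed permutation matrices of degree six and the centraliser of a bireflection.
-/

set_option autoImplicit false
set_option synthInstance.maxSize 100000
set_option maxRecDepth 100000

namespace Cfsg.Agent.H4.L34

open Matrix Subgroup MH O6

abbrev Z6 := Matrix (Fin 6) (Fin 6) ℤ

/-- signed permutation matrices -/
def sp (p : Fin 6 → Fin 6) (e : Fin 6 → Bool) : Z6 := of fun i j => if i = p j then (if e j then -1 else 1) else 0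

theorem sp_mul (p q : Fin 6 → Fin 6) (e d : Fin 6 → Bool) : sp p e * sp q d = sp (p ∘ q) fun j => xor (e (q j)) (d j) := by
  ext i j
  simp only [sp, mul_apply, of_apply, mul_ite, mul_zero, Finset.sum_ite_eq', Finset.mem_univ, if_true, Function.comp]
  by_cases h1 : e (q j) <;> by_cases h2 : d j <;> simp [h1, h2, apply_ite Neg.neg]

theorem sp_neg (p : Fin 6 → Fin 6) (e : Fin 6 → Bool) : -sp p e = sp p fun j => !e j := by
  ext i j
  simp only [sp, neg_apply, of_apply]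
  by_cases h1 : e j <;> simp [h1, apply_ite Neg.neg]

/-- permutations of the codes -/
def P (c : Fin 64) (j : Fin 6) : Fin 6 := Fin.ofNat 6 (j.1 ^^^ (0x6530 >>> (4 * (c.1 / 16) + j.1 / 2)) % 2)

/-- signs of the codes -/
def Eg (c : Fin 64) (j : Fin 6) : Bool := Nat.testBit (2 * (c.1 % 16) + (0x6996 >>> (c.1 % 16)) % 2) j

/-- the coded matrices -/
def Sz (c : Fin 64) : Z6 := sp (P c) (Eg c)

/-- product of codes -/
def mu (a b : Fin 64) : Fin 64 :=
  (fun s : Fin 6 → ℕ => Fin.ofNat 64 (16 * (a.1 / 16 ^^^ b.1 / 16) + (s 1 + 2 * s 2 + 4 * s 3 + 8 * s 4)))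
    fun j => (xor (xor (Eg a (P b j)) (Eg b j)) (Eg a (P b 5))).toNat

theorem mu_spec : ∀ a b, (∀ j, P a (P b j) = P (mu a b) j) ∧ ∀ j, xor (Eg a (P b j)) (Eg b j) = xor (Eg a (P b 5)) (Eg (mu a b) j) := by
  decide +kernel

theorem code_inj : ∀ a b, (∀ j, P a j = P b j) → ((∀ j, Eg a j = Eg b j) ∨ ∀ j, Eg a j = !Eg b j) → a = b := by
  decide +kernel

variable {Γ T K : Type*} [Group Γ] [Group T] [Field K]

/-- equality up to sign -/
def Sg {R : Type*} [Neg R] (A B : R) : Prop := A = B ∨ A = -B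

theorem Sg.rfl {R : Type*} [Neg R] {A : R} : Sg A A := .inl (Eq.refl _)

theorem Sg.symm {R : Type*} [InvolutiveNeg R] {A B : R} (h : Sg A B) : Sg B A := h.imp Eq.symm fun e => by rw [e, neg_neg]

theorem Sg.trans {R : Type*} [InvolutiveNeg R] {A B C : R} (h : Sg A B) (h' : Sg B C) : Sg A C := by
  rcases h with rfl | rfl <;> rcases h' with rfl | rfl <;> simp [Sg]

theorem Sg.mul {R : Type*} [Ring R] {A B C D : R} (h : Sg A B) (h' : Sg C D) : Sg (A * C) (B * D) := by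
  rcases h with rfl | rfl <;> rcases h' with rfl | rfl <;> simp [Sg]

theorem Sg.map {R S : Type*} [Ring R] [Ring S] (f : R →+* S) {A B : R} (h : Sg A B) : Sg (f A) (f B) :=
  h.imp (congrArg f) fun e => by rw [e, map_neg]

theorem Sz_mul (a b : Fin 64) : Sg (Sz a * Sz b) (Sz (mu a b)) := by
  obtain ⟨h1, h2⟩ := mu_spec a b
  rw [Sz, Sz, Sz, sp_mul, Sg, sp_neg, show P a ∘ P b = P (mu a b) from funext h1, funext h2]
  cases Eg a (P b 5) <;> simp

variable (K) in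
/-- integer matrices -/
def cz : Z6 →+* M6 K := (Int.castRingHom K).mapMatrix

theorem cz_apply (M : Z6) (i j : Fin 6) : cz K M i j = M i j := rfl

theorem sp_inj (h2 : (2 : K) ≠ 0) {p q : Fin 6 → Fin 6} {e d : Fin 6 → Bool} (h : cz K (sp p e) = cz K (sp q d)) :
    (∀ j, p j = q j) ∧ ∀ j, e j = d j := forall_and.1 fun j => by
  have := congrFun (congrFun h (p j)) j
  have h3 : (1 : K) ≠ -1 := fun e => h2 (by linear_combination e)
  simp only [cz_apply, sp, of_apply, if_true] at this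
  cases he : e j <;> cases hd : d j <;> split_ifs at this <;> simp_all [h3.symm]

theorem sp_sg (h2 : (2 : K) ≠ 0) {p q : Fin 6 → Fin 6} {e d : Fin 6 → Bool} (h : Sg (cz K (sp p e)) (cz K (sp q d))) :
    (∀ j, p j = q j) ∧ ((∀ j, e j = d j) ∨ ∀ j, e j = !d j) :=
  h.elim (fun h => (sp_inj h2 h).imp_right .inl) fun h => (sp_inj h2 (by rwa [← map_neg, sp_neg] at h)).imp_right .inr

/-- the matrix `M` represents `t` -/
def Rp (ψ : Γ →* M6 K) (π : Γ →* T) (M : M6 K) (t : T) : Prop := ∃ x, π x = t ∧ Sg (ψ x) M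

/-- the hypotheses on the matrix model -/
structure A (ψ : Γ →* M6 K) (π : Γ →* T) (z : Γ) : Prop where
  two : (2 : K) ≠ 0
  surj : Function.Surjective π
  ker : ∀ x y, π x = π y ↔ Sg (ψ x) (ψ y)
  hz : ψ z = cz K (Sz 1)
  det : ∀ x, (ψ x).det = 1
  rg : ∀ c, ∃ x, Sg (ψ x) (cz K (Sz c))
  cen : ∀ x, ψ x * ψ z = ψ z * ψ x → ∃ c, Sg (ψ x) (cz K (Sz c))

variable {ψ : Γ →* M6 K} {π : Γ →* T} {z : Γ} {M N : M6 K} {t u : T}

theorem Rp.mul : Rp ψ π M t → Rp ψ π N u → Rp ψ π (M * N) (t * u)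
  | ⟨x, h1, h2⟩, ⟨y, h3, h4⟩ => ⟨x * y, by rw [map_mul, h1, h3], map_mul ψ x y ▸ h2.mul h4⟩

theorem Rp.one : Rp ψ π 1 1 := ⟨1, map_one _, map_one ψ ▸ Sg.rfl⟩

theorem Rp.pow (h : Rp ψ π M t) (n : ℕ) : Rp ψ π (M ^ n) (t ^ n) := by
  induction n with
  | zero => simpa using Rp.one
  | succ n ih => simpa only [pow_succ] using ih.mul h

theorem Rp.sg : Rp ψ π M t → Sg M N → Rp ψ π N t
  | ⟨x, h1, h2⟩, h => ⟨x, h1, h2.trans h⟩

namespace A

variable (h : A ψ π z)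
include h

theorem eq_iff : Rp ψ π M t → Rp ψ π N u → (t = u ↔ Sg M N)
  | ⟨x, h1, h2⟩, ⟨y, h3, h4⟩ => by
    rw [← h1, ← h3, h.ker]
    exact ⟨fun h => h2.symm.trans (h.trans h4), fun h => h2.trans (h.trans h4.symm)⟩

/-- the elements with given code -/
noncomputable def β (c : Fin 64) : T := π (h.rg c).choose

theorem rp (c : Fin 64) : Rp ψ π (cz K (Sz c)) (h.β c) := ⟨_, rfl, (h.rg c).choose_spec⟩

theorem β_mu (a b : Fin 64) : h.β a * h.β b = h.β (mu a b) :=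
  (h.eq_iff ((h.rp a).mul (h.rp b)) (h.rp _)).2 (map_mul (cz K) _ _ ▸ (Sz_mul a b).map _)

theorem β_inj : Function.Injective h.β := fun a b e =>
  have := sp_sg h.two ((h.eq_iff (h.rp a) (h.rp b)).1 e)
  code_inj a b this.1 this.2

theorem β0 : h.β 0 = 1 := (h.eq_iff (h.rp 0) .one).2 (.inl (by rw [show Sz 0 = 1 by decide +kernel, map_one]))

theorem β1 : h.β 1 = π z := (h.eq_iff (h.rp 1) ⟨z, rfl, .inl h.hz⟩).2 .rfl

theorem mem_iff {y : T} : y ∈ Cn (π z) ↔ ∃ c, h.β c = y := by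
  refine ⟨fun hy => ?_, ?_⟩
  · obtain ⟨x, rfl⟩ := h.surj y
    rw [mem_Cn, ← map_mul, ← map_mul, h.ker, map_mul, map_mul] at hy
    rcases hy with e | e
    · exact (h.cen x e.symm).imp fun c hc => (h.eq_iff (h.rp c) ⟨x, rfl, hc⟩).2 .rfl
    have h1 := congrArg (fun M => trace (M * ψ x⁻¹)) e
    simp only [neg_mul, trace_neg] at h1
    rw [trace_mul_comm (ψ x * _), mul_assoc, ← mul_assoc (ψ x⁻¹), ← map_mul ψ x, ← map_mul ψ _ x, mul_inv_cancel, inv_mul_cancel,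
      map_one, mul_one, one_mul, h.hz, show trace (cz K (Sz 1)) = ((trace (Sz 1) : ℤ) : K) by simp [trace, cz_apply],
      show trace (Sz 1) = 2 by decide +kernel] at h1
    exact absurd (by push_cast at h1; linear_combination h1) (mul_ne_zero h.two h.two)
  · rintro ⟨c, rfl⟩
    rw [mem_Cn, ← h.β1, h.β_mu, h.β_mu, (by decide +kernel : ∀ c, mu 1 c = mu c 1)]

theorem inv_iff {c : Fin 64} : MH.Inv (h.β c) ↔ c ≠ 0 ∧ mu c c = 0 := by
  rw [MH.Inv, h.β_mu, ← h.β0, h.β_inj.ne_iff, h.β_inj.eq_iff]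

theorem cit [Finite T] (cj : ∀ s, MH.Inv s → ∃ g, g * s * g⁻¹ = π z) : Cit (π z) where
  iv := h.β1 ▸ h.inv_iff.2 (by decide +kernel)
  cj := cj
  card := by
    rw [← ncard_coe, show (Cn (π z) : Set T) = h.β '' Set.univ from Set.ext fun y => by simpa using h.mem_iff,
      Set.ncard_image_of_injective _ h.β_inj]
    simp
  four y hy := by
    obtain ⟨c, rfl⟩ := h.mem_iff.1 hy
    simp only [pow_succ, pow_zero, one_mul, h.β_mu, (by decide +kernel : ∀ c, mu (mu (mu c c) c) c = 0), h.β0]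
  c122 := by
    rw [← (by decide +kernel : (Finset.univ.filter fun p : Fin 64 × Fin 64 => (p.1 ≠ 0 ∧ mu p.1 p.1 = 0) ∧ (p.2 ≠ 0 ∧ mu p.2 p.2 = 0) ∧
      (mu p.1 p.2 = 1 ∨ mu (mu p.1 p.2) (mu p.1 p.2) = 1)).card = 122), ← Set.ncard_coe_finset,
      ← Set.ncard_image_of_injective _ (h.β_inj.prodMap h.β_inj)]
    have key : ∀ a b, (mu a b = 1 ∨ mu (mu a b) (mu a b) = 1) ↔ (h.β a * h.β b = π z ∨ (h.β a * h.β b) ^ 2 = π z) := fun a b => by
      simp only [sq, h.β_mu, ← h.β1, h.β_inj.eq_iff]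
    refine congrArg _ (Set.ext fun ⟨s, u⟩ => ⟨fun ⟨hs, hu, e⟩ => ?_, ?_⟩)
    · have h1 : ∀ v, v * (s * u) * v⁻¹ = (s * u)⁻¹ → v ∈ Cn (π z) := fun v hv => mem_Cn.2 (Eq.symm (mul_inv_eq_iff_eq_mul.1 (by
        refine Eq.trans ?_ (h.β1 ▸ h.inv_iff.2 (by decide +kernel) : MH.Inv (π z)).inv_eq
        rcases e with e | e <;> rw [← e]
        exacts [hv, by rw [← conj_pow, hv, inv_pow]])))
      obtain ⟨a, rfl⟩ := h.mem_iff.1 (h1 s (by simp [hs.inv_eq, hu.inv_eq, cancel hs]))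
      obtain ⟨b, rfl⟩ := h.mem_iff.1 (h1 u (by simp [hs.inv_eq, hu.inv_eq, mul_assoc, hu.2]))
      exact ⟨(a, b), by simpa only [Finset.coe_filter, Finset.mem_univ, true_and, Set.mem_ofPred_eq, key, ← h.inv_iff] using ⟨hs, hu, e⟩, rfl⟩
    · rintro ⟨⟨a, b⟩, hp, e⟩
      cases e
      simpa only [Finset.coe_filter, Finset.mem_univ, true_and, Set.mem_ofPred_eq, key, ← h.inv_iff] using hp
  c12 := by
    rw [← (by decide +kernel : (Finset.univ.filter fun c : Fin 64 => mu c c = 1).card = 12), ← Set.ncard_coe_finset,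
      ← Set.ncard_image_of_injective _ h.β_inj]
    refine congrArg _ (Set.ext fun y => ⟨fun hy => ?_, ?_⟩)
    · obtain ⟨c, rfl⟩ := h.mem_iff.1 (show y ∈ Cn (π z) from mem_Cn.2 (by rw [← hy, ← pow_succ, ← pow_succ']))
      exact ⟨c, by simpa [sq, h.β_mu, ← h.β1, h.β_inj.eq_iff] using hy, rfl⟩
    · rintro ⟨c, hc, rfl⟩
      simpa [sq, h.β_mu, ← h.β1, h.β_inj.eq_iff] using hc
  h8 H hH hi := by
    choose γ hγ using fun y : H => h.mem_iff.1 (hH y.2)
    refine (Nat.card_le_card_of_injective (fun y => ((⟨γ y / 16, by omega⟩, ⟨γ y % 2, by omega⟩) : Fin 4 × Fin 2)) fun x y e => ?_).trans (by simp)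
    simp only [Prod.mk.injEq, Fin.mk.injEq] at e
    have h1 : h.β (mu (γ x) (mu (γ y) (mu (γ y) (γ y)))) ∈ H := by
      simpa only [← h.β_mu, hγ] using mul_mem x.2 (mul_mem y.2 (mul_mem y.2 y.2))
    refine Subtype.ext ((hγ x).symm.trans ((congrArg _ ?_).trans (hγ y)))
    exact (by decide +kernel : ∀ a b : Fin 64, a.1 / 16 = b.1 / 16 → a.1 % 2 = b.1 % 2 → (fun d => d ≠ 0 ∧ mu d d = 0 → d = 1)
      (mu a (mu b (mu b b))) → a = b) _ _ e.1 e.2 fun e => h.β_inj ((hi _ h1 (h.inv_iff.2 e)).trans h.β1.symm)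

end A

end Cfsg.Agent.H4.L34
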