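import Cfsg.Agent.H4.L34c
import Cfsg.Agent.H7.Cert
import Cfsg.Agent.H8.Mult4

/-!
Coset tables for a group acting on `𝔽₃⁶` and projectively on `𝔽₄³`.
-/

set_option autoImplicit false
set_option maxRecDepth 100000
set_option linter.unusedSectionVars false

namespace Cfsg.Agent.H4.L34

open Matrix Subgroup O6 H7.Cert

/-- check of a coset table -/
def lev (E : List ℕ → List ℕ → Bool) (m n : ℕ) (rs : List (List ℕ)) (tb : List (ℕ × List ℕ)) : Bool :=
  (List.range (rs.length + 1)).all fun j => (List.range n).all fun x => (fun p : ℕ × List ℕ =>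
    Nat.ble p.1 rs.length && p.2.all (Nat.blt · m) && E (([] :: rs).getD j [] ++ [x]) (p.2 ++ ([] :: rs).getD p.1 []))
      (tb.getD (n * j + x) (0, []))

/-- the group generated by the first letters -/
def cl {G : Type*} [Group G] (g : ℕ → G) (n : ℕ) : Subgroup G := closure (g '' Set.Iio n)

theorem mem_cl {G : Type*} [Group G] (g : ℕ → G) {n i : ℕ} (h : i < n) : g i ∈ cl g n := subset_closure ⟨i, h, rfl⟩

theorem cl_ind {G : Type*} [Group G] [Finite G] {g : ℕ → G} {n : ℕ} {Q : G → Prop} (h1 : Q 1) (h : ∀ y, ∀ i < n, Q y → Q (y * g i))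
    {y : G} (hy : y ∈ cl g n) : Q y := by
  rw [cl, ← mem_toSubmonoid, closure_toSubmonoid_of_finite] at hy
  induction hy using Submonoid.closure_induction_right with
  | one => exact h1
  | mul_right y _ x hx ih => obtain ⟨i, hi, rfl⟩ := hx; exact h y i hi ih

theorem cover {G : Type*} [Group G] [Finite G] (g : ℕ → G) {E : List ℕ → List ℕ → Bool}
    (hE : ∀ u v, E u v = true → (u.map g).prod = (v.map g).prod) {m n : ℕ} {rs : List (List ℕ)} {tb : List (ℕ × List ℕ)}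
    (h : lev E m n rs tb = true) : Nat.card (cl g n) ≤ (rs.length + 1) * Nat.card (cl g m) := by
  simp only [lev, List.all_eq_true, List.mem_range, Bool.and_eq_true, Nat.ble_eq, Nat.blt_eq] at h
  have key : ∀ y : cl g n, ∃ p : Fin (rs.length + 1) × cl g m, y.1 = p.2 * ((([] :: rs).getD p.1 []).map g).prod := fun y =>
    cl_ind (Q := fun y => ∃ p : Fin (rs.length + 1) × cl g m, y = p.2 * ((([] :: rs).getD p.1 []).map g).prod) ⟨(0, 1), by simp⟩
      (fun y i hi ⟨⟨j, a⟩, e⟩ => by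
        obtain ⟨⟨h1, h2⟩, h3⟩ := h j j.2 i hi
        have h4 := hE _ _ h3
        simp only [List.map_append, List.prod_append, List.map_singleton, List.prod_singleton] at h4
        exact ⟨(⟨_, Nat.lt_succ_of_le h1⟩, a * ⟨_, Subgroup.list_prod_mem _ (List.forall_mem_map.2 fun k hk => mem_cl g (h2 k hk))⟩), by
          rw [e, mul_assoc, h4, ← mul_assoc]; rfl⟩) y.2
  choose f hf using key
  exact (Nat.card_le_card_of_injective f fun x y e => Subtype.ext (by rw [hf, hf, e])).trans (by simp)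

/-- a number from its ternary digits -/
noncomputable def mkR (f : ℕ → ℕ) (n : ℕ) : ℕ := Nat.rec (motive := fun _ => ℕ) 0 (fun k a => Nat.add (Nat.mul 3 a) (Nat.mod (f k) 3)) n

/-- a digit -/
def en (A k : ℕ) : ℕ := Nat.div A (Nat.pow 3 (Nat.sub 35 k))

/-- product of codes -/
noncomputable def mul3 (A B : ℕ) : ℕ := mkR (fun k => (fun i j => en A i * en B j + en A (i + 1) * en B (6 + j) +
  en A (i + 2) * en B (12 + j) + en A (i + 3) * en B (18 + j) + en A (i + 4) * en B (24 + j) + en A (i + 5) * en B (30 + j))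
    (6 * (k / 6)) (k % 6)) 36

/-- the code of an integer matrix -/
noncomputable def enc (M : Z6) : ℕ := mkR (fun k => (M (Fin.ofNat 6 (k / 6)) (Fin.ofNat 6 k) % 3).toNat) 36

variable {K : Type*} [Field K]

variable (K) in
/-- the coded matrix -/
def to3 (A : ℕ) : M6 K := of fun i j => en A (6 * i + j)

section three

variable (h3 : (3 : K) = 0)
include h3

theorem cast_mod (a : ℕ) : ((a % 3 : ℕ) : K) = a := by
  conv_rhs => rw [← Nat.div_add_mod a 3]
  simp [h3]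

theorem en_mk (f : ℕ → ℕ) {k : ℕ} (hk : k < 36) : (en (mkR f 36) k : K) = f k := by
  have : ∀ d, ((mkR f (k + 1 + d) / 3 ^ d : ℕ) : K) = f k := fun d => by
    induction d with
    | zero => simp [show mkR f (k + 1) = 3 * mkR f k + f k % 3 from rfl, h3, cast_mod h3]
    | succ d ih => rw [← ih, pow_succ', ← Nat.div_div_eq_div_mul, show mkR f (k + 1 + (d + 1)) / 3 = mkR f (k + 1 + d) from by
        change (3 * mkR f (k + 1 + d) + f (k + 1 + d) % 3) / 3 = _; omega]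
  rw [← this (35 - k), show k + 1 + (35 - k) = 36 by omega]; rfl

theorem to3_mul (A B : ℕ) : to3 K (mul3 A B) = to3 K A * to3 K B := by
  ext i j
  rw [to3, of_apply, mul3, en_mk h3 _ (by omega), show (6 * i.1 + j.1) / 6 = i by omega, show (6 * i.1 + j.1) % 6 = j by omega]
  simp [to3, mul_apply, Fin.sum_univ_six]

theorem to3_enc (M : Z6) : to3 K (enc M) = cz K M := by
  ext i j
  rw [to3, of_apply, enc, en_mk h3 _ (by omega), show Fin.ofNat 6 ((6 * i.1 + j.1) / 6) = i from Fin.ext (by simp; omega),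
    show Fin.ofNat 6 (6 * i.1 + j.1) = j from Fin.ext (by simp), cz_apply, ← Int.cast_natCast, Int.toNat_of_nonneg (by omega)]
  conv_rhs => rw [← Int.mul_ediv_add_emod (M i j) 3]
  simp [h3]

end three

/-- the letters on `𝔽₃⁶` -/
noncomputable def X3 (i : ℕ) : ℕ := [100085987915945938, 16745815578166948, 100085977455594922, 16745822542168356, 50039202079145188,
  148435019981385368].getD i (enc 1)

/-- the letters on `𝔽₄³` -/
def X4 (i : ℕ) : ℕ := [281, 401, 37137, 98641, 81953, 108443].getD i 273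

/-- value of a word -/
noncomputable def ev (mu : ℕ → ℕ → ℕ) (X : ℕ → ℕ) (I : ℕ) (w : List ℕ) : ℕ :=
  List.rec (motive := fun _ => ℕ) I (fun j _ a => mu (X j) a) w

/-- two words agree in both projective groups -/
noncomputable def Ec (u v : List ℕ) : Bool :=
  (fun a b => Nat.beq a b || Nat.beq a (mul3 (enc (-1)) b)) (ev mul3 X3 (enc 1) u) (ev mul3 X3 (enc 1) v) &&
  (fun a b => Nat.beq a b || Nat.beq a (mulP 3 3 3 139776 b) || Nat.beq (mulP 3 3 3 139776 a) b)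
    (ev (mulP 3 3 3) X4 273 u) (ev (mulP 3 3 3) X4 273 v)

theorem lev1 : lev Ec 0 1 [[0]]
    [(1, []), (0, [])] = true := by
  decide +kernel

theorem lev2 : lev Ec 1 2 [[1], [1, 0], [1, 0, 1]]
    [(0, [0]), (1, []), (2, []), (0, []), (1, []), (3, []), (3, [0]), (2, [])] = true := by
  decide +kernel

theorem lev3 : lev Ec 2 3 [[2], [2, 1], [2, 1, 2]]
    [(0, [0]), (0, [1]), (1, []), (1, [0]), (2, []), (0, []), (2, [1, 0, 1]), (1, []), (3, []), (3, [1, 0, 1]), (3, [1]), (2, [])] = true := by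
  decide +kernel

theorem lev4 : lev Ec 3 4 [[3]]
    [(0, [0]), (0, [1]), (0, [2]), (1, []), (1, [0, 1, 2, 1, 2]), (1, [1]), (1, [0, 1, 0, 2, 1]), (0, [])] = true := by
  decide +kernel

theorem lev5 : lev Ec 4 5 [[4], [4, 1], [4, 3], [4, 1, 3], [4, 1, 4], [4, 1, 3, 4], [4, 1, 4, 1], [4, 1, 4, 3], [4, 1, 3, 4, 1], [4, 1, 3, 4, 3], [4, 1, 4, 1, 3], [4, 1, 3, 4, 1, 3], [4, 1, 3, 4, 1, 4], [4, 1, 4, 1, 3, 4]]
    [(0, [0]), (0, [1]), (0, [2]), (0, [3]), (1, []), (1, [0, 3, 0, 3]), (2, []), (1, [0, 2, 3, 2, 3]), (3, []), (0, []), (2, [0, 2]), (1, []), (2, [2, 3, 2, 3]), (4, []), (5, []), (3, [3, 0, 3]), (4, []), (3, [1, 0, 1, 2]), (1, []), (3, [3]), (4, [2]), (3, []), (4, [0, 1, 0, 1, 2]), (2, []), (6, []), (5, [0]), (7, []), (5, [3, 0, 3]), (8, []), (2, []), (6, [0]), (9, []), (6, [0, 3, 0, 3]), (10, []), (4, []), (7, [0, 3, 2, 3]), (5, []), (7, [1, 2, 1]), (11, []), (7, [1]), (8, [2]), (11, []), (8, [0, 1,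 0, 1]), (5, []), (10, []), (9, [0, 1, 0, 1]), (6, []), (9, [1, 2, 1]), (12, []), (13, []), (10, [0, 2]), (12, []), (10, [0, 3, 2, 3]), (6, []), (8, []), (11, [2, 3, 2, 3]), (8, []), (11, [1, 0, 1, 2]), (7, []), (14, []), (12, [0, 1, 0, 1, 2]), (10, []), (12, [0, 2, 3, 2, 3]), (9, []), (12, [1, 3]), (13, [2]), (13, [3]), (13, [0, 2]), (13, [1, 3]), (9, []), (14, [0, 2]), (14, [1, 3]), (14, [0]), (14, [1]), (11, [])] = true := by
  decide +kernel

theorem lev6 : lev Ec 5 6 [[5], [5, 0], [5, 2], [5, 4], [5, 0, 2], [5, 0, 4], [5, 2, 4], [5, 4, 1], [5, 4, 3], [5, 4, 5], [5, 0, 2, 4], [5, 0, 4, 1], [5, 0, 4, 5], [5, 2, 4, 1], [5, 2, 4, 3], [5, 4, 1, 0], [5, 4, 1, 3], [5, 4, 1, 4], [5, 4, 3, 2], [5, 0, 4, 1, 4]]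
    [(0, [0]), (0, [1]), (0, [2]), (0, [3]), (0, [4]), (1, []), (2, []), (1, [0, 3, 0, 1]), (3, []), (1, [0, 1, 3, 0]), (4, []), (0, []), (1, []), (2, [4, 0, 4]), (5, []), (2, [0, 3, 0]), (6, []), (5, [4, 0, 1, 4, 1, 3, 4]), (5, []), (3, [2, 3, 2]), (1, []), (3, [2, 1, 2]), (7, []), (3, [2]), (4, [0, 1, 0]), (8, []), (6, [0, 1, 0, 1, 3]), (9, []), (1, []), (10, []), (3, []), (5, [0, 1, 3, 0, 3]), (2, []), (5, [0, 4, 2, 4]), (11, []), (2, [4, 1, 3, 4, 1, 0, 4]), (6, [0, 1, 0]), (12, []), (4, [0, 1, 0, 1, 3]), (10, [0, 3, 4, 3]), (2, []), (13, []), (7, [0, 1, 0]), (14, []), (11, [0, 1, 0, 1, 3]), (15, []), (3, []), (7, [1, 3, 4, 1, 3, 2]), (16, []), (4, []), (8, [0, 1, 0, 1, 3]), (17, []), (18, []), (8, [0, 3, 4, 3]), (10, [0, 1, 3, 4, 3]), (17, []), (19, []), (4, []), (9, [0, 1, 3, 0]), (16, [3, 2, 4, 1, 3]), (9, [3, 2, 4, 1, 3]), (18, [0, 1, 3, 4, 1, 3, 2, 4, 3]), (15, [0, 3, 4, 1]), (6, [0, 3, 4, 3]), (10,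 [4]), (4, []), (11, [0, 1, 0]), (16, []), (7, [0, 1, 0, 1, 3]), (19, [1, 3]), (5, []), (12, [0, 1, 3, 4, 3]), (14, []), (6, []), (12, [0, 1, 0, 1, 3]), (18, [4, 1, 0, 4, 1, 3, 4, 1]), (20, []), (11, [3, 2, 4, 1, 3]), (17, [3, 2, 4, 1, 3]), (15, [3, 2, 4, 1, 3]), (17, [3, 2, 4]), (14, [3, 2, 4, 1, 3]), (14, [1, 2, 3, 4, 1, 3, 4]), (6, []), (12, []), (7, []), (14, [0, 1, 0, 1, 3]), (13, [0, 1, 3, 4, 3]), (13, [4, 1, 3, 4, 3, 2, 1]), (20, [0, 3, 4, 1, 0, 3, 4]), (19, [0, 1, 0, 1, 3]), (13, [0, 1, 3, 4, 3]), (10, [1, 4, 3, 0]), (7, []), (15, [2, 1, 2]), (17, [0, 1, 3, 4, 3]), (8, []), (11, []), (16, [0, 1, 0, 1, 3]), (20, [4, 1, 0, 4, 1, 3, 4, 1]), (17, [1, 0, 4, 1, 3, 4, 1, 4]), (9, [0, 1, 3, 4, 3]), (13, [0, 1, 3, 4, 3]), (9, []), (13, [4, 2, 3]), (8, []), (16, [4, 1, 0, 4, 1, 3, 4, 1]), (15, [3, 2, 4, 1, 3]), (20, []), (10, [0, 3, 2, 4, 1, 3, 4, 1, 3]), (20, [0, 1, 0]), (12, [1, 0, 4, 1, 3, 4, 1, 4]), (8, []),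 (18, [4, 1, 4]), (15, [0, 1, 0, 1, 3]), (20, [0, 4, 1, 4, 1, 2, 3, 4]), (9, []), (11, [1, 3]), (19, [0, 4, 2, 4]), (19, [0, 2, 4, 0, 2]), (18, []), (19, [0, 4, 1, 3, 4, 1, 0, 4]), (18, [0, 1, 0]), (16, [1, 0, 4, 1, 3, 4, 1, 4]), (12, []), (14, [2, 4, 0, 1, 3, 4, 3])] = true := by
  decide +kernel

theorem ord7 : Ec [2, 4, 5, 2, 4, 5, 2, 4, 5, 2, 4, 5, 2, 4, 5, 2, 4, 5, 2, 4, 5] [] = true := by
  decide +kernel

theorem getD_ind {Q : ℕ → Prop} {l : List ℕ} {d : ℕ} (h : ∀ a ∈ d :: l, Q a) (i : ℕ) : Q (l.getD i d) := by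
  rw [List.getD_eq_getElem?_getD]
  cases e : l[i]? with
  | none => exact h _ (by simp)
  | some a => exact h _ (List.mem_cons_of_mem _ (List.mem_of_getElem? e))

theorem ev_rel {G : Type*} [Group G] {R : ℕ → G → Prop} {mu : ℕ → ℕ → ℕ} {X : ℕ → ℕ} {I : ℕ} {g : ℕ → G} (h1 : R I 1)
    (h2 : ∀ a b s t, R a s → R b t → R (mu a b) (s * t)) (h3 : ∀ i, R (X i) (g i)) (w : List ℕ) : R (ev mu X I w) (w.map g).prod := by
  induction w with
  | nil => exact h1
  | cons j w ih => exact h2 _ _ _ _ (h3 j) ih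

section four

variable {L : Type} [Field L] [CharP L 2] {ω : L} (hω : ω * ω = ω + 1)

variable (ω) in
/-- the code `a` represents `y` -/
def RL (a : ℕ) (y : ProjectiveSpecialLinearGroup (Fin 3) L) : Prop :=
  ∃ B : SpecialLinearGroup (Fin 3) L, B.1 = toP ω (Equiv.refl _) (Equiv.refl _) a ∧ QuotientGroup.mk B = y

theorem RL.uniq {a : ℕ} {y y' : ProjectiveSpecialLinearGroup (Fin 3) L} : RL ω a y → RL ω a y' → y = y'
  | ⟨_, h1, h2⟩, ⟨_, h3, h4⟩ => h2.symm.trans ((congrArg _ (Subtype.ext (h1.trans h3.symm))).trans h4)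

theorem toP_one : toP ω (Equiv.refl (Fin 3)) (Equiv.refl (Fin 3)) 273 = 1 :=
  (toP_of_lt _ _ (by decide)).trans ((congrArg _ (by decide +kernel)).trans (H7.Bit.toM_one _))

theorem RL.one : RL ω 273 1 := ⟨1, toP_one.symm, rfl⟩

include hω

theorem RL.mul (a b : ℕ) (s t : ProjectiveSpecialLinearGroup (Fin 3) L) : RL ω a s → RL ω b t → RL ω (mulP 3 3 3 a b) (s * t)
  | ⟨A, h1, h2⟩, ⟨B, h3, h4⟩ => ⟨A * B, by rw [toP_mul hω _ (Equiv.refl _), ← h1, ← h3]; rfl, by rw [← h2, ← h4]; rfl⟩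

theorem RL.om : RL ω 139776 1 := by
  have h : toP ω (Equiv.refl (Fin 3)) (Equiv.refl (Fin 3)) 139776 = ω • 1 := by
    ext i j
    fin_cases i <;> fin_cases j <;> simp +decide [toP, H7.Bit.toQ, H7.Bit.toM, H7.Bit.bit]
  exact ⟨⟨ω • 1, by simp; grind⟩, h.symm, (QuotientGroup.eq_one_iff _).2 (mem_center_iff.2 fun g =>
    Subtype.ext (show g.1 * (ω • 1) = (ω • 1) * g.1 by simp))⟩

theorem RL.ex (i : ℕ) : ∃ y, RL ω (X4 i) y := by
  have h0 : mulP 3 3 3 (X4 i) (X4 i) = 273 := getD_ind (Q := fun a => mulP 3 3 3 a a = 273) (by decide +kernel) i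
  have h := congrArg (fun a => (toP ω (Equiv.refl (Fin 3)) (Equiv.refl (Fin 3)) a).det) h0
  simp only [toP_mul hω _ (Equiv.refl _), det_mul, toP_one, det_one] at h
  exact ⟨_, ⟨_, (mul_self_eq_one_iff.1 h).elim id fun e => e.trans (CharTwo.neg_eq 1)⟩, rfl, rfl⟩

end four

variable {Γ T : Type*} [Group Γ] [Group T] {ψ : Γ →* M6 K} {π : Γ →* T} {z : Γ} (h : A ψ π z) (h3 : (3 : K) = 0) {t : ℕ → T}
  (ht : ∀ i, Rp ψ π (to3 K (X3 i)) (t i))
include h3 ht

theorem rp_ev (w : List ℕ) : Rp ψ π (to3 K (ev mul3 X3 (enc 1) w)) (w.map t).prod :=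
  ev_rel (R := fun a s => Rp ψ π (to3 K a) s) (by simpa [to3_enc h3] using Rp.one) (fun a b s t h h' => to3_mul h3 a b ▸ h.mul h') ht w

include h

theorem ec_fst {u v : List ℕ} (e : Ec u v = true) : (u.map t).prod = (v.map t).prod := by
  simp only [Ec, Bool.and_eq_true, Bool.or_eq_true, Nat.beq_eq] at e
  exact (h.eq_iff (rp_ev h3 ht u) (rp_ev h3 ht v)).2 (e.1.imp (congrArg _) fun e => by simp [e, to3_mul h3, to3_enc h3])

theorem graph [Finite T] [IsSimpleGroup T] (hT : Nat.card T = 20160) (hg : cl t 6 = ⊤) : ∃ (L : Type) (_ : Field L) (_ : Fintype L),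
    Fintype.card L = 4 ∧ ∃ θ : T →* ProjectiveSpecialLinearGroup (Fin 3) L, Function.Bijective θ := by
  obtain ⟨L, _, _, hL⟩ : ∃ (L : Type) (_ : Field L) (_ : Fintype L), Fintype.card L = 4 :=
    ⟨GaloisField 2 2, inferInstance, Fintype.ofFinite _, Fintype.card_eq_nat_card.trans (GaloisField.card 2 2 two_ne_zero)⟩
  have : CharP L 2 := charP_of_card_eq_prime_pow (p := 2) (f := 2) hL
  obtain ⟨ω, h0, h1⟩ : ∃ ω : L, ω ≠ 0 ∧ ω ≠ 1 := by
    classical
    by_contra! h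
    have := (Finset.card_le_card (show Finset.univ ⊆ ({0, 1} : Finset L) from fun x _ => by
      by_cases hx : x = 0 <;> simp [hx, h x])).trans Finset.card_le_two
    simp [hL] at this
  have hω : ω * ω = ω + 1 := by have := H8.TC.cube_eq hL ω h0; grind
  choose y hy using RL.ex hω
  let g := fun i => (t i, y i)
  have hE : ∀ u v, Ec u v = true → (u.map g).prod = (v.map g).prod := fun u v e => by
    have e1 : ∀ u : List ℕ, (u.map g).prod = ((u.map t).prod, (u.map y).prod) := fun u => by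
      induction u <;> simp [*, g, Prod.one_eq_mk]
    rw [e1, e1, ec_fst h h3 ht e]
    simp only [Ec, Bool.and_eq_true, Bool.or_eq_true, Nat.beq_eq] at e
    have h1 := ev_rel .one (RL.mul hω) hy u
    have h2 := ev_rel .one (RL.mul hω) hy v
    rcases e.2 with (e | e) | e
    · rw [h1.uniq (e ▸ h2)]
    · rw [h1.uniq (e ▸ RL.mul hω _ _ _ _ (.om hω) h2), one_mul]
    · rw [h2.uniq (e ▸ RL.mul hω _ _ _ _ (.om hω) h1), one_mul]
  have hc : Nat.card (cl g 6) ≤ 20160 := by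
    have := cover g hE lev1
    have := cover g hE lev2
    have := cover g hE lev3
    have := cover g hE lev4
    have := cover g hE lev5
    have := cover g hE lev6
    have : Nat.card (cl g 0) = 1 := by simp [cl]
    simp only [List.length] at *
    omega
  let p := (MonoidHom.fst _ _).comp (cl g 6).subtype
  have hp : Function.Surjective p := fun s => cl_ind (Q := fun s => ∃ x, p x = s) ⟨1, map_one _⟩
    (fun s i hi ⟨x, e⟩ => ⟨x * ⟨_, mem_cl g hi⟩, by rw [map_mul, e]; rfl⟩) (hg ▸ mem_top s)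
  let q := MulEquiv.ofBijective p ((Nat.bijective_iff_surjective_and_card p).2
    ⟨hp, (hc.trans hT.ge).antisymm (Nat.card_le_card_of_surjective p hp)⟩)
  let θ := ((MonoidHom.snd _ _).comp (cl g 6).subtype).comp q.symm.toMonoidHom
  refine ⟨L, _, _, hL, θ, (Nat.bijective_iff_injective_and_card θ).2 ⟨θ.ker_eq_bot_iff.1
    ((θ.normal_ker.eq_bot_or_eq_top).resolve_right fun e => ?_), hT.trans (H8.TC.card_L34 hL).symm⟩⟩
  have h4 : θ (q ⟨g 0, mem_cl g (by decide)⟩) = 1 := (e ▸ mem_top _ : _ ∈ θ.ker)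
  obtain ⟨B, h5, h6⟩ := hy 0
  obtain ⟨r, -, h7⟩ := Matrix.SpecialLinearGroup.mem_center_iff.1 ((QuotientGroup.eq_one_iff B).1 (h6.trans (by simpa [θ, g] using h4)))
  simpa +decide [toP, H7.Bit.toQ, H7.Bit.toM, H7.Bit.bit, X4] using congrFun (congrFun (h7.trans h5) 0) 1

end Cfsg.Agent.H4.L34
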