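import Cfsg.Agent.H4.L34d

/-!
The monomial groups of two frames: the characteristic is three and the group is `L₃(4)`.
-/

set_option autoImplicit false
set_option synthInstance.maxSize 100000
set_option maxRecDepth 100000
set_option linter.unusedSectionVars false

namespace Cfsg.Agent.H4.L34

open Matrix Subgroup MH O6

instance {R : Type*} [Neg R] [DecidableEq R] (A B : R) : Decidable (Sg A B) := inferInstanceAs (Decidable (_ ∨ _))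

theorem gen4 {Q : Fin 64 → Prop} (h0 : Q 0) (hm : ∀ a b, Q a → Q b → Q (mu a b)) (h : ∀ a ∈ [2, 16, 8, 32], Q a) (c : Fin 64) : Q c := by
  obtain ⟨h1, h2⟩ := (by decide +kernel : ∀ c : Fin 64, (fun w : List (Fin 64) => (∀ a ∈ w, a ∈ [2, 16, 8, 32]) ∧ w.foldr mu 0 = c)
    (List.getD [[], [32, 2, 32, 2], [2], [32, 2, 32], [32, 8, 32, 8, 2], [16, 2, 16], [32, 8, 32, 8], [16, 2, 16, 2], [8], [16, 8, 16], [8, 2], [16, 8, 16, 2], [32, 8, 32, 2], [8, 16, 2, 16], [32, 8, 32], [8, 16, 2, 16, 2], [16], [8, 16, 8], [16, 2], [8, 16, 8, 2], [32, 2, 32, 16], [2, 16], [32, 2, 32, 16, 2], [2, 16, 2], [16, 8], [8, 16], [16, 8, 2], [8, 16, 2], [8, 2, 16], [2, 16, 8], [8, 2, 16, 2], [2, 16, 8, 2], [32], [2, 32, 2], [32, 2], [2, 32], [8, 32, 8, 2], [32, 16, 2, 16], [8, 32, 8], [32, 16, 2, 16, 2], [32, 8], [2, 32, 8, 2], [32, 8, 2], [2, 32, 8], [8, 32, 2], [8, 2, 32], [8, 32], [8,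 2, 32, 2], [32, 16], [16, 2, 32, 2], [32, 16, 2], [16, 2, 32], [2, 32, 16], [32, 2, 16], [2, 32, 16, 2], [32, 2, 16, 2], [32, 16, 8], [32, 8, 16], [32, 16, 8, 2], [32, 8, 16, 2], [16, 8, 32, 2], [8, 32, 16, 2], [16, 8, 32], [8, 32, 16]] c [])) c
  generalize List.getD _ _ _ = w at h1 h2
  subst h2
  induction w with
  | nil => exact h0
  | cons a w ih => exact hm _ _ (h a (h1 a (by simp))) (ih fun b hb => h1 b (by simp [hb]))

/-- passage to the partner frame -/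
def H0 : Z6 := !![1, 1, 0, 0, 0, 0; 1, -1, 0, 0, 0, 0; 0, 0, 1, 1, 0, 0; 0, 0, 1, -1, 0, 0; 0, 0, 0, 0, 1, 1; 0, 0, 0, 0, 1, -1]

/-- a transposition -/
def W5 : Z6 := sp ![0, 1, 2, 3, 5, 4] fun _ => false

/-- a sign change -/
def D5 : Z6 := sp id ![false, false, false, false, false, true]

theorem kH : ∀ c : Fin 64, Sg (H0 * Sz c) (Sz (List.getD [0, 1, 23, 22, 17, 16, 6, 7, 38, 39, 49, 48, 55, 54, 32, 33, 5, 4, 21, 20, 19, 18, 3, 2, 34, 35, 50, 51, 52, 53, 36, 37, 14, 15, 24, 25, 30, 31, 8, 9, 46, 47, 56, 57, 62, 63, 40, 41, 11, 10, 26, 27, 28, 29, 13, 12, 42, 43, 59, 58, 61, 60, 44, 45] c 0) * H0) := by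
  decide +kernel

theorem kW : ∀ c : Fin 64, Sg (W5 * Sz c) (Sz (List.getD [0, 1, 2, 3, 4, 5, 6, 7, 15, 14, 13, 12, 11, 10, 9, 8, 16, 17, 18, 19, 20, 21, 22, 23, 31, 30, 29, 28, 27, 26, 25, 24, 32, 33, 34, 35, 36, 37, 38, 39, 47, 46, 45, 44, 43, 42, 41, 40, 48, 49, 50, 51, 52, 53, 54, 55, 63, 62, 61, 60, 59, 58, 57, 56] c 0) * W5) := by
  decide +kernel

theorem kD : ∀ c : Fin 64, Sg (D5 * Sz c) (Sz (List.getD [0, 1, 2, 3, 4, 5, 6, 7, 8, 9, 10, 11, 12, 13, 14, 15, 16, 17, 18, 19, 20, 21, 22, 23, 24, 25, 26, 27, 28, 29, 30, 31, 39, 38, 37, 36, 35, 34, 33, 32, 47, 46, 45, 44, 43, 42, 41, 40, 55, 54, 53, 52, 51, 50, 49, 48, 63, 62, 61, 60, 59, 58, 57, 56] c 0) * D5) := by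
  decide +kernel

/-- an involution in the first alternating group -/
def pa : Fin 6 → Fin 6 := ![0, 2, 1, 4, 3, 5]

/-- an involution in the second alternating group -/
def pb : Fin 6 → Fin 6 := ![0, 2, 1, 5, 4, 3]

theorem tr0 : ∀ a b : Fin 6, a = 2 ∧ b = 4 ∨ a = 4 ∧ b = 2 → ∀ c d e f : Fin 6, [a, b, c, d, e, f].Nodup →
    ∃ w ∈ ([[0, 0, 1, 2, 0, 0], [0, 1, 0, 2, 0, 1, 0], [0, 1, 0, 0, 0, 0, 0], [0, 1, 0, 0, 0], [0, 1, 0, 0, 0, 0], [0, 1, 0, 1, 0], [0, 0, 0], [0, 2, 0, 2, 0], [0, 0, 0, 1, 0], [0, 1, 2, 0, 1, 2, 0], [1, 0, 0], [0, 0, 1, 0], [1, 0, 0, 1, 0], [1, 0, 2, 0, 2], [1, 2, 0, 0, 2], [0, 1, 0, 0, 1], [1, 2, 0, 1, 0, 1, 2]] : List (List (Fin 3))),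
    (fun q : Fin 6 → Fin 6 => (∀ j, q j = pa j) ∨ (∀ j, q j = pb j) ∨ (∀ j, Eg 1 (q j) = Eg 1 j) ∧ ∀ c, ∃ j, q j ≠ P c j)
      (w.foldr (fun i q => ![![a, b, c, d, e, f], P 16, P 32] i ∘ q) id) := by
  decide +kernel

theorem par0 : ∀ k ∈ [0, 16, 32, 48], ∀ e : Fin 6 → Bool, (∏ j, if e j then (-1 : ℤ) else 1) = -1 ∨
    ∃ c, (∀ j, P c j = P k j) ∧ ((∀ j, Eg c j = e j) ∨ ∀ j, Eg c j = !e j) := by
  decide +kernel

theorem wrd : ∃ W, ((sp pa fun _ => false) * (H0 * (sp ((pa ∘ P 48) ∘ pa) fun _ => false) * H0)) = W ∧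
    (W ^ 4) 0 3 = 2 ∧ (W ^ 9) 1 3 = -2 ^ 8 ∧ (W ^ 5) 2 4 = 3 := by
  let W : Z6 := !![1, 1, 0, 0, 1, 1; 0, 0, 1, 1, 1, -1; 1, 1, 0, 0, -1, -1; 1, -1, 1, -1, 0, 0; 0, 0, 1, 1, -1, 1; 1, -1, -1, 1, 0, 0]
  let W2 : Z6 := !![2, 0, 1, 3, 1, 1; 1, 1, 3, -1, -2, 0; 0, 2, 1, -1, 3, -1; 1, 3, -2, 0, -1, 1; 3, -1, -1, -1, 0, -2; 1, -1, 0, -2, 1, 3]
  let W4 : Z6 := !![11, 9, -4, 2, 3, 5; -4, 6, 11, 1, 9, 1; 9, -1, 6, -4, -1, -11; 3, -1, 9, 1, -10, 8; 2, -4, 1, 15, 1, -3;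
    5, -11, 1, -3, 8, 6]
  have e4 : W ^ 4 = W4 := by
    rw [show 4 = 2 * 2 from rfl, pow_mul, sq W, show W * W = W2 by decide +kernel, sq]; decide +kernel
  refine ⟨W, by decide +kernel, e4 ▸ rfl, ?_, ?_⟩
  · rw [show 9 = 4 + 4 + 1 from rfl, pow_succ, pow_add, e4]; decide +kernel
  · rw [pow_succ, e4]; decide +kernel

variable {Γ T K : Type*} [Group Γ] [Group T] [Field K]

theorem par (h2 : (2 : K) ≠ 0) {σ : Equiv.Perm (Fin 6)} (hσ : σ.sign = 1) {e : Fin 6 → Bool} (h : (cz K (sp σ e)).det = 1)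
    {k : Fin 64} (hk : k ∈ [0, 16, 32, 48]) : ∃ c, Sg (sp (P k) e) (Sz c) := by
  rcases par0 k hk e with h1 | ⟨c, h1, h3⟩
  · rw [cz, ← RingHom.map_det, show sp σ e = (1 : Z6).submatrix id σ * diagonal fun j => if e j then -1 else 1 by
      ext i j; by_cases h : e j <;> simp [sp, one_apply, h, apply_ite Neg.neg], det_mul, det_permute', det_diagonal, h1, hσ] at h
    exact absurd (by simp at h; linear_combination -h) h2
  · exact ⟨c, by rw [Sz, funext h1]; exact Sg.symm (h3.imp (fun h => by rw [funext h]) fun h => by rw [funext h, sp_neg])⟩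

/-- conjugation by an involution -/
def cQ (Q : M6 K) (hQ : Q * Q = 1) : M6 K →+* M6 K where
  toFun M := Q * M * Q
  map_one' := by rw [mul_one, hQ]
  map_mul' M N := by simp only [mul_assoc, ← mul_assoc Q Q, hQ, one_mul]
  map_zero' := by simp
  map_add' M N := by rw [mul_add, add_mul]

theorem cQ_cQ (Q : M6 K) (hQ : Q * Q = 1) (M : M6 K) : cQ Q hQ (cQ Q hQ M) = M := by
  change Q * (Q * M * Q) * Q = M
  simp only [mul_assoc, ← mul_assoc Q Q, hQ, one_mul, mul_one]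

/-- the conjugate representation -/
def cj (ψ : Γ →* M6 K) (Q : M6 K) (hQ : Q * Q = 1) : Γ →* M6 K := (cQ Q hQ).toMonoidHom.comp ψ

/-- permutations of monomial elements -/
def X (ψ : Γ →* M6 K) (p : Fin 6 → Fin 6) : Prop := ∃ x e, ψ x = cz K (sp p e)

/-- permutation matrices -/
def Pm (ψ : Γ →* M6 K) (π : Γ →* T) (p : Fin 6 → Fin 6) (t : T) : Prop := Rp ψ π (cz K (sp p fun _ => false)) t

variable {ψ : Γ →* M6 K} {π : Γ →* T} {z : Γ} {p q : Fin 6 → Fin 6} {s t : T}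

theorem X.mul : X ψ p → X ψ q → X ψ (p ∘ q)
  | ⟨x, _, h⟩, ⟨y, _, h'⟩ => ⟨x * y, _, by rw [map_mul, h, h', ← map_mul, sp_mul]⟩

theorem X.conj {r : Fin 6 → Fin 6} {d : Fin 6 → Bool} (hQ : cz K (sp r d) * cz K (sp r d) = 1) :
    X ψ p → X (cj ψ _ hQ) ((r ∘ p) ∘ r)
  | ⟨x, _, h⟩ => ⟨x, _, show cz K _ * ψ x * cz K _ = _ by rw [h, ← map_mul, ← map_mul, sp_mul, sp_mul]⟩

theorem Pm.mul (h : Pm ψ π p s) (h' : Pm ψ π q t) : Pm ψ π (p ∘ q) (s * t) := by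
  simpa only [Pm, ← map_mul, sp_mul, Bool.xor_self] using Rp.mul h h'

theorem Pm.one : Pm ψ π id 1 := by
  rw [Pm, show (sp id fun _ => false) = 1 by decide +kernel, map_one]; exact .one

theorem Pm.pow (h : Pm ψ π p s) (n : ℕ) : Pm ψ π p^[n] (s ^ n) := by
  induction n with
  | zero => simpa using Pm.one
  | succ n ih => simpa only [pow_succ, Function.iterate_succ] using ih.mul h

theorem Pm.l4 (h3 : (3 : K) = 0) (ha : Pm ψ π pa s) : Rp ψ π (to3 K (X3 4)) s := by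
  rwa [show X3 4 = enc (sp pa fun _ => false) by decide +kernel, to3_enc h3]

theorem Rp.cj {Q M : M6 K} {hQ : Q * Q = 1} : Rp (cj ψ Q hQ) π M t → Rp ψ π (Q * M * Q) t
  | ⟨x, h1, h2⟩ => ⟨x, h1, cQ_cQ Q hQ (ψ x) ▸ h2.map (cQ Q hQ)⟩

theorem hH {e : K} (he : 2 * e * e = 1) : e • cz K H0 * e • cz K H0 = 1 := by
  rw [smul_mul_smul_comm, ← map_mul, show H0 * H0 = 1 + 1 by decide +kernel, map_add, map_one, ← two_smul K, smul_smul,
    show e * e * 2 = 1 by linear_combination he, one_smul]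

theorem hW : cz K W5 * cz K W5 = 1 := by rw [← map_mul, show W5 * W5 = 1 by decide +kernel, map_one]

theorem hD : cz K D5 * cz K D5 = 1 := by rw [← map_mul, show D5 * D5 = 1 by decide +kernel, map_one]

/-- the conclusion -/
def Cc (ψ : Γ →* M6 K) (T : Type*) [Group T] : Prop := (3 : K) = 0 ∧ (∃ (L : Type) (_ : Field L) (_ : Fintype L),
  Fintype.card L = 4 ∧ ∃ θ : T →* ProjectiveSpecialLinearGroup (Fin 3) L, Function.Bijective θ) ∧ ∀ x, ∃ N, ψ x = cz K N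

theorem Cc.of_cj {τ : Z6} {hQ : cz K τ * cz K τ = 1} (h : Cc (cj ψ _ hQ) T) : Cc ψ T :=
  ⟨h.1, h.2.1, fun x => let ⟨N, e⟩ := h.2.2 x; ⟨τ * N * τ, by rw [map_mul, map_mul, ← e]; exact (cQ_cQ _ hQ _).symm⟩⟩

namespace A

variable (h : A ψ π z)
include h

theorem conj {τ : Z6} {e : K} (hQ : e • cz K τ * e • cz K τ = 1) (h1 : τ * Sz 1 = Sz 1 * τ) (hk : ∀ c, ∃ d, Sg (τ * Sz c) (Sz d * τ)) :
    A (cj ψ _ hQ) π z := by
  have key : ∀ {M N : Z6}, τ * M = N * τ → cQ _ hQ (cz K M) = cz K N := fun {M N} e' => by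
    change e • cz K τ * _ * e • cz K τ = _
    rw [smul_mul_assoc, ← map_mul, e', map_mul, ← mul_smul_comm, mul_assoc, hQ, mul_one]
  have hk' : ∀ c, ∃ d, Sg (cQ _ hQ (cz K (Sz c))) (cz K (Sz d)) := fun c => (hk c).imp fun d e =>
    e.imp key fun e => (key (e.trans (neg_mul _ _).symm)).trans (map_neg _ _)
  have hi := cQ_cQ _ hQ
  refine ⟨h.two, h.surj, fun x y => (h.ker x y).trans ⟨.map (cQ _ hQ), fun e => hi (ψ x) ▸ hi (ψ y) ▸ e.map (cQ _ hQ)⟩,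
    (congrArg _ h.hz).trans (key h1), fun x => ?_, fun c => ?_, fun x e => ?_⟩
  · change (_ * _ * _ : M6 K).det = 1
    rw [det_mul, det_mul, h.det, mul_one, ← det_mul, hQ, det_one]
  · obtain ⟨d, e⟩ := hk' c
    obtain ⟨x, hx⟩ := h.rg d
    exact ⟨x, hi (cz K (Sz c)) ▸ (hx.trans e.symm).map (cQ _ hQ)⟩
  · obtain ⟨c, hc⟩ := h.cen x (by
      simpa only [cj, map_mul, MonoidHom.comp_apply, RingHom.toMonoidHom_eq_coe, MonoidHom.coe_coe, hi] using congrArg (cQ _ hQ) e)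
    exact (hk' c).imp fun d e => (hc.map (cQ _ hQ)).trans e

theorem conj1 {τ : Z6} (hQ : cz K τ * cz K τ = 1) (h1 : τ * Sz 1 = Sz 1 * τ) (hk : ∀ c, ∃ d, Sg (τ * Sz c) (Sz d * τ)) :
    A (cj ψ _ hQ) π z := by
  simpa using h.conj (e := 1) (by simpa using hQ) h1 hk

theorem xp (c : Fin 64) : X ψ (P c) :=
  let ⟨x, e⟩ := h.rg c; ⟨x, e.elim (fun e => ⟨_, e⟩) fun e => ⟨_, by rw [e, ← map_neg, Sz, sp_neg]⟩⟩

theorem tr {σ : Equiv.Perm (Fin 6)} (h1 : X ψ σ) (h2 : σ 0 = 2 ∧ σ 1 = 4 ∨ σ 0 = 4 ∧ σ 1 = 2) : X ψ pa ∨ X ψ pb := by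
  obtain ⟨w, -, h3⟩ := tr0 _ _ h2 (σ 2) (σ 3) (σ 4) (σ 5) (by simp)
  rw [show ![σ 0, σ 1, σ 2, σ 3, σ 4, σ 5] = σ from funext fun i => by fin_cases i <;> rfl] at h3
  have h4 : X ψ (w.foldr (fun i q => ![⇑σ, P 16, P 32] i ∘ q) id) := by
    clear h3
    induction w with
    | nil => exact (by decide +kernel : P 0 = id) ▸ h.xp 0
    | cons i w ih => exact X.mul (p := ![⇑σ, P 16, P 32] i) (by fin_cases i; exacts [h1, h.xp _, h.xp _]) ih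
  generalize w.foldr _ _ = q at h3 h4
  rcases h3 with e | e | ⟨e, e'⟩
  · exact .inl (funext e ▸ h4)
  · exact .inr (funext e ▸ h4)
  obtain ⟨x, d, hx⟩ := h4
  obtain ⟨c, hc⟩ := h.cen x (by
    rw [hx, h.hz, ← map_mul, ← map_mul, Sz, sp_mul, sp_mul, (by decide +kernel : P 1 = id)]
    simp [e, Bool.xor_comm])
  obtain ⟨j, hj⟩ := e' c
  exact absurd ((sp_sg h.two (hx ▸ hc)).1 j) hj

theorem pm : X ψ pa → ∃ s, Pm ψ π pa s
  | ⟨x, e, hx⟩ => by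
    obtain ⟨c, hc⟩ := par (σ := Equiv.swap 1 2 * Equiv.swap 3 4) (e := e) h.two (by decide)
      (by rw [← h.det x, hx, (by decide : pa = ⇑(Equiv.swap 1 2 * Equiv.swap 3 4 : Equiv.Perm (Fin 6)))]) (k := 0) (by simp)
    refine ⟨_, (Rp.mul ⟨x, rfl, .inl hx⟩ ((h.rp c).sg (hc.map _).symm)).sg (.inl ?_)⟩
    rw [← map_mul, sp_mul, (by decide +kernel : P 0 = id)]
    simp

theorem pm_one (hp : Pm ψ π p s) : s = 1 ↔ ∀ j, p j = j :=
  (h.eq_iff hp Pm.one).trans ⟨fun e => (sp_sg h.two e).1, fun e => funext e ▸ Sg.rfl⟩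

theorem pm_inv (hp : Pm ψ π p s) (e : (¬ ∀ j, p j = j) ∧ ∀ j, p (p j) = j) : MH.Inv s :=
  ⟨mt (h.pm_one hp).1 e.1, (h.pm_one (hp.mul hp)).2 e.2⟩

theorem pm_β {c : Fin 64} (e : Eg c = fun _ => false) : Pm ψ π (P c) (h.β c) := by
  rw [Pm, ← e]; exact h.rp c

theorem ord (hp : Pm ψ π p s) {n : ℕ} [Fact n.Prime] (e : (¬ ∀ j, p j = j) ∧ ∀ j, p^[n] j = j) : orderOf s = n :=
  orderOf_eq_prime ((h.pm_one (hp.pow n)).2 e.2) (mt (h.pm_one hp).1 e.1)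

theorem l0 (h3 : (3 : K) = 0) : Rp ψ π (to3 K (X3 0)) (h.β 2) := by
  rw [show X3 0 = enc (Sz 2) by decide +kernel, to3_enc h3]; exact h.rp _

theorem l1 (h3 : (3 : K) = 0) : Rp ψ π (to3 K (X3 1)) (h.β 16) := by
  rw [show X3 1 = enc (Sz 16) by decide +kernel, to3_enc h3]; exact h.rp _

theorem l2 (h3 : (3 : K) = 0) : Rp ψ π (to3 K (X3 2)) (h.β 8) := by
  rw [show X3 2 = enc (Sz 8) by decide +kernel, to3_enc h3]; exact h.rp _

theorem l3 (h3 : (3 : K) = 0) : Rp ψ π (to3 K (X3 3)) (h.β 32) := by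
  rw [show X3 3 = enc (Sz 32) by decide +kernel, to3_enc h3]; exact h.rp _

variable {e : K} (he : 2 * e * e = 1) {a b : T}

theorem conjH : A (cj ψ _ (hH he)) π z := h.conj (hH he) (by decide +kernel) fun c => ⟨_, kH c⟩

theorem char3 (ha : Pm ψ π pa a) (hb : Pm (cj ψ _ (hH he)) π pa b)
    (h4 : ∀ s u : T, MH.Inv s → MH.Inv u → (s * u) ^ 4 = 1 ∨ (s * u) ^ 9 = 1 ∨ (s * u) ^ 5 = 1) : (3 : K) = 0 := by
  have h' := h.conjH he
  have ia := h.pm_inv ha (by decide)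
  have e0 : e ≠ 0 := by rintro rfl; simp at he
  have hu := (hb.mul (h'.pm_β (c := 48) (by decide +kernel))).mul hb
  have h5 := h4 _ _ ia (h'.pm_inv hu (by decide +kernel))
  have h6 := Rp.mul ha (Rp.cj hu)
  generalize a * _ = w at h5 h6
  rw [mul_smul_comm, smul_mul_assoc, smul_mul_assoc, mul_smul_comm, mul_smul_comm, smul_smul, ← map_mul, ← map_mul, ← map_mul] at h6
  obtain ⟨W, hW, e4, e9, e5⟩ := wrd
  have key : ∀ n i j, i ≠ j → w ^ n = 1 → (((W ^ n) i j : ℤ) : K) = 0 := fun n i j ne e => by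
    have := (h.eq_iff (h6.pow n) .one).1 e
    rw [hW, smul_pow, ← map_pow] at this
    rcases this with e | e <;> simpa [ne, e0, cz_apply, -map_pow] using congrFun (congrFun e i) j
  rcases h5 with e | e | e
  · exact absurd (by simpa [e4] using key 4 0 3 (by decide) e) h.two
  · exact absurd (by simpa [e9, -Int.reducePow] using key 9 1 3 (by decide) e) h.two
  · simpa [e5] using key 5 2 4 (by decide) e

theorem letters (h3 : (3 : K) = 0) (ha : Pm ψ π pa a) (hb : Pm (cj ψ _ (hH he)) π pa b) (i : ℕ) : ∃ t, Rp ψ π (to3 K (X3 i)) t := by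
  refine getD_ind (Q := fun a => ∃ t, Rp ψ π (to3 K a) t) ?_ i
  simp only [List.forall_mem_cons]
  refine ⟨⟨1, by simpa [to3_enc h3] using Rp.one⟩, ⟨_, h.l0 h3⟩, ⟨_, h.l1 h3⟩, ⟨_, h.l2 h3⟩, ⟨_, h.l3 h3⟩, ⟨_, ha.l4 h3⟩,
    ⟨b, (Rp.cj hb).sg (.inl ?_)⟩, by simp⟩
  rw [show 148435019981385368 = enc (-(H0 * (sp pa fun _ => false) * H0)) by decide +kernel, to3_enc h3, map_neg, map_mul, map_mul,
    mul_smul_comm, smul_mul_assoc, smul_mul_assoc, smul_smul, show e * e = -1 by linear_combination e * e * h3 - he, neg_one_smul]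

theorem seven (h3 : (3 : K) = 0) {t : ℕ → T} (ht : ∀ i, Rp ψ π (to3 K (X3 i)) (t i)) : 7 ∣ Nat.card (cl t 6) := by
  have : Fact (Nat.Prime 7) := ⟨by norm_num⟩
  have h4 : orderOf (t 2 * (t 4 * t 5)) = 7 := orderOf_eq_prime (by simpa [pow_succ, mul_assoc] using ec_fst h h3 ht ord7) fun e => by
    have h5 := (h.eq_iff (rp_ev h3 ht [2, 4, 5]) .one).1 (by simpa using e)
    have h6 : en (ev mul3 X3 (enc 1) [2, 4, 5]) 1 % 3 = 1 ∨ en (ev mul3 X3 (enc 1) [2, 4, 5]) 1 % 3 = 2 := by decide +kernel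
    generalize ev _ _ _ _ = B at h5 h6
    have h7 : to3 K B 0 1 = 0 := by rcases h5 with e | e <;> simp [e]
    have h8 : ((en B 1 % 3 : ℕ) : K) = 0 := (cast_mod h3 _).trans h7
    rcases h6 with e | e <;> simp [e, h.two] at h8
  exact h4 ▸ orderOf_dvd_card_of_mem (mul_mem (mem_cl t (by decide)) (mul_mem (mem_cl t (by decide)) (mem_cl t (by decide))))

theorem rat [Finite T] (h3 : (3 : K) = 0) {t : ℕ → T} (ht : ∀ i, Rp ψ π (to3 K (X3 i)) (t i)) (hg : cl t 6 = ⊤) (x : Γ) :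
    ∃ N, ψ x = cz K N := by
  obtain ⟨B, hB⟩ := cl_ind (Q := fun s => ∃ B, Rp ψ π (to3 K B) s) ⟨enc 1, by simpa [to3_enc h3] using Rp.one⟩
    (fun y i _ ⟨B, hB⟩ => ⟨mul3 B (X3 i), by rw [to3_mul h3]; exact hB.mul (ht i)⟩) (hg ▸ mem_top (π x))
  have e : to3 K B = cz K (of fun i j => (en B (6 * i + j) : ℕ)) := by ext; simp [to3, cz_apply]
  exact ((h.eq_iff ⟨x, rfl, .rfl⟩ hB).1 rfl).elim (fun e' => ⟨_, e'.trans e⟩) fun e' => ⟨_, by rw [e', e, ← map_neg]⟩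

end A

end Cfsg.Agent.H4.L34
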