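import Cfsg.Agent.H1.N4i

/-! Counting in the extension by `S₄`, abstract version. -/

set_option autoImplicit false

namespace Cfsg.Agent.H4.NM

open Subgroup Cfsg.Agent.MH Cfsg.Agent.H1.Mit Cfsg.Agent.H1.N1 Equiv

variable {T : Type*} [Group T] {x y z g s t u v : T} {H M Z : Subgroup T} {Ro : T → Prop} {p : ℕ} {ψ : M →* S4}

/-- the extension by `S₄` -/
def NT (Ro : T → Prop) (t : T) (M Z : Subgroup T) (ψ : M →* S4) : Prop := H1.N1.NT Ro t M Z ψ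

namespace NT

theorem zo (h : NT Ro t M Z ψ) (hz : z ∈ Z) (e : z * z = 1) : z = 1 := (Od.of_mem h.odd hz).eq_one e

theorem sg (h : NT Ro t M Z ψ) (hz : z ∈ Z) (z1 : z ≠ 1) (hx : x ∈ Cn z) : ∃ m : x ∈ M, Perm.sign (ψ ⟨x, m⟩) = 1 := by
  have m := h.nm z hz z1 x ((conj_eq_of_Cn hx).symm ▸ hz)
  exact ⟨m, (Int.units_eq_one_or _).resolve_right fun e =>
    z1 (h.zo hz (mul_eq_one_iff_eq_inv.2 ((conj_eq_of_Cn hx).symm.trans (h.od _ e z hz))))⟩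

theorem cz (h : NT Ro t M Z ψ) {x : M} (e : Perm.sign (ψ x) = 1) (hz : z ∈ Z) : (x : T) ∈ Cn z := Cn_of_conj (h.ev x e z hz)

theorem zz (h : NT Ro t M Z ψ) (hy : y ∈ Z) (hz : z ∈ Z) : y ∈ Cn z :=
  h.cz (x := ⟨y, h.le hy⟩) (by rw [(h.ker _).2 hy, map_one]) hz

theorem div (h : NT Ro t M Z ψ) {a b : M} (e : ψ a = ψ b) : (a : T) * (b : T)⁻¹ ∈ Z := (h.ker (a * b⁻¹)).1 (by simp [e])

theorem ie (h : NT Ro t M Z ψ) {a b : M} (a1 : (a : T) * a = 1) (b1 : (b : T) * b = 1) (hb : Perm.sign (ψ b) = 1)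
    (e : ψ a = ψ b) : (a : T) = b := by
  refine mul_inv_eq_one.1 (h.zo (h.div e) (mul_eq_one_iff_eq_inv.2 ((h.ev b hb _ (h.div e)).symm.trans ?_)))
  rw [mul_inv_rev, inv_inv, inv_eq_of_mul_eq_one_right a1, inv_eq_of_mul_eq_one_right b1, mul_assoc, mul_assoc, b1, mul_one]

theorem card_pre [Finite T] (h : NT Ro t M Z ψ) (P : S4 → Prop) [DecidablePred P] :
    (pre ψ P).ncard = (Finset.univ.filter P).card * Nat.card Z := by
  rw [← mul_one (pre ψ P).ncard, ← Set.ncard_coe_finset]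
  refine ncard_double (fun x a => ∃ h : x ∈ M, ψ ⟨x, h⟩ = a) _ _ (fun x ⟨a, b⟩ => Set.ncard_eq_one.2 ⟨ψ ⟨x, a⟩, ?_⟩) fun a ha => ?_
  · ext c
    exact ⟨fun ⟨_, _, k⟩ => k.symm, by rintro rfl; exact ⟨by simpa using b, a, rfl⟩⟩
  obtain ⟨m, rfl⟩ := h.surj a
  rw [← ncard_coset Z m]
  congr 1
  ext x
  refine ⟨fun ⟨_, _, k⟩ => h.div k, fun k => ?_⟩
  have hx : x ∈ M := (mul_mem_cancel_right (inv_mem m.2)).1 (h.le k)
  have e : ψ ⟨x, hx⟩ = ψ m := mul_inv_eq_one.1 (by rw [← map_inv, ← map_mul]; exact (h.ker _).2 k)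
  exact ⟨⟨hx, by simpa [e] using ha⟩, hx, e⟩

theorem tM (h : NT Ro t M Z ψ) : t ∈ M := h.ct (self_mem_Cn t)

theorem sq (h : NT Ro t M Z ψ) (x : M) : ψ x * ψ x = 1 ↔ (x : T) * x ∈ Z := by rw [← map_mul, h.ker]; rfl

theorem tu (h : NT Ro t M Z ψ) : ψ ⟨t, h.tM⟩ ≠ 1 ∧ ψ ⟨t, h.tM⟩ * ψ ⟨t, h.tM⟩ = 1 ∧ Perm.sign (ψ ⟨t, h.tM⟩) = 1 := by
  obtain ⟨z, hz, z1⟩ := (bot_or_exists_ne_one Z).resolve_left h.ne
  exact ⟨fun e => h.inv.1 (h.zo ((h.ker _).1 e) h.inv.2), (h.sq _).2 (h.inv.2.symm ▸ Z.one_mem),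
    (h.sg hz z1 (mem_Cn_comm.1 (h.tz hz))).2⟩

theorem mem_ct (h : NT Ro t M Z ψ) (x : M) : (x : T) ∈ Cn t ↔ ψ ⟨t, h.tM⟩ * ψ x = ψ x * ψ ⟨t, h.tM⟩ :=
  ⟨fun e => by rw [← map_mul, ← map_mul]; exact congrArg ψ (Subtype.ext (mem_Cn.1 e)), fun e => Cn_of_conj
    (h.ie (a := x * ⟨t, h.tM⟩ * x⁻¹) (h.inv.conj x).2 h.inv.2 h.tu.2.2 (by simp [← e]))⟩

theorem card_ct [Finite T] (h : NT Ro t M Z ψ) : Nat.card (Cn t) = 8 * Nat.card Z := by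
  rw [← (s4_c _ h.tu.1 h.tu.2.1 h.tu.2.2).2.1, ← h.card_pre, ← ncard_coe]
  exact congrArg _ (Set.ext fun x => ⟨fun a => ⟨h.ct a, (h.mem_ct ⟨x, h.ct a⟩).1 a⟩, fun ⟨a, b⟩ => (h.mem_ct ⟨x, a⟩).2 b⟩)

theorem card_M [Finite T] (h : NT Ro t M Z ψ) : Nat.card M = 24 * Nat.card Z := by
  rw [← ncard_coe, show 24 = (Finset.univ.filter fun _ : S4 => True).card by simp [Fintype.card_perm, Nat.factorial], ← h.card_pre]
  exact congrArg _ (Set.ext fun x => ⟨fun a => ⟨a, trivial⟩, fun a => a.1⟩)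

theorem lift (h : NT Ro t M Z ψ) {a : S4} (e : a * a = 1) : ∃ v : M, ψ v = a ∧ (v : T) * v = 1 := by
  obtain ⟨m, rfl⟩ := h.surj a
  obtain ⟨n, ⟨k, rfl⟩, e'⟩ := Od.of_mem h.odd ((h.sq m).1 e)
  exact ⟨m ^ (2 * k + 1), by rw [map_pow, pow_succ, pow_mul, pow_two, e, one_pow, one_mul],
    by rw [coe_pow, ← (Commute.refl _).mul_pow, e']⟩

theorem card_V [Finite T] (h : NT Ro t M Z ψ) : {x | x ∈ pre ψ (Perm.sign · = 1) ∧ x * x = 1}.ncard = 4 := by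
  refine Eq.trans ?_ ((Set.ncard_coe_finset _).trans s4_cV)
  refine Set.ncard_congr (fun x a => ψ ⟨x, a.1.1⟩) (fun x a => ?_) (fun x y a b e => h.ie a.2 b.2 b.1.2 e) fun a ha => ?_
  · simpa using ⟨a.1.2, (h.sq _).2 (a.2.symm ▸ Z.one_mem)⟩
  · obtain ⟨v, rfl, e⟩ := h.lift (a := a) (by simp at ha; exact ha.2)
    exact ⟨v, ⟨⟨v.2, by simp at ha; exact ha.1⟩, e⟩, rfl⟩

theorem even [Finite T] (h : NT Ro t M Z ψ) {x : M} (e : Perm.sign (ψ x) = 1) (e' : ψ x * ψ x = 1) (x2 : (x : T) * x ≠ 1) :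
    nv (x : T) = 3 := by
  have : {s | Inv s ∧ s ∈ Cn (x : T)} = {x | x ∈ pre ψ (Perm.sign · = 1) ∧ x * x = 1} \ {1} := by
    ext s
    refine ⟨fun a => ⟨⟨h.sg ((h.sq x).1 e') x2 (mem_Cn_comm.1 (mul_mem (mem_Cn_comm.1 a.2) (mem_Cn_comm.1 a.2))), a.1.2⟩, a.1.1⟩,
      fun ⟨⟨⟨a, b⟩, c⟩, d⟩ => ⟨⟨d, c⟩, mem_Cn_comm.1 ?_⟩⟩
    obtain ⟨v, e1, e2⟩ := h.lift e'
    refine (mul_mem_cancel_right (inv_mem (mem_Cn_comm.1 (Cn_of_conj ?_)))).1 (mem_Cn_comm.1 (h.cz b (h.div e1.symm)))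
    exact h.ie (a := ⟨s, a⟩ * v * ⟨s, a⟩⁻¹) (conj_mul_self.2 e2) e2 (e1 ▸ e) (by
      simp [e1, s4_v _ _ b ((h.sq _).2 (c.symm ▸ Z.one_mem)) e e'])
  have k := Set.ncard_sdiff_singleton_add_one (s := {x | x ∈ pre ψ (Perm.sign · = 1) ∧ x * x = 1}) (a := 1)
    ⟨⟨M.one_mem, by rw [show (⟨1, M.one_mem⟩ : M) = 1 from rfl, map_one]; exact map_one _⟩, one_mul 1⟩
  rw [h.card_V, ← this] at k
  exact Nat.succ_injective k

theorem cases [Finite T] (h : NT Ro t M Z ψ) (hx : x ∈ Cn t) (x2 : x * x ≠ 1) :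
    (Perm.sign (ψ ⟨x, h.ct hx⟩) = 1 ∧ x * x ∈ Z ∧ nv x = 3) ∨
    (Perm.sign (ψ ⟨x, h.ct hx⟩) = -1 ∧ ψ ⟨x, h.ct hx⟩ * ψ ⟨x, h.ct hx⟩ ≠ 1 ∧ nv x = 1 ∧ Nat.card (Cn x) ≤ 4 ∧ x * x = t) := by
  have k := (s4_c _ h.tu.1 h.tu.2.1 h.tu.2.2).1 _ ((h.mem_ct ⟨x, h.ct hx⟩).1 hx)
  refine (Int.units_eq_one_or _).imp (fun e => ⟨e, (h.sq _).1 (k.1 e), h.even e (k.1 e) x2⟩) fun e => ?_
  have zc : ∀ z ∈ Z, x ∈ Cn z → z = 1 := fun z a b => by_contra fun n => by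
    obtain ⟨_, e'⟩ := h.sg a n b
    exact absurd (e.symm.trans e') (by decide)
  have n : ψ ⟨x, h.ct hx⟩ * ψ ⟨x, h.ct hx⟩ ≠ 1 := fun a =>
    x2 (zc _ ((h.sq _).1 a) (mem_Cn_comm.1 (mul_mem (self_mem_Cn x) (self_mem_Cn x))))
  have xt : x * x = t := mul_inv_eq_one.1 (zc _ (h.div (a := ⟨x, h.ct hx⟩ * ⟨x, h.ct hx⟩) (b := ⟨t, h.tM⟩)
    (by rw [map_mul, k.2.resolve_left n])) (mem_Cn_comm.1 (mul_mem (mul_mem (self_mem_Cn x) (self_mem_Cn x))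
      (inv_mem (mem_Cn_comm.1 hx)))))
  have le : Cn x ≤ M := fun s a => h.ct (xt ▸ mem_Cn_comm.1 (mul_mem (mem_Cn_comm.1 a) (mem_Cn_comm.1 a)))
  have cm : ∀ s (a : s ∈ Cn x), ψ ⟨x, h.ct hx⟩ * ψ ⟨s, le a⟩ = ψ ⟨s, le a⟩ * ψ ⟨x, h.ct hx⟩ := fun s a => by
    rw [← map_mul, ← map_mul]; exact congrArg ψ (Subtype.ext (mem_Cn.1 a))
  refine ⟨e, n, nv_eq_one h.inv (mem_Cn_comm.1 hx) fun s i a => h.ie (a := ⟨s, le a⟩) i.2 h.inv.2 h.tu.2.2 ?_, ?_, xt⟩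
  · rw [← k.2.resolve_left n]
    exact ((s4_four _ n e).1 _ (cm s a) ((h.sq _).2 (i.2.symm ▸ Z.one_mem))).resolve_left fun b => i.1 (h.zo ((h.ker _).1 b) i.2)
  rw [← (s4_four _ n e).2, ← Fintype.card_coe, ← Nat.card_eq_fintype_card]
  exact Nat.card_le_card_of_injective (fun s => ⟨ψ ⟨s, le s.2⟩, by simpa using cm s s.2⟩) fun a b k => Subtype.ext
    (mul_inv_eq_one.1 (zc _ (h.div (congrArg Subtype.val k)) (mem_Cn_comm.1 (mul_mem a.2 (inv_mem b.2)))))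

theorem three_le [Finite T] (h : NT Ro t M Z ψ) : 3 ≤ Nat.card Z := by
  have := (one_lt_card_iff_ne_bot Z).2 h.ne
  have := Nat.odd_iff.1 h.odd
  omega

theorem count [Finite T] (h : NT Ro t M Z ψ) :
    ((OO T).ncard : ℚ) / Nat.card T = 7 / 12 + (Nat.card Z : ℚ)⁻¹ / 24 - (Nat.card T : ℚ)⁻¹ := by
  have k := s4_c _ h.tu.1 h.tu.2.1 h.tu.2.2
  have e1 : {x : T | x ∈ Cn t ∧ x * x ≠ 1 ∧ nv x = 1}.ncard = 2 * Nat.card Z := by
    rw [← k.2.2, ← h.card_pre]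
    refine congrArg _ (Set.ext fun x => ⟨fun a => ⟨h.ct a.1, (h.mem_ct ⟨x, _⟩).1 a.1,
      ((h.cases a.1 a.2.1).resolve_left fun b => by have := a.2.2; omega).2.1⟩, fun ⟨a, b, c⟩ => ?_⟩)
    have m := (h.mem_ct ⟨x, a⟩).2 b
    have x2 : x * x ≠ 1 := fun e => c ((h.sq _).2 (e.symm ▸ Z.one_mem))
    exact ⟨m, x2, ((h.cases m x2).resolve_left fun e => c ((h.sq _).2 e.2.1)).2.2.1⟩
  have e2 : {x : T | x ∈ Cn t ∧ x * x ≠ 1 ∧ nv x = 3}.ncard + 4 = 4 * Nat.card Z := by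
    refine ((congrArg (_ + ·) h.card_V.symm).trans ?_).trans ((h.card_pre _).trans (congrArg (· * _) s4_cV))
    rw [← Set.ncard_union_eq (Set.disjoint_left.2 fun x a b => a.2.1 b.2)]
    refine congrArg _ (Set.ext fun x => ⟨?_, fun ⟨a, b, c⟩ => ?_⟩)
    · rintro (a | ⟨⟨a, b⟩, c⟩)
      · have := (h.cases a.1 a.2.1).resolve_right fun b => by have := a.2.2; omega
        exact ⟨_, this.1, (h.sq _).2 this.2.1⟩
      · exact ⟨a, b, (h.sq _).2 (c.symm ▸ Z.one_mem)⟩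
    by_cases e : x * x = 1
    exacts [Or.inr ⟨⟨a, b⟩, e⟩, Or.inl ⟨(h.mem_ct ⟨x, a⟩).2 (s4_v _ _ h.tu.2.2 h.tu.2.1 b c), e, h.even b c e⟩]
  rw [h.cls.count h.inv (fun x a b => (h.cases a b).symm.imp (·.2.2.1) (·.2.2)) e1 rfl, h.card_ct]
  have := h.three_le
  have : (Nat.card Z : ℚ) ≠ 0 := by positivity
  generalize {x : T | x ∈ Cn t ∧ x * x ≠ 1 ∧ nv x = 3}.ncard = β at *
  qify at e2
  rw [eq_sub_of_add_eq e2]
  push_cast
  field_simp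
  ring

theorem p4 [Finite T] (h : NT Ro t M Z ψ) : P4 t := fun g a x b a1 b1 a2 b2 e => by
  have k : ∀ {g : T} (a : g ∈ Cn t), g * g ≠ 1 → g ^ 4 = 1 → Perm.sign (ψ ⟨g, h.ct a⟩) = -1 := fun {g} a b c =>
    ((h.cases a b).resolve_left fun e => b (h.zo e.2.1 (pow_four_eq g ▸ c))).1
  by_contra n
  have := k (mul_mem a b) n e
  rw [show ψ ⟨g * x, _⟩ = ψ ⟨g, h.ct a⟩ * ψ ⟨x, h.ct b⟩ from map_mul ψ ⟨g, _⟩ ⟨x, _⟩, map_mul, k a a1 a2, k b b1 b2] at this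
  exact absurd this (by decide)

theorem od_mem [Finite T] (h : NT Ro t M Z ψ) (hx : x ∈ Cn t) (o : Od x) : x ∈ Z := by
  by_cases e : x * x = 1
  · exact o.eq_one e ▸ Z.one_mem
  refine o.mem (k := 2) ((h.ker (⟨x, h.ct hx⟩ ^ 4)).1 ?_)
  rw [map_pow, pow_four_eq]
  rcases ((s4_c _ h.tu.1 h.tu.2.1 h.tu.2.2).1 _ ((h.mem_ct ⟨x, h.ct hx⟩).1 hx)).2 with k | k <;> simp [k, h.tu.2.1]

theorem conj_Z [Finite T] (h : NT Ro t M Z ψ) (o : Od x) (h1 : x ≠ 1) (hx : x ∉ OO T) : ∃ g, g * x * g⁻¹ ∈ Z :=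
  (h.cls.conj_mem fun e => hx ⟨mt o.eq_one h1, e⟩).imp fun g a => h.od_mem a (o.conj g)


theorem not_oo (h : NT Ro t M Z ψ) [Finite T] (hz : z ∈ Z) : z ∉ OO T := fun e =>
  nv_eq_zero.1 e.2 t h.inv (mem_Cn_comm.1 (h.tz hz))

theorem not_cc (h : NT Ro t M Z ψ) [Finite T] {x : M} (e : Perm.sign (ψ x) = 1) : (x : T) ∉ CC T := fun k => by
  obtain ⟨z, hz, z1⟩ := (bot_or_exists_ne_one Z).resolve_left h.ne
  exact h.not_oo hz (CC_mem k (mem_Cn_comm.1 (h.cz e hz)) z1).1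

theorem co [Finite T] (h : NT Ro t M Z ψ) (hx : x ∈ CC T) : (Nat.card (Cn x)).Coprime (24 * Nat.card Z) := by
  rw [show 24 * Nat.card Z = 3 * (8 * Nat.card Z) by ring, ← h.card_ct]
  refine Nat.Coprime.mul_right (((Nat.Prime.coprime_iff_not_dvd Nat.prime_three).2 fun k => ?_).symm)
    (hx.2.coprime_Cn (Nat.odd_iff.1 (OO_odd hx.1)) h.inv)
  obtain ⟨y, hy, e⟩ := exists_mem_orderOf (H := M) Nat.prime_three (by rw [h.card_M]; omega)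
  have y3 : y ^ 3 = 1 := e ▸ pow_orderOf_eq_one y
  refine h.not_cc (x := ⟨y, hy⟩) ((Int.units_eq_one_or _).resolve_right fun a => ?_)
    (CC_cj hx (hx.2.exists_conj Nat.prime_three k y3) (by rintro rfl; simp at e)).1
  have := congrArg (fun x => Perm.sign (ψ x)) (show (⟨y, hy⟩ : M) ^ 3 = 1 from Subtype.ext y3)
  simp only [map_pow, a, map_one] at this
  exact absurd this (by decide)

theorem cw (h : NT Ro t M Z ψ) {w x : M} (w1 : ψ w ≠ 1) (w3 : ψ w ^ 3 = 1) (e : ψ w * ψ x = ψ x * ψ w) : (x : T) ∈ Cn (w : T) := by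
  have k := s4_three _ w1 w3
  have : ∀ a : M, (a : T) ∈ Cn (w : T) → ψ x = ψ a → (x : T) ∈ Cn (w : T) := fun a b c =>
    (mul_mem_cancel_right (inv_mem b)).1 (mem_Cn_comm.1 (h.cz k.1 (h.div c)))
  rcases k.2.1 _ e with e | e | e
  exacts [this 1 (one_mem _) (e.trans (map_one ψ).symm), this w (self_mem_Cn _) e,
    this w⁻¹ (inv_mem (self_mem_Cn _)) (e.trans (map_inv ψ w).symm)]

theorem Cn_eq [Finite T] (h : NT Ro t M Z ψ) (h' : LG Ro p) {w : M} (w1 : ψ w ≠ 1) (w3 : ψ w ^ 3 = 1) (o : (w : T) ∈ OO T) :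
    (Cn (w : T) : Set T) = pre ψ fun b => ψ w * b = b * ψ w := by
  ext x
  refine ⟨fun a => ?_, fun ⟨a, b⟩ => h.cw w1 w3 b⟩
  obtain ⟨z, hz, z1⟩ := (bot_or_exists_ne_one Z).resolve_left h.ne
  obtain ⟨m, -⟩ := h.sg hz z1 (mem_Cn.2 (h'.oo_comm o (mem_Cn_comm.1 (h.cz (s4_three _ w1 w3).1 hz)) a))
  exact ⟨m, by simp only [← map_mul]; exact congrArg ψ (Subtype.ext (mem_Cn.1 a))⟩

theorem dens [Finite T] (h : NT Ro t M Z ψ) (h' : LG Ro p) {w : M} (w1 : ψ w ≠ 1) (w3 : ψ w ^ 3 = 1) (o : (w : T) ∈ OO T) :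
    ((OO T \ CC T).ncard : ℚ) / Nat.card T = (OO T ∩ Cn (w : T)).ncard / Nat.card (Nm (Cn (w : T))) ∧
    Nat.card (Cn (w : T)) = 3 * Nat.card Z ∧ Nat.card (Nm (Cn (w : T)) ⊓ M :) = 6 * Nat.card Z ∧
    ∀ x ∈ OO T \ CC T, Cj (w : T) x := by
  have k := s4_three _ w1 w3
  have e := h.Cn_eq h' w1 w3 o
  have cj : ∀ x ∈ OO T \ CC T, Cj (w : T) x := fun x a => by
    obtain ⟨y, hy, y1, oy, n⟩ := h'.not_cc a.1 a.2
    obtain ⟨g, hg⟩ := h.conj_Z oy y1 n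
    obtain ⟨m, -⟩ := h.sg hg (by simpa) (conj_mem_Cn.2 (mem_Cn_comm.1 hy))
    have n1 : ψ ⟨_, m⟩ ≠ 1 := fun e => h.not_oo ((h.ker _).1 e) (OO_conj g a.1)
    obtain ⟨b, hb⟩ := k.2.2.1 _ n1 ((H4.Small.S4_pow _).resolve_right fun e => n1 (Od.eq_one' (k := 2)
      (((Od.of_mem (OO_odd a.1) (self_mem_Cn x)).conj g).imp fun n c => ⟨c.1, by
        rw [← map_pow, ← map_one ψ]; exact congrArg ψ (Subtype.ext c.2)⟩) e))
    obtain ⟨b, rfl⟩ := h.surj b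
    exact ⟨b * g, by simpa [mul_assoc] using h.cw (x := b * ⟨_, m⟩ * b⁻¹) w1 w3 (by simp only [map_mul, map_inv, hb])⟩
  refine ⟨?_, by rw [← ncard_coe, e, h.card_pre, k.2.2.2.1], ?_, cj⟩
  · rw [← h'.gd.card o]
    congr 3
    ext x
    exact ⟨fun a => ⟨a.1, cj x a⟩, fun a => ⟨a.1, fun b => h.not_cc k.1 (CC_cj b (h'.gd.symm o a.1 a.2) (OO_ne o)).1⟩⟩
  rw [← k.2.2.2.2, ← h.card_pre, ← ncard_coe]
  congr 1
  ext g
  refine ⟨fun a => ⟨a.2, ?_⟩, fun ⟨a, b⟩ => ⟨mem_Nm fun x hx => ?_, a⟩⟩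
  · obtain ⟨_, b⟩ := e.le (Nm_conj a.1 (self_mem_Cn _))
    rw [← map_inv, ← map_mul, ← map_mul]
    exact b
  obtain ⟨m, c⟩ := e.le hx
  refine h.cw (x := ⟨g, a⟩ * ⟨x, m⟩ * ⟨g, a⟩⁻¹) w1 w3 ?_
  simp only [map_mul, map_inv]
  rcases k.2.1 _ c with d | d | d <;> rw [d]
  · simp
  · exact b
  · rw [← conj_inv]; exact (Commute.inv_right b).eq

theorem split [Finite T] (h : NT Ro t M Z ψ) (h' : LG Ro p) : ((OO T \ CC T).ncard : ℚ) / Nat.card T = 1 / 3 ∨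
    (Nat.card Z = 3 ∧ ((OO T \ CC T).ncard : ℚ) / Nat.card T = 1 / 9 ∧ (∀ x ∈ OO T \ CC T, x ^ 3 = 1) ∧
      ∃ z ∈ Z, z ≠ 1 ∧ ∃ w : M, ψ w ≠ 1 ∧ ψ w ^ 3 = 1 ∧ ∃ g : T, g * z * g⁻¹ = w ∧ g * w * g⁻¹ = z⁻¹) := by
  have n3 := h.three_le
  by_cases f : ∀ w : M, ψ w ≠ 1 → ψ w ^ 3 = 1 → (w : T) ∈ OO T
  · obtain ⟨w, hw⟩ := h.surj (swap 0 1 * swap 1 2)
    have w1 : ψ w ≠ 1 := hw ▸ by decide
    have w3 : ψ w ^ 3 = 1 := hw ▸ by decide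
    have o := f w w1 w3
    obtain ⟨e1, e2, e3, -⟩ := h.dens h' w1 w3 o
    have k := s4_three _ w1 w3
    have mz : ∀ x ∈ Cn (w : T), x ∉ OO T → x ∈ Z := fun x a b => by_contra fun n => by
      obtain ⟨m, c⟩ := (h.Cn_eq h' w1 w3 o).le a
      exact b (f ⟨x, m⟩ (mt (h.ker _).1 n) (by rcases k.2.1 _ c with d | d | d <;> simp [d, w3]))
    have le : Z ≤ Cn (w : T) := fun z a => mem_Cn_comm.1 (h.cz k.1 a)
    rw [inf_eq_left.2 fun g a => by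
      obtain ⟨z, hz, z1⟩ := (bot_or_exists_ne_one Z).resolve_left h.ne
      exact h.nm z hz z1 g (mz _ (Nm_conj a (le hz)) fun b => h.not_oo hz (by simpa [mul_assoc] using OO_conj g⁻¹ b))] at e3
    have : OO T ∩ Cn (w : T) = (Cn (w : T) : Set T) \ Z :=
      Set.ext fun x => ⟨fun a => ⟨a.2, fun b => h.not_oo b a.1⟩, fun a => ⟨by_contra fun b => a.2 (mz x a.1 b), a.1⟩⟩
    rw [e1, e3, this, Set.ncard_sdiff le, ncard_coe, ncard_coe, e2, show 3 * Nat.card Z - Nat.card Z = 2 * Nat.card Z by omega]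
    left
    have : (Nat.card Z : ℚ) ≠ 0 := by positivity
    push_cast
    field_simp
    norm_num
  push Not at f
  obtain ⟨w, w1, w3, n⟩ := f
  have k := s4_three _ w1 w3
  have wZ : (w : T) ∉ Z := mt (h.ker w).2 w1
  obtain ⟨g, hz⟩ := h.conj_Z (x := (w : T)) (by
    obtain ⟨m, a, b⟩ := Od.of_mem h.odd ((h.ker (w ^ 3)).1 (by rw [map_pow, w3]))
    exact ⟨3 * m, Odd.mul (by decide) a, by rw [pow_mul]; exact b⟩) (fun e => wZ (e ▸ Z.one_mem)) n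
  have z1 : g * w * g⁻¹ ≠ 1 := fun e => wZ (conj_eq_one_iff.1 e ▸ Z.one_mem)
  have gM : g ∉ M := fun e => w1 (conj_eq_one_iff.1 (by
    simpa only [map_mul, map_inv] using (h.ker (⟨g, e⟩ * w * ⟨g, e⟩⁻¹)).2 hz))
  have c3 : Nat.card Z = 3 := le_antisymm (by
    obtain ⟨y, hy, y1⟩ := (bot_or_exists_ne_one Z).resolve_left h.ne
    obtain ⟨_, sy⟩ := h.sg hz z1 (conj_mem_Cn.2 (mem_Cn_comm.1 (h.cz k.1 hy)))
    have m : ∀ z ∈ Z, g⁻¹ * z * g ∈ M := fun z a => (h.sg hy y1 ((conj_mem_Cn (g := g)).1 (by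
      simpa [mul_assoc] using mem_Cn_comm.1 (h.cz sy a)))).1
    rw [← k.2.2.2.1, ← Fintype.card_coe, ← Nat.card_eq_fintype_card]
    refine Nat.card_le_card_of_injective (fun z => ⟨ψ ⟨_, m z z.2⟩, ?_⟩) fun a b e => Subtype.ext ?_
    · simp only [Finset.mem_filter, Finset.mem_univ, true_and, ← map_mul]
      exact congrArg ψ (Subtype.ext (mem_Cn.1 ((conj_mem_Cn (g := g)).1 (by simpa [mul_assoc] using h.zz z.2 hz))))
    exact mul_inv_eq_one.1 (by_contra fun d => gM (inv_mem_iff.1 (h.nm _ (mul_mem a.2 (inv_mem b.2)) d g⁻¹ <| by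
      simpa [mul_assoc] using h.div (congrArg Subtype.val e))))) n3
  obtain ⟨z, ez⟩ : ∃ z, g * w * g⁻¹ = z := ⟨_, rfl⟩
  rw [ez] at hz z1
  have ew : g⁻¹ * z * g⁻¹⁻¹ = w := by rw [← ez]; group
  have z3 : ∀ z ∈ Z, z ^ 3 = 1 := fun z a => c3 ▸ pow_card_mem a
  have w3' : (w : T) ^ 3 = 1 := by rw [← ew, conj_pow, z3 z hz]; simp
  have wz := h.cz k.1 hz
  have nw : ∀ {x}, x ∈ Z → (w : T) ≠ x ∧ (w : T)⁻¹ ≠ x := fun a =>
    ⟨fun e => wZ (e ▸ a), fun e => wZ (inv_mem_iff.1 (e ▸ a))⟩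
  have ww : (w : T) ≠ (w : T)⁻¹ := fun e => (nw Z.one_mem).1 (eq_one_of_odd (by decide) w3' (mul_eq_one_iff_eq_inv.2 e))
  have rot4 : ∀ x ∈ Cn z, x ∈ Cn (w : T) → x ≠ 1 → Od x → x ∉ OO T → x = z ∨ x = z⁻¹ ∨ x = w ∨ x = (w : T)⁻¹ :=
    fun x a b c d e => by
      obtain ⟨j, hj⟩ : ∃ j, j * z * j⁻¹ = x := by
        obtain ⟨j, hj⟩ := h.conj_Z d c e
        rcases (mem_three c3 hz z1 hj).resolve_left (by simpa) with e | e
        · exact ⟨j⁻¹, by rw [← e]; group⟩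
        obtain ⟨m, hm⟩ := h.surj (swap 0 1)
        exact ⟨j⁻¹ * m, by
          rw [show j⁻¹ * m * z * (j⁻¹ * m)⁻¹ = j⁻¹ * (m * z * (m : T)⁻¹) * j by group, h.od m (by simp [hm]) z hz, ← e]; group⟩
      have := h'.three z g⁻¹ j (h.rot z hz) ⟨3, by decide, z3 z hz⟩
      rw [hj, ew] at this
      exact ((this (mem_Cn.1 wz) (mem_Cn.1 a) (mem_Cn.1 b)).resolve_left (nw hz).1).resolve_left (nw (inv_mem hz)).1
  obtain ⟨x, ex, px⟩ : ∃ x : M, (x : T) = z * w ∧ ψ x = ψ w := ⟨⟨z, h.le hz⟩ * w, rfl, by rw [map_mul, (h.ker _).2 hz, one_mul]⟩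
  have xZ : (x : T) ∉ Z := fun e => wZ ((mul_mem_cancel_left hz).1 (ex ▸ e))
  have o : (x : T) ∈ OO T := by_contra fun n => by
    rcases rot4 x (ex ▸ mul_mem (self_mem_Cn z) wz) (ex ▸ mul_mem (mem_Cn_comm.1 wz) (self_mem_Cn _)) (fun e => xZ (e ▸ Z.one_mem))
      (ex ▸ Od.mul ⟨3, by decide, z3 z hz⟩ ⟨3, by decide, w3'⟩ (mem_Cn.1 wz)) n with e | e | e | e
    · exact xZ (e ▸ hz)
    · exact xZ (e ▸ inv_mem hz)
    · exact z1 (by simpa [ex] using e)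
    · refine (nw hz).1 ?_
      rw [eq_mul_inv_of_mul_eq (ex.symm.trans e), ← mul_inv_rev, eq_comm, inv_eq_iff_mul_eq_one, ← pow_three', w3']
  obtain ⟨e1, e2, e3, e4⟩ := h.dens h' (px ▸ w1) (px ▸ w3) o
  have zx : z ∈ Cn (x : T) := mem_Cn_comm.1 (ex ▸ mul_mem (self_mem_Cn z) wz)
  have wx : (w : T) ∈ Cn (x : T) := h.cw (px ▸ w1) (px ▸ w3) (by rw [px])
  have n' : (w : T)⁻¹ ∉ OO T := fun e => h.not_oo (inv_mem hz) (by simpa only [← ez, conj_inv] using OO_conj g e)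
  have r4 : ∀ y ∈ Cn (x : T), y ≠ 1 → y ∉ OO T → y = z ∨ y = z⁻¹ ∨ y = w ∨ y = (w : T)⁻¹ := fun y a b c =>
    rot4 y (mem_Cn.2 (h'.oo_comm o zx a)) (mem_Cn.2 (h'.oo_comm o wx a)) b (Od.of_mem (OO_odd o) a) c
  have e5 : (OO T ∩ Cn (x : T)).ncard = 4 := by
    have : OO T ∩ Cn (x : T) = (Cn (x : T) : Set T) \ {1, z, z⁻¹, w.1, (w : T)⁻¹} := Set.ext fun y => ⟨fun a => ⟨a.2, by
      rintro (rfl | rfl | rfl | rfl | rfl)
      exacts [OO_ne a.1 rfl, h.not_oo hz a.1, h.not_oo (inv_mem hz) a.1, n a.1, n' a.1]⟩,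
      fun a => ⟨by_contra fun b => a.2 (or_iff_not_imp_left.2 fun c => r4 y a.1 c b), a.1⟩⟩
    rw [this, Set.ncard_sdiff (by simp [Set.insert_subset_iff, zx, wx]), ncard_coe, e2, c3, Set.ncard_insert_of_notMem,
      Set.ncard_insert_of_notMem, Set.ncard_insert_of_notMem, Set.ncard_pair ww]
    · simp only [Set.mem_insert_iff, Set.mem_singleton_iff, not_or]
      exact ⟨(nw (inv_mem hz)).1.symm, (nw (inv_mem hz)).2.symm⟩
    · simp only [Set.mem_insert_iff, Set.mem_singleton_iff, not_or]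
      exact ⟨fun e => z1 (h.zo hz (mul_eq_one_iff_eq_inv.2 e)), (nw hz).1.symm, (nw hz).2.symm⟩
    · simp only [Set.mem_insert_iff, Set.mem_singleton_iff, not_or]
      exact ⟨z1.symm, by simpa using z1, (nw Z.one_mem).1.symm, (nw Z.one_mem).2.symm⟩
  have := Fact.mk Nat.prime_three
  obtain ⟨R, hR⟩ := (IsPGroup.of_card (p := 3) (n := 2) (G := Cn (x : T)) (by rw [e2, c3]; rfl)).exists_le_sylow
  have cm := h'.syl_comm Nat.prime_three (by decide) R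
  have eR : (R : Subgroup T) = Cn (x : T) := le_antisymm (fun y a => mem_Cn.2 (cm _ (hR (self_mem_Cn _)) y a)) hR
  have : IsMulCommutative R := ⟨⟨fun a b => Subtype.ext (cm a a.2 b b.2)⟩⟩
  obtain ⟨j, hj, ej⟩ := R.conj_eq_normalizer_conj_of_mem z g (hR zx) (by rw [inv_inv] at ew; exact ew ▸ hR wx)
  replace hj : j⁻¹ ∈ Nm (Cn (x : T)) := eR ▸ inv_mem hj
  replace ej : j⁻¹ * z * j⁻¹⁻¹ = w := by rw [← ew, inv_inv, inv_inv, ej]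
  generalize j⁻¹ = j at hj ej
  have out : ∀ a ∈ Nm (Cn (x : T)), a ∉ M → (a * z * a⁻¹ = w ∨ a * z * a⁻¹ = (w : T)⁻¹) ∧ a * w * a⁻¹ ∈ Z := fun a b c => by
    have k1 := ((r4 _ (Nm_conj b zx) (by simpa) fun e => h.not_oo hz (by simpa [mul_assoc] using OO_conj a⁻¹ e)).resolve_left
      fun e => c (h.nm z hz z1 a (e.symm ▸ hz))).resolve_left fun e => c (h.nm z hz z1 a (e.symm ▸ inv_mem hz))
    refine ⟨k1, ?_⟩
    rcases r4 _ (Nm_conj b wx) (by simpa using (nw Z.one_mem).1) fun e => n (by simpa [mul_assoc] using OO_conj a⁻¹ e)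
      with e | e | e | e
    · exact e ▸ hz
    · exact e ▸ inv_mem hz
    · rcases k1 with d | d
      · exact absurd (by simpa using e.trans d.symm) (nw hz).1
      · exact absurd (by simpa using (conj_inv.symm.trans (congrArg _ e)).trans d.symm) (nw hz).2
    · rcases k1 with d | d
      · exact absurd (by simpa using (conj_inv.symm.trans (congrArg _ e)).trans ((inv_inv _).trans d.symm)) (nw hz).2
      · exact absurd (by simpa using e.trans d.symm) (nw hz).1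
  have jM : j ∉ M := fun e => wZ (ej ▸ by
    rcases Int.units_eq_one_or (Perm.sign (ψ ⟨j, e⟩)) with d | d
    exacts [(h.ev _ d z hz).symm ▸ hz, (h.od _ d z hz).symm ▸ inv_mem hz])
  have e6 := card_two (A := Nm (Cn (x : T)) ⊓ M) inf_le_left hj (fun e => jM e.2) fun a ha b hb c d =>
    ⟨mul_mem ha hb, h.nm z hz z1 _ (by
      rw [show a * b * z * (a * b)⁻¹ = a * (b * z * b⁻¹) * a⁻¹ by group]
      have := (out a ha fun e => c ⟨ha, e⟩).2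
      rcases (out b hb fun e => d ⟨hb, e⟩).1 with e | e <;> rw [e]
      exacts [this, by rw [← conj_inv]; exact inv_mem this])⟩
  refine Or.inr ⟨c3, by rw [e1, e5, e6, e3, c3]; norm_num, fun y hy => ?_, z, hz, z1, w, w1, w3, j, ej, ?_⟩
  · obtain ⟨a, ha⟩ := e4 y hy
    obtain ⟨m, c⟩ := (h.Cn_eq h' (px ▸ w1) (px ▸ w3) o).le ha
    have : ∀ b : M, (b : T) ^ 3 = 1 → (b : T) ∈ Cn (x : T) → ψ ⟨_, m⟩ = ψ b → y ^ 3 = 1 := fun b c d e => by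
      have := z3 _ (h.div e)
      rw [Commute.mul_pow (h'.oo_comm o ha (inv_mem d)), inv_pow, c] at this
      simpa using this
    rcases k.2.1 _ (px ▸ c) with e | e | e
    exacts [this 1 (by simp) (one_mem _) (e.trans (map_one ψ).symm), this w w3' wx e,
      this w⁻¹ (by simp [w3']) (inv_mem wx) (e.trans (map_inv ψ w).symm)]
  refine ((mem_three c3 hz z1 (out j hj jM).2).resolve_left (by simpa using (nw Z.one_mem).1)).resolve_left fun e => ?_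
  have : j ∈ Cn (x : T) := Cn_of_conj (by rw [ex, ← conj_mul, ej, e, mem_Cn.1 wz])
  exact (nw hz).1 (by rw [← ej, h'.oo_comm o this zx, mul_inv_cancel_right])

end NT

end Cfsg.Agent.H4.NM
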