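import Cfsg.Agent.H4.ZOdd

/-! Sharply triply transitive groups with abelian two point stabiliser. -/

set_option autoImplicit false

namespace Cfsg.Agent.H4.ZSharp

open MulAction Cfsg.Agent.H4.ZBasic Cfsg.Agent.H4.ZCount Cfsg.Agent.H4.ZKer Cfsg.Agent.H4.Util
  Cfsg.Agent.H4.ZIdent Cfsg.Agent.H4.ZEven Cfsg.Agent.H4.ZMS Cfsg.Agent.H4.ZOdd Cfsg.Agent.H4.Mob

theorem eq_inv_of_fun_eq {K : Type*} [Field K] (h2 : (2 : K) ≠ 0) (σ : K → K)
    (hm : ∀ x y, x ≠ 0 → y ≠ 0 → σ (x * y) = σ x * σ y) (hne : ∀ x, x ≠ 0 → σ x ≠ 0)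
    (hi : ∀ x, x ≠ 0 → σ (σ x) = x) (hf : ∀ x, x ≠ 0 → σ x = x → x = 1 ∨ x = -1)
    (he : ∀ y, y ≠ 0 → y ≠ 1 → σ (1 - σ y) = 1 - σ (1 - y)) (h1 : σ 1 = 1) {x : K} (hx : x ≠ 0) :
    x * σ x = 1 := by
  have hε : ∀ x, x ≠ 0 → x * σ x = 1 ∨ x * σ x = -1 := fun x hx =>
    hf _ (mul_ne_zero hx (hne x hx)) (by rw [hm _ _ hx (hne x hx), hi x hx, mul_comm])
  have key : ∀ y, y ≠ 0 → y * σ y = -1 → y ^ 2 = y + 1 := by
    intro y hy e
    have hy1 : y ≠ 1 := by
      rintro rfl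
      rw [h1] at e
      exact h2 (by linear_combination e)
    have hs1 : 1 - σ y ≠ 0 := by
      intro e
      apply hy1
      rw [← hi y hy, show σ y = 1 by linear_combination -e, h1]
    have e1 := he y hy hy1
    rcases hε _ hs1 with e2 | e2 <;> rcases hε _ (sub_ne_zero.2 hy1.symm) with e3 | e3 <;>
      rw [e1] at e2
    · exfalso
      apply mul_ne_zero h2 hy
      linear_combination -(y * (1 - y)) * e2 - (y + 1) * e3 - (1 - y) * (1 - σ (1 - y)) * e
    · exfalso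
      apply h2
      linear_combination (y * (1 - y)) * e2 + (y + 1) * e3 + (1 - y) * (1 - σ (1 - y)) * e
    · exfalso
      apply mul_ne_zero (mul_ne_zero h2 hy) hy
      linear_combination -(y * (1 - y)) * e2 - (y + 1) * e3 - (1 - y) * (1 - σ (1 - y)) * e
    · apply mul_left_cancel₀ h2
      linear_combination -(y * (1 - y)) * e2 - (y + 1) * e3 - (1 - y) * (1 - σ (1 - y)) * e
  rcases hε x hx with e | e
  · exact e
  · exfalso
    have e1 := key x hx e
    have e2 : σ x⁻¹ * σ x = 1 := by rw [← hm _ _ (inv_ne_zero hx) hx, inv_mul_cancel₀ hx, h1]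
    have e3 := key x⁻¹ (inv_ne_zero hx) (by
      rw [inv_mul_eq_iff_eq_mul₀ hx]
      linear_combination -x * e2 + σ x⁻¹ * e)
    field_simp at e3
    exact mul_ne_zero h2 hx (by linear_combination -e3 - e1)

variable {G Ω : Type*} [Group G] [MulAction G Ω] (Z : ZK G Ω)

/-- the involution swapping the base points and fixing a third one -/
theorem exists_swap_fix [Finite G] (hd : Nat.card Z.H = Nat.card Z.F - 1) {u : G} (hu : u ∈ Z.F)
    (hu1 : u ≠ 1) : ∃ s : G, s * s = 1 ∧ s • Z.a = Z.b ∧ s • Z.b = Z.a ∧ s • u • Z.b = u • Z.b := by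
  have h1 : Z.b ≠ u • Z.b := fun e => hu1 (Z.uniq _ hu e.symm)
  have h2 : Z.a ≠ u • Z.b := (Z.smul_b_ne hu).symm
  obtain ⟨s, hsa, hsb, hsc⟩ := three_trans (three_of_card_H Z hd) Z.hab h1 h2 Z.hab.symm h2 h1
  exact ⟨s, Z.zt.three _ _ _ _ Z.hab h1 h2 (by rw [mul_smul, hsa, hsb]) (by rw [mul_smul, hsb, hsa])
    (by rw [mul_smul, hsc, hsc]), hsa, hsb, hsc⟩

theorem pgl_of_comm [Finite G] [Finite Ω] (hd : Nat.card Z.H = Nat.card Z.F - 1)
    (hH : ∀ h ∈ Z.H, ∀ k ∈ Z.H, h * k = k * h) (K : Type) [Field K]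
    (hK : Nat.card K = Nat.card Z.F) : Nonempty (G ≃* PG K) := by
  rcases Nat.even_or_odd (Nat.card Z.F) with hn | hn
  · exact pgl_of_even Z hd hn K hK
  have hd' : Nat.card Z.F - 1 ≤ 2 * Nat.card Z.H := by omega
  have := Z.comm_of_large hd'
  have hpos : 0 < Nat.card Z.H := Nat.card_pos
  obtain ⟨u0, hu, hu1⟩ := exists_ne_one_F Z (by omega)
  obtain ⟨φ, h1, h2, h3, h4, h5, h6⟩ := exists_coord Z hd' hH hu hu1 K hK
  have h0 : φ 0 = 1 := by
    have := h4 0 0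
    rw [add_zero] at this
    exact left_eq_mul.1 this
  have : Finite K := Nat.finite_of_card_ne_zero (by omega)
  have := Fintype.ofFinite K
  have hchar : ringChar K ≠ 2 := by
    intro h
    have := FiniteField.even_card_of_char_two h
    rw [← Nat.card_eq_fintype_card, hK] at this
    rw [Nat.odd_iff] at hn
    omega
  have h2ne : (2 : K) ≠ 0 := Ring.two_ne_zero hchar
  obtain ⟨s, hs2, hsa, hsb, hsc⟩ := exists_swap_fix Z hd hu hu1
  have hb : ∀ x y, φ x • Z.b = φ y • Z.b → x = y := fun x y h =>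
    h3 (Z.eq_of_smul_b (h1 x) (h1 y) h)
  have hss : ∀ y : Ω, s • s • y = y := fun y => by rw [← mul_smul, hs2, one_smul]
  have hsc' : ∀ x : K, x ≠ 0 → ∃ h ∈ Z.H, ∀ y, φ (x * y) = h * φ y * h⁻¹ := by
    intro x hx
    obtain ⟨h, hh, e1⟩ := conj_trans Z hd hu hu1 (h1 x) (fun e => hx (h3 (e.trans h0.symm)))
    obtain ⟨c, -, hc'⟩ := h6 h hh
    have : c = x := h3 (by rw [← e1, ← h5, ← hc', mul_one])
    exact ⟨h, hh, this ▸ hc'⟩
  have hex : ∀ x : K, ∃ y : K, x ≠ 0 → s • φ x • Z.b = φ y • Z.b := by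
    intro x
    by_cases hx : x = 0
    · exact ⟨0, fun h => absurd hx h⟩
    obtain ⟨u, hu, e⟩ := Z.ex (s • φ x • Z.b) (by
      intro h
      rw [← hsb, smul_left_cancel_iff] at h
      exact hx (hb x 0 (by rw [h, h0, one_smul])))
    obtain ⟨y, rfl⟩ := h2 u hu
    exact ⟨y, fun _ => e.symm⟩
  choose σ hσ using hex
  have σ_ne : ∀ x, x ≠ 0 → σ x ≠ 0 := by
    intro x hx h
    have := hσ x hx
    rw [h, h0, one_smul, ← hsa, smul_left_cancel_iff, hsa] at this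
    exact Z.smul_b_ne (h1 x) this
  have σσ : ∀ x, x ≠ 0 → σ (σ x) = x := by
    intro x hx
    apply hb
    rw [← hσ _ (σ_ne x hx), ← hσ x hx, hss]
  have σ1 : σ 1 = 1 := hb _ _ (by rw [← hσ 1 one_ne_zero, h5, hsc])
  have σm : ∀ x y, x ≠ 0 → y ≠ 0 → σ (x * y) = σ x * σ y := by
    intro x y hx hy
    obtain ⟨h, hh, e⟩ := hsc' x hx
    have hh' := conj_mem_H Z hsa hsb hh
    obtain ⟨c, -, hc⟩ := h6 _ hh'
    have key : ∀ y, y ≠ 0 → σ (x * y) = c * σ y := by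
      intro y hy
      apply hb
      rw [← hσ _ (mul_ne_zero hx hy), e, Z.conj_smul_b hh, hc, Z.conj_smul_b hh', ← hσ y hy]
      simp [mul_smul]
    have := key 1 one_ne_zero
    rw [mul_one, σ1, mul_one] at this
    rw [key y hy, this]
  have σn : σ (-1) = -1 := by
    have e := σm (-1) (-1) (by simp) (by simp)
    rw [neg_mul_neg, mul_one, σ1] at e
    rcases mul_self_eq_one_iff.1 e.symm with h | h
    · exfalso
      have := σσ (-1) (by simp)
      rw [h, σ1] at this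
      exact h2ne (by linear_combination this)
    · exact h
  have hs1 : s ≠ 1 := by
    rintro rfl
    exact Z.hab (by simpa using hsa)
  have σf : ∀ x, x ≠ 0 → σ x = x → x = 1 ∨ x = -1 := by
    intro x hx e
    have := Z.zt.fix_eq hs1 (a := φ 1 • Z.b) (b := φ (-1) • Z.b) (c := φ x • Z.b)
      (fun e => h2ne (by linear_combination hb _ _ e)) (by rw [h5, hsc])
      (by rw [hσ _ (by simp), σn]) (by rw [hσ x hx, e])
    exact this.imp (hb _ _) (hb _ _)
  obtain ⟨z, hz, ez⟩ := hsc' (-1) (by simp)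
  have ta : (φ 1 * z) • Z.a = Z.a := by rw [mul_smul, hz.1, Z.le _ (h1 _)]
  have tx : ∀ x, (φ 1 * z) • φ x • Z.b = φ (1 - x) • Z.b := by
    intro x
    rw [mul_smul, ← Z.conj_smul_b hz, ← ez, ← mul_smul, ← h4]
    congr 2
    ring
  have tb : (φ 1 * z) • Z.b = φ 1 • Z.b := by simpa [h0] using tx 0
  have tc : (φ 1 * z) • φ 1 • Z.b = Z.b := by simpa [h0] using tx 1
  rw [← h5] at hsc
  generalize φ 1 * z = t at ta tx tb tc
  have hst : s * t * s = t * s * t := by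
    apply Z.zt.eq_of_three (c := φ 1 • Z.b) Z.hab
      (fun e => one_ne_zero (hb 1 0 (by rw [← e, h0, one_smul]))) (Z.smul_b_ne (h1 1)).symm <;>
    simp only [mul_smul, hsa, hsb, hsc, ta, tb, tc]
  have σe : ∀ y, y ≠ 0 → y ≠ 1 → σ (1 - σ y) = 1 - σ (1 - y) := by
    intro y hy hy1
    have := congrArg (fun g : G => g • φ y • Z.b) hst
    simp only [mul_smul] at this
    rw [hσ y hy, tx, tx, hσ _ (sub_ne_zero.2 hy1.symm), tx, hσ _ (by
      intro e
      apply hy1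
      rw [← σσ y hy, show σ y = 1 by linear_combination -e, σ1])] at this
    exact hb _ _ this
  refine pgl_of_inverted Z hd hsa hsb (fun h hh => ?_) K hK
  obtain ⟨c, hc, hc'⟩ := h6 h hh
  have e := eq_inv_of_fun_eq h2ne σ σm σ_ne σσ σf σe σ1 hc
  have hh' := conj_mem_H Z hsa hsb hh
  apply Z.zt.eq_of_three (c := φ 1 • Z.b) Z.hab
      (fun e => one_ne_zero (hb 1 0 (by rw [← e, h0, one_smul]))) (Z.smul_b_ne (h1 1)).symm
  · rw [hh'.1, (Z.H.inv_mem hh).1]
  · rw [hh'.2, (Z.H.inv_mem hh).2]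
  · rw [mul_smul, mul_smul, inv_smul_eq_iff.2 hsc.symm, ← Z.conj_smul_b hh, ← hc', mul_one,
      hσ c hc, eq_inv_smul_iff, ← Z.conj_smul_b hh, ← hc', e]

end Cfsg.Agent.H4.ZSharp
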