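import Cfsg.Agent.H4.ZAb
import Cfsg.Agent.H4.ZSharp

/-! Transitive groups of degree `p + 1` and small order. -/

set_option autoImplicit false

namespace Cfsg.Agent.H4.ZPrime

open MulAction Cfsg.Agent.H4.ZBasic Cfsg.Agent.H4.ZCount Cfsg.Agent.H4.ZKer Cfsg.Agent.H4.Util
  Cfsg.Agent.H4.ZIdent Cfsg.Agent.H4.ZEven Cfsg.Agent.H4.ZMS Cfsg.Agent.H4.ZOdd Cfsg.Agent.H4.Mob

theorem exists_algEquiv {p : ℕ} {K : Type*} [Fact p.Prime] [Field K] [Algebra (ZMod p) K]
    (σ : K ≃+* K) : ∃ τ : K ≃ₐ[ZMod p] K, ∀ x, τ x = σ x :=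
  ⟨AlgEquiv.ofRingEquiv (f := σ) (fun x => DFunLike.congr_fun
    (Subsingleton.elim ((σ : K →+* K).comp (algebraMap (ZMod p) K)) (algebraMap (ZMod p) K)) x),
    fun _ => rfl⟩

theorem card_aut (p f : ℕ) [Fact p.Prime] (hf : f ≠ 0) :
    Nat.card (GaloisField p f ≃ₐ[ZMod p] GaloisField p f) = f := by
  rw [IsGalois.card_aut_eq_finrank, GaloisField.finrank p hf]

variable {G Ω : Type*} [Group G] [MulAction G Ω]

theorem exists_ZK_prime [Finite G] [Finite Ω] [IsPretransitive G Ω]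
    (hfaith : ∀ g : G, (∀ x : Ω, g • x = x) → g = 1) {p d : ℕ} (hp : p.Prime)
    (hΩ : Nat.card Ω = p + 1) (hG : Nat.card G = (p + 1) * p * d) (hd : d < p) :
    ∃ Z : ZK G Ω, Nat.card Z.F = p ∧ Nat.card Z.H = d := by
  have := Fact.mk hp
  have hp2 := hp.two_le
  have : Nontrivial Ω := Finite.one_lt_card_iff_nontrivial.1 (by omega)
  obtain ⟨a, b, hab⟩ := exists_pair_ne Ω
  have hd0 : 0 < d := by
    by_contra h
    have h1 : 0 < Nat.card G := Nat.card_pos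
    rw [hG, show d = 0 by omega] at h1
    simp at h1
  have hS : Nat.card (stabilizer G a) = p * d := by
    have := (stabilizer G a).index_mul_card
    rw [index_stabilizer_of_transitive, hΩ, hG, mul_assoc] at this
    exact Nat.eq_of_mul_eq_mul_left (by omega) this
  obtain ⟨P⟩ : Nonempty (Sylow p (stabilizer G a)) := inferInstance
  have hP : Nat.card P = p := by
    rw [P.card_eq_multiplicity, hS, Nat.factorization_mul hp.ne_zero hd0.ne', Finsupp.add_apply,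
      hp.factorization_self, Nat.factorization_eq_zero_of_lt hd, pow_one]
  have hPi : (P : Subgroup (stabilizer G a)).index = d := by
    have := (P : Subgroup (stabilizer G a)).index_mul_card
    rw [hP, hS, mul_comm] at this
    exact Nat.eq_of_mul_eq_mul_left hp.pos this
  have hPn : (P : Subgroup (stabilizer G a)).Normal := by
    have h1 := P.card_dvd_index
    have h2 := card_sylow_modEq_one p (stabilizer G a)
    rw [hPi] at h1
    have h3 : Nat.card (Sylow p (stabilizer G a)) = 1 :=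
      Nat.ModEq.eq_of_lt_of_lt h2 ((Nat.le_of_dvd hd0 h1).trans_lt hd) hp.one_lt
    have := (Nat.card_eq_one_iff_unique.1 h3).1
    infer_instance
  obtain ⟨F, hF⟩ : ∃ F : Subgroup G, F = (P : Subgroup (stabilizer G a)).map
    (stabilizer G a).subtype := ⟨_, rfl⟩
  have hFc : Nat.card F = p := by
    rw [hF, Subgroup.card_map_of_injective (Subgroup.subtype_injective _), hP]
  have hle : ∀ u ∈ F, u • a = a := by
    rw [hF]
    rintro _ ⟨u, -, rfl⟩
    exact u.2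
  have hnorm : ∀ h : G, h • a = a → ∀ u ∈ F, h * u * h⁻¹ ∈ F := by
    rw [hF]
    rintro h hh _ ⟨u, hu, rfl⟩
    exact ⟨_, hPn.conj_mem u hu ⟨h, hh⟩, rfl⟩
  have hfree : ∀ u ∈ F, ∀ y, y ≠ a → u • y = y → u = 1 := by
    intro u hu y hy e
    apply hfaith
    have h1 : u ^ p = 1 := by
      rw [← hFc]
      exact congrArg Subtype.val (pow_card_eq_one' (x := (⟨u, hu⟩ : F)))
    have h2 := card_fixedBy_modEq (Ω := Ω) hp h1
    have h3 : 1 < Nat.card (fixedBy Ω u) :=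
      Finite.one_lt_card_iff_nontrivial.2 ⟨⟨y, e⟩, ⟨a, hle u hu⟩, fun h => hy (congrArg Subtype.val h)⟩
    have h4 : Nat.card (fixedBy Ω u) ≤ Nat.card Ω := Finite.card_subtype_le _
    have h5 : Nat.card (fixedBy Ω u) = Nat.card Ω := by
      rw [hΩ] at h2 h4 ⊢
      have h6 := (Nat.modEq_iff_dvd' h4).1 h2.symm
      have := Nat.eq_zero_of_dvd_of_lt h6 (by omega)
      omega
    have h6 : fixedBy Ω u = Set.univ := Set.eq_of_subset_of_ncard_le (Set.subset_univ _)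
      (by rw [Set.ncard_univ, ← h5]; rfl)
    intro x
    have : x ∈ fixedBy Ω u := by rw [h6]; trivial
    exact this
  have hex : ∀ y, y ≠ a → ∃ u ∈ F, u • b = y := by
    let f : F → ({a}ᶜ : Set Ω) := fun u => ⟨(u : G) • b, fun h => hab
      (smul_left_cancel (u : G) ((hle u u.2).trans (Eq.symm h)))⟩
    have hf : Function.Injective f := by
      intro u v h
      have e : (u : G) • b = (v : G) • b := congrArg Subtype.val h
      have := hfree _ (F.mul_mem (F.inv_mem v.2) u.2) b hab.symm (by rw [mul_smul, e, inv_smul_smul])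
      exact Subtype.ext (inv_mul_eq_one.1 this).symm
    intro y hy
    obtain ⟨u, hu⟩ := (hf.bijective_of_nat_card_le (by
      rw [Nat.card_coe_set_eq, Set.ncard_compl, Set.ncard_singleton]; omega)).2 ⟨y, hy⟩
    exact ⟨u, u.2, congrArg Subtype.val hu⟩
  have h2 : ∀ x y, x ≠ y → ∃ m : G, m • a = x ∧ m • b = y := by
    intro x y hxy
    obtain ⟨m, rfl⟩ := exists_smul_eq G a x
    obtain ⟨v, hv, e⟩ := hex (m⁻¹ • y) (fun h => hxy (by rw [← h, smul_inv_smul]))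
    exact ⟨m * v, by rw [mul_smul, hle v hv], by rw [mul_smul, e, smul_inv_smul]⟩
  have h3 : ∀ (g : G) (c : Ω), b ≠ c → a ≠ c → g • a = a → g • b = b → g • c = c → g = 1 := by
    intro g c hbc hac ha hb hc
    obtain ⟨u, hu, rfl⟩ := hex c hac.symm
    have hb' : g⁻¹ • b = b := by rw [inv_smul_eq_iff, hb]
    have e1 : u⁻¹ * (g * u * g⁻¹) = 1 := hfree _ (F.mul_mem (F.inv_mem hu) (hnorm g ha u hu)) b
      hab.symm (by simp [mul_smul, hb', hc])
    have e2 : Commute g u := by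
      rw [inv_mul_eq_one] at e1
      exact mul_inv_eq_iff_eq_mul.1 e1.symm
    apply hfaith
    intro x
    by_cases hx : x = a
    · rw [hx, ha]
    obtain ⟨v, hv, rfl⟩ := hex x hx
    obtain ⟨k, hk⟩ := mem_zpowers_of_prime_card hFc (g := ⟨u, hu⟩) (g' := ⟨v, hv⟩)
      (fun e => hbc (by rw [show u = 1 from congrArg Subtype.val e, one_smul]))
    have hk' : u ^ k = v := congrArg Subtype.val hk
    rw [← hk', ← mul_smul, (e2.zpow_right k).eq, mul_smul, hb]
  obtain ⟨Z, hZ⟩ : ∃ Z : ZK G Ω, Z.F = F := by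
    refine ⟨⟨⟨hfaith, ?_, ?_⟩, a, b, hab, F, hle, hnorm, hex,
      fun u hu => hfree u hu b hab.symm⟩, rfl⟩
    · intro a b c d hab hcd
      obtain ⟨g, g1, g2⟩ := h2 a b hab
      obtain ⟨k, k1, k2⟩ := h2 c d hcd
      exact ⟨k * g⁻¹, by rw [mul_smul, ← g1, inv_smul_smul, k1],
        by rw [mul_smul, ← g2, inv_smul_smul, k2]⟩
    · intro g x y z hxy hyz hxz hx hy hz
      obtain ⟨m, rfl, rfl⟩ := h2 x y hxy
      have := h3 (m⁻¹ * g * m) (m⁻¹ • z) (fun e => hyz (by rw [e, smul_inv_smul]))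
        (fun e => hxz (by rw [e, smul_inv_smul])) (by rw [mul_smul, mul_smul, hx, inv_smul_smul])
        (by rw [mul_smul, mul_smul, hy, inv_smul_smul])
        (by rw [mul_smul, mul_smul, smul_inv_smul, hz])
      calc g = m * (m⁻¹ * g * m) * m⁻¹ := by group
        _ = 1 := by rw [this]; group
  refine ⟨Z, hZ ▸ hFc, ?_⟩
  have := Z.card_G
  rw [hZ, hFc, hG] at this
  exact (Nat.eq_of_mul_eq_mul_left (by positivity) this).symm

variable (Z : ZK G Ω)

theorem comm_H_of_cyclic [IsCyclic Z.F] [Finite G] (hF : 1 < Nat.card Z.F) :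
    ∀ h ∈ Z.H, ∀ k ∈ Z.H, h * k = k * h := by
  intro h hh k hk
  obtain ⟨u, hu⟩ := (Subgroup.isCyclic_iff_exists_zpowers_eq_top Z.F).1 inferInstance
  have huF : u ∈ Z.F := hu ▸ Subgroup.mem_zpowers u
  have hu1 : u ≠ 1 := by
    rintro rfl
    rw [← hu] at hF
    simp at hF
  obtain ⟨i, hi⟩ : h * u * h⁻¹ ∈ Subgroup.zpowers u := hu ▸ Z.norm h hh.1 u huF
  obtain ⟨j, hj⟩ : k * u * k⁻¹ ∈ Subgroup.zpowers u := hu ▸ Z.norm k hk.1 u huF
  simp only at hi hj
  have e : h * (k * u * k⁻¹) * h⁻¹ = k * (h * u * h⁻¹) * k⁻¹ := by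
    conv_lhs => rw [← hj, ← conj_zpow, ← hi]
    conv_rhs => rw [← hi, ← conj_zpow, ← hj]
    rw [← zpow_mul, ← zpow_mul, mul_comm]
  rcases Z.conj_free (Z.H.mul_mem (Z.H.inv_mem (Z.H.mul_mem hk hh)) (Z.H.mul_mem hh hk)) huF (by
    calc (k * h)⁻¹ * (h * k) * u * ((k * h)⁻¹ * (h * k))⁻¹
        = (k * h)⁻¹ * (h * (k * u * k⁻¹) * h⁻¹) * (k * h) := by group
      _ = u := by rw [e]; group) with h1 | h1
  · exact (inv_mul_eq_one.1 h1).symm
  · exact absurd h1 hu1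

/-- a regular normal subgroup -/
theorem exists_regular_or [Finite G] [Finite Ω] [IsMulCommutative Z.F] :
    (∃ R : Subgroup G, R.Normal ∧ IsPretransitive R Ω ∧ ∀ x : Ω, stabilizer R x = ⊥) ∨
    Nat.card Z.H = Nat.card Z.F - 1 ∨ (2 * Nat.card Z.H = Nat.card Z.F - 1 ∧
      ∀ (K : Type) [Field K], Nat.card K = Nat.card Z.F → Nonempty (G ≃* PS K)) := by
  by_cases hne : Z.H = ⊥
  · left
    have hS : H2.Sharp2.IsSharp2 G Ω := ⟨fun hab hcd => Z.zt.two _ _ _ _ hab hcd, by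
      intro a b g hab ha hb
      obtain ⟨k, h1, h2⟩ := Z.zt.two a b Z.a Z.b hab Z.hab
      have : k * g * k⁻¹ ∈ Z.H :=
        ⟨by rw [← h1]; simp [mul_smul, ha], by rw [← h2]; simp [mul_smul, hb]⟩
      rw [hne, Subgroup.mem_bot] at this
      simpa using this⟩
    have : Nontrivial Ω := ⟨⟨_, _, Z.hab⟩⟩
    obtain ⟨p, j, hp, hj, hc, h⟩ := hS.main
    have := Fact.mk hp
    obtain ⟨P⟩ : Nonempty (Sylow p G) := inferInstance
    exact ⟨P, (h inferInstance P).1, (h inferInstance P).2.2.2.1, (h inferInstance P).2.2.2.2.1⟩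
  by_cases hreg : ∀ N : Subgroup G, N.Normal → IsPretransitive N Ω → ∃ a : Ω, stabilizer N a ≠ ⊥
  · exact Or.inr (ZAb.abelian_kernel Z hne hreg)
  · push Not at hreg
    exact Or.inl hreg

theorem semiaffine_of_regular [Finite G] [Finite Ω] [IsMulCommutative Z.F]
    (hn : Odd (Nat.card Z.F)) (R : Subgroup G) (hRn : R.Normal) (hRt : IsPretransitive R Ω)
    (hRs : ∀ x : Ω, stabilizer R x = ⊥) :
    ∃ q : ℕ, q ≠ 0 ∧ Nat.card Z.F + 1 = 2 ^ q ∧ Nat.card Z.H ∣ q ∧ ∃ e : Ω ≃ GaloisField 2 q,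
      ∀ g : G, ∃ (c : (GaloisField 2 q)ˣ) (β : GaloisField 2 q)
        (σ : GaloisField 2 q ≃+* GaloisField 2 q), ∀ x, e (g • e.symm x) = c * σ x + β := by
  have hRe : ∀ r ∈ R, ∀ r' ∈ R, r • Z.a = r' • Z.a → r = r' := by
    intro r hr r' hr' e
    have : (⟨r'⁻¹ * r, R.mul_mem (R.inv_mem hr') hr⟩ : R) ∈ stabilizer R Z.a := by
      change (r'⁻¹ * r) • Z.a = Z.a
      rw [mul_smul, e, inv_smul_smul]
    rw [hRs, Subgroup.mem_bot] at this
    exact (inv_mul_eq_one.1 (congrArg Subtype.val this)).symm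
  have hRx : ∀ x, ∃ r ∈ R, r • Z.a = x := fun x => by
    obtain ⟨r, hr⟩ := hRt.exists_smul_eq Z.a x
    exact ⟨r, r.2, hr⟩
  have hRc : Nat.card R = Nat.card Z.F + 1 := by
    rw [← Z.card_F]
    exact Nat.card_congr (Equiv.ofBijective (fun r : R => (r : G) • Z.a)
      ⟨fun r r' e => Subtype.ext (hRe _ r.2 _ r'.2 e), fun x => by
        obtain ⟨r, hr, e⟩ := hRx x
        exact ⟨⟨r, hr⟩, e⟩⟩)
  have hconj : ∀ g : G, g • Z.a = Z.a → ∀ r : G, (g * r * g⁻¹) • Z.a = g • r • Z.a := by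
    intro g hg r
    rw [mul_smul, mul_smul, inv_smul_eq_iff.2 hg.symm]
  obtain ⟨u0, hu0, e0⟩ := hRx Z.b
  have hu1 : u0 ≠ 1 := by
    rintro rfl
    exact Z.hab (by simpa using e0)
  have htr : ∀ r ∈ R, r ≠ 1 → ∃ v ∈ Z.F, v * u0 * v⁻¹ = r := by
    intro r hr hr1
    obtain ⟨v, hv, e⟩ := Z.ex (r • Z.a) (fun e => hr1 (hRe r hr 1 R.one_mem (by simpa using e)))
    exact ⟨v, hv, hRe _ (hRn.conj_mem _ hu0 v) r hr (by rw [hconj v (Z.le v hv), e0, e])⟩
  have hsq : ∀ r ∈ R, r * r = 1 := by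
    obtain ⟨z, hz, hz1, hz2⟩ := exists_inv_of_even (H := R) (hRc ▸ hn.add_one)
    obtain ⟨v, -, rfl⟩ := htr z hz hz1
    have h0 : u0 * u0 = 1 := by
      calc u0 * u0 = v⁻¹ * (v * u0 * v⁻¹ * (v * u0 * v⁻¹)) * v := by group
        _ = 1 := by rw [hz2]; group
    intro r hr
    by_cases hr1 : r = 1
    · simp [hr1]
    obtain ⟨w, -, rfl⟩ := htr r hr hr1
    calc w * u0 * w⁻¹ * (w * u0 * w⁻¹) = w * (u0 * u0) * w⁻¹ := by group
      _ = 1 := by rw [h0]; group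
  have : IsMulCommutative R := ⟨⟨fun x y => Subtype.ext (by
    have e1 := inv_eq_of_mul_eq_one_right (hsq _ (R.mul_mem x.2 y.2))
    rw [mul_inv_rev, inv_eq_of_mul_eq_one_right (hsq _ x.2),
      inv_eq_of_mul_eq_one_right (hsq _ y.2)] at e1
    exact e1.symm)⟩⟩
  obtain ⟨⟨p, q, hp, hq, hpq⟩, hK⟩ := exists_field_conj R (Z.F : Set G)
    (fun h _ u hu => hRn.conj_mem u hu h) (fun h hh k hk u _ => by
      calc h * (k * u * k⁻¹) * h⁻¹ = (h * k) * u * (h * k)⁻¹ := by group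
        _ = _ := by rw [setLike_mul_comm (s := Z.F) hh hk]; group) (by
      intro W hW hWi
      by_cases hb : W = ⊥
      · exact Or.inl hb
      right
      obtain ⟨⟨y, hy⟩, hy1⟩ := Subgroup.ne_bot_iff_exists_ne_one.1 hb
      obtain ⟨v, hv, rfl⟩ := htr y (hW hy) (fun e => hy1 (Subtype.ext e))
      have h0 : u0 ∈ W := by simpa [mul_assoc] using hWi v⁻¹ (Z.F.inv_mem hv) _ hy
      refine le_antisymm hW fun r hr => ?_
      by_cases hr1 : r = 1
      · rw [hr1]; exact W.one_mem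
      obtain ⟨w, hw, rfl⟩ := htr r hr hr1
      exact hWi w hw _ h0) hu0 hu1
  have hp2 : p = 2 := by
    have h1 : Even (p ^ q) := by rw [← hpq, hRc]; exact hn.add_one
    exact hp.even_iff.1 ((Nat.even_pow' (by omega)).1 h1)
  subst hp2
  obtain ⟨φ, h1, h2, h3, h4, h5, h6, h7⟩ := hK (GaloisField 2 q)
    (by rw [GaloisField.card 2 q hq.ne', hpq])
  have h0 : φ 0 = 1 := by
    have := h4 0 0
    rw [add_zero] at this
    exact left_eq_mul.1 this
  have h8 : ∀ t ∈ Z.H, ∃ σ : GaloisField 2 q ≃+* GaloisField 2 q, ∀ x, φ (σ x) = t * φ x * t⁻¹ := by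
    intro t ht
    exact h7 t (fun u => ⟨fun hu => hRn.conj_mem u hu t, fun hu => by
      simpa [mul_assoc] using hRn.conj_mem _ hu t⁻¹⟩)
      (hRe _ (hRn.conj_mem _ hu0 t) _ hu0 (by rw [hconj t ht.1, e0, ht.2]))
      (fun h hh => Z.norm t ht.1 h hh)
  refine ⟨q, hq.ne', by rw [← hRc, hpq], ?_, ?_⟩
  · have h9 : ∀ t : Z.H, ∃ τ : GaloisField 2 q ≃ₐ[ZMod 2] GaloisField 2 q,
        ∀ x, φ (τ x) = t * φ x * (t : G)⁻¹ := by
      intro t
      obtain ⟨σ, hσ⟩ := h8 t t.2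
      obtain ⟨τ, hτ⟩ := exists_algEquiv (p := 2) σ
      exact ⟨τ, fun x => by rw [hτ, hσ]⟩
    choose τ hτ using h9
    let ρ : Z.H →* (GaloisField 2 q ≃ₐ[ZMod 2] GaloisField 2 q) := MonoidHom.mk' τ (by
      intro s t
      ext x
      apply h3
      rw [AlgEquiv.mul_apply, hτ, hτ, hτ]
      simp [mul_assoc])
    have hρ : Function.Injective ρ := by
      rw [injective_iff_map_eq_one]
      intro t ht
      apply Subtype.ext
      apply Z.zt.faithful
      intro y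
      obtain ⟨r, hr, rfl⟩ := hRx y
      obtain ⟨x, rfl⟩ := h2 r hr
      rw [← hconj t t.2.1, ← hτ, show τ t = 1 from ht, AlgEquiv.one_apply]
    have := Subgroup.card_dvd_of_injective ρ hρ
    rwa [card_aut 2 q hq.ne'] at this
  · let e : GaloisField 2 q ≃ Ω := Equiv.ofBijective (fun x => φ x • Z.a)
      ⟨fun x y e => h3 (hRe _ (h1 x) _ (h1 y) e), fun y => by
        obtain ⟨r, hr, rfl⟩ := hRx y
        obtain ⟨x, rfl⟩ := h2 r hr
        exact ⟨x, rfl⟩⟩
    refine ⟨e.symm, fun g => ?_⟩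
    obtain ⟨r, hr, e1⟩ := hRx (g • Z.a)
    obtain ⟨β, rfl⟩ := h2 r hr
    obtain ⟨u, hu, h, hh, e2⟩ := Z.decomp (g := (φ β)⁻¹ * g) (by rw [mul_smul, ← e1, inv_smul_smul])
    obtain ⟨c, hc⟩ := h6 u hu
    obtain ⟨σ, hσ⟩ := h8 h hh
    have hc0 : c ≠ 0 := by
      rintro rfl
      have := hc 1
      rw [zero_mul, h0, h5] at this
      exact hu1 (by simpa using this.symm)
    refine ⟨Units.mk0 c hc0, β, σ, fun x => ?_⟩
    rw [Equiv.symm_apply_eq]
    change g • φ x • Z.a = φ (c * σ x + β) • Z.a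
    rw [add_comm, h4, hc, hσ, mul_smul, hconj u (Z.le u hu), hconj h hh.1, ← mul_smul u, ← e2]
    simp [mul_smul]

end Cfsg.Agent.H4.ZPrime
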