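import Cfsg.Agent.H4.ZPrime

/-! Sharply triply transitive groups of even degree. -/

set_option autoImplicit false

namespace Cfsg.Agent.H4.ZSharp2

open MulAction Cfsg.Agent.H4.ZBasic Cfsg.Agent.H4.ZCount Cfsg.Agent.H4.ZKer Cfsg.Agent.H4.Util
  Cfsg.Agent.H4.ZIdent Cfsg.Agent.H4.ZEven Cfsg.Agent.H4.ZMS Cfsg.Agent.H4.ZOdd Cfsg.Agent.H4.Mob
  Cfsg.Agent.H4.ZSharp Cfsg.Agent.H4.ZPrime

section General

variable {G : Type*} [Group G]

theorem inverted_of_free' [Finite G] (X : Subgroup G) {s : G} (hs2 : s * s = 1)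
    (hn : ∀ h ∈ X, s * h * s⁻¹ ∈ X) (hfree : ∀ h ∈ X, s * h * s⁻¹ = h → h = 1) :
    ∀ h ∈ X, s * h * s⁻¹ = h⁻¹ := by
  let φ : X →* X := MonoidHom.mk' (fun h => ⟨s * h * s⁻¹, hn h h.2⟩)
    (fun g h => Subtype.ext (by simp))
  have h1 : MonoidHom.FixedPointFree φ := fun h e => Subtype.ext (hfree h h.2 (congrArg Subtype.val e))
  have h2 : Function.Involutive φ := fun h => Subtype.ext (by
    change s * (s * h * s⁻¹) * s⁻¹ = h
    calc s * (s * h * s⁻¹) * s⁻¹ = (s * s) * h * (s * s)⁻¹ := by group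
      _ = h := by rw [hs2]; group)
  intro h hh
  exact congrArg Subtype.val (congrFun (h1.coe_eq_inv_of_involutive h2) ⟨h, hh⟩)

theorem comm_of_inverted' {X : Subgroup G} {s : G} (hinv : ∀ h ∈ X, s * h * s⁻¹ = h⁻¹) {h k : G}
    (hh : h ∈ X) (hk : k ∈ X) : h * k = k * h := by
  have := hinv _ (X.mul_mem hh hk)
  rw [show s * (h * k) * s⁻¹ = (s * h * s⁻¹) * (s * k * s⁻¹) by group, hinv h hh, hinv k hk,
    ← mul_inv_rev, inv_inj] at this
  exact this.symm

/-- an element normalising an irreducible group of scalars acts semilinearly -/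
theorem exists_semilinear (F : Subgroup G) (A : Set G)
    (hirr : ∀ W : Subgroup G, W ≤ F → (∀ h ∈ A, ∀ u ∈ W, h * u * h⁻¹ ∈ W) → W = ⊥ ∨ W = F)
    {K : Type*} [Field K] [Finite K] (φ : K → G) (h1 : ∀ x, φ x ∈ F) (h2 : ∀ u ∈ F, ∃ x, φ x = u)
    (h3 : Function.Injective φ) (h4 : ∀ x y, φ (x + y) = φ x * φ y)
    (h6 : ∀ h ∈ A, ∃ c : K, ∀ x, φ (c * x) = h * φ x * h⁻¹) {t : G}
    (htF : ∀ u ∈ F, t * u * t⁻¹ ∈ F) (htA : ∀ h ∈ A, t * h * t⁻¹ ∈ A) :
    ∃ (σ : K ≃+* K) (e : K), e ≠ 0 ∧ ∀ x, φ (e * σ x) = t * φ x * t⁻¹ := by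
  have h0 : φ 0 = 1 := by
    have := h4 0 0
    rw [add_zero] at this
    exact left_eq_mul.1 this
  have hneg : ∀ x, φ (-x) = (φ x)⁻¹ := fun x => by
    rw [eq_inv_iff_mul_eq_one, ← h4, neg_add_cancel, h0]
  choose T hT using fun x => h2 _ (htF _ (h1 x))
  have Tadd : ∀ x y, T (x + y) = T x + T y := fun x y => h3 (by rw [h4, hT, hT, hT, h4]; group)
  have T0 : T 0 = 0 := h3 (by rw [hT, h0]; group)
  have Tneg : ∀ x, T (-x) = -T x := fun x => by
    rw [eq_neg_iff_add_eq_zero, ← Tadd, neg_add_cancel, T0]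
  have Tinj : Function.Injective T := fun x y e => h3 (by
    have := congrArg φ e
    rw [hT, hT] at this
    simpa using this)
  have T1 : T 1 ≠ 0 := fun e => one_ne_zero (Tinj (e.trans T0.symm))
  have Tc : ∀ h ∈ A, ∀ c : K, (∀ x, φ (c * x) = h * φ x * h⁻¹) → ∀ x, T (c * x) * T 1 = T c * T x := by
    intro h hh c hc
    obtain ⟨c', hc'⟩ := h6 _ (htA h hh)
    have e : ∀ x, T (c * x) = c' * T x := fun x => h3 (by rw [hT, hc, hc', hT]; group)
    intro x
    have := e 1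
    rw [mul_one] at this
    rw [e, this]; ring
  let W : Subgroup G :=
    { carrier := {u | ∃ a, φ a = u ∧ ∀ x, T (a * x) * T 1 = T a * T x}
      one_mem' := ⟨0, h0, fun x => by simp [T0]⟩
      mul_mem' := by
        rintro _ _ ⟨a, rfl, ha⟩ ⟨b, rfl, hb⟩
        exact ⟨a + b, h4 a b, fun x => by rw [add_mul, Tadd, Tadd, add_mul, add_mul, ha, hb]⟩
      inv_mem' := by
        rintro _ ⟨a, rfl, ha⟩
        exact ⟨-a, hneg a, fun x => by rw [neg_mul, Tneg, Tneg, neg_mul, neg_mul, ha]⟩ }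
  have Tmul : ∀ a x, T (a * x) * T 1 = T a * T x := by
    rcases hirr W (by rintro _ ⟨a, rfl, -⟩; exact h1 a) (by
      rintro h hh _ ⟨a, rfl, ha⟩
      obtain ⟨c, hc⟩ := h6 h hh
      refine ⟨c * a, hc a, fun x => mul_right_cancel₀ T1 ?_⟩
      have e1 := Tc h hh c hc (a * x)
      have e2 := Tc h hh c hc a
      rw [mul_assoc c, e1]
      linear_combination T c * ha x - T x * e2) with h | h
    · exfalso
      have : φ 1 ∈ W := ⟨1, rfl, fun x => by rw [one_mul, mul_comm]⟩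
      rw [h, Subgroup.mem_bot] at this
      exact one_ne_zero (h3 (this.trans h0.symm))
    · intro a
      have : φ a ∈ W := h ▸ h1 a
      obtain ⟨b, hb, e⟩ := this
      rwa [h3 hb] at e
  let σ : K →+* K :=
    { toFun := fun x => T x / T 1
      map_one' := div_self T1
      map_mul' := fun x y => by
        field_simp
        linear_combination Tmul x y
      map_zero' := by simp [T0]
      map_add' := fun x y => by rw [Tadd, add_div] }
  refine ⟨RingEquiv.ofBijective σ (Finite.injective_iff_bijective.1 σ.injective), T 1, T1, fun x => ?_⟩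
  rw [← hT]
  congr 1
  change T 1 * (T x / T 1) = _
  field_simp

theorem eq_refl_of_odd {p f : ℕ} [Fact p.Prime] (hf : Odd f) (σ : GaloisField p f ≃+* GaloisField p f)
    (h : ∀ x, σ (σ x) = x) (x : GaloisField p f) : σ x = x := by
  obtain ⟨τ, hτ⟩ := exists_algEquiv (p := p) σ
  have h1 : τ * τ = 1 := by
    ext x
    rw [AlgEquiv.mul_apply, hτ, hτ, h, AlgEquiv.one_apply]
  have := eq_one_of_odd (⊤ : Subgroup (GaloisField p f ≃ₐ[ZMod p] GaloisField p f))
    (by rwa [Subgroup.card_top, card_aut p f hf.pos.ne']) trivial h1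
  rw [← hτ, this, AlgEquiv.one_apply]

theorem even_of_anticomm_aux {V : Type*} [AddCommGroup V] [Finite V] {p f : ℕ} [Fact p.Prime]
    [Module (ZMod p) V] (hp2 : p ≠ 2) (hc : Nat.card V = p ^ f) (I J : V →+ V)
    (hI : Function.Injective I) (hJ : Function.Injective J) (hij : ∀ x, J (I x) = -I (J x)) :
    Even f := by
  have hp : p.Prime := Fact.out
  have hdet : ∀ h : V →+ V, Function.Injective h → LinearMap.det (h.toZModLinearMap p) ≠ 0 := by
    intro h hh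
    exact (LinearMap.isUnit_det _ ((Module.End.isUnit_iff (h.toZModLinearMap p)).2
      (Finite.injective_iff_bijective.1 hh))).ne_zero
  have e : J.toZModLinearMap p * I.toZModLinearMap p =
      (-1 : ZMod p) • (I.toZModLinearMap p * J.toZModLinearMap p) := by
    ext x
    rw [neg_one_smul]
    exact hij x
  have e2 := congrArg LinearMap.det e
  rw [LinearMap.det_smul, map_mul, map_mul, mul_comm] at e2
  have e3 : (-1 : ZMod p) ^ Module.finrank (ZMod p) V = 1 :=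
    (mul_eq_right₀ (mul_ne_zero (hdet _ hI) (hdet _ hJ))).1 e2.symm
  have e4 : Module.finrank (ZMod p) V = f := by
    have := Module.natCard_eq_pow_finrank (K := ZMod p) (V := V)
    rw [Nat.card_zmod] at this
    exact Nat.pow_right_injective hp.two_le (this.symm.trans hc)
  rw [e4] at e3
  refine (neg_one_pow_eq_one_iff_even ?_).1 e3
  have : Fact (2 < p) := ⟨lt_of_le_of_ne hp.two_le (Ne.symm hp2)⟩
  exact ZMod.neg_one_ne_one

open scoped IsMulCommutative in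
/-- anticommuting automorphisms force even dimension -/
theorem even_of_anticomm [Finite G] (F : Subgroup G) [IsMulCommutative F] {p f : ℕ} (hp : p.Prime)
    (hp2 : p ≠ 2) (hel : ∀ u ∈ F, u ^ p = 1) (hc : Nat.card F = p ^ f) {i j : G}
    (hi : ∀ u ∈ F, i * u * i⁻¹ ∈ F) (hj : ∀ u ∈ F, j * u * j⁻¹ ∈ F)
    (hij : ∀ u ∈ F, j * (i * u * i⁻¹) * j⁻¹ = (i * (j * u * j⁻¹) * i⁻¹)⁻¹) : Even f := by
  let c : (h : G) → (∀ u ∈ F, h * u * h⁻¹ ∈ F) → Additive F →+ Additive F := fun h hh =>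
    (AddMonoidHom.mk' (fun u => Additive.ofMul ⟨h * (u.toMul : F) * h⁻¹, hh _ u.toMul.2⟩) (by
      intro u v
      apply Additive.toMul.injective
      ext
      simp))
  have hinj : ∀ h hh, Function.Injective (c h hh) := by
    intro h hh x y e
    have e1 : h * (x.toMul : F) * h⁻¹ = h * (y.toMul : F) * h⁻¹ :=
      congrArg Subtype.val (congrArg Additive.toMul e)
    exact Additive.toMul.injective (Subtype.ext (by simpa using e1))
  have := Fact.mk hp
  exact @even_of_anticomm_aux (Additive F) _ _ p f _ (AddCommGroup.zmodModule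
    (fun x => Additive.toMul.injective (Subtype.ext (hel _ x.toMul.2)))) hp2 hc (c i hi) (c j hj)
    (hinj _ _) (hinj _ _) (fun x => Additive.toMul.injective (Subtype.ext (hij _ x.toMul.2)))

end General

variable {G Ω : Type*} [Group G] [MulAction G Ω] (Z : ZK G Ω)

theorem irred_sub [Finite G] (A : Subgroup G) (hA : A ≤ Z.H)
    (hd : Nat.card Z.F - 1 ≤ 2 * Nat.card A) (W : Subgroup G) (hW : W ≤ Z.F)
    (hinv : ∀ h ∈ A, ∀ u ∈ W, h * u * h⁻¹ ∈ W) : W = ⊥ ∨ W = Z.F := by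
  by_contra hne
  push Not at hne
  have h1 : Nat.card A ∣ Nat.card W - 1 := by
    rw [← ZK.ncard_diff_one]
    exact card_dvd_of_conj_free A _ (fun h hh u hu => ⟨hinv h hh u hu.1, by simpa using hu.2⟩)
      (fun h hh u hu e => (Z.conj_free (hA hh) (hW hu.1) e).resolve_right hu.2)
  have h2 : 1 < Nat.card W := (Subgroup.one_lt_card_iff_ne_bot W).2 hne.1
  have h3 := Nat.le_of_dvd (by omega) h1
  obtain ⟨k, hk⟩ := Subgroup.card_dvd_of_le hW
  have h4 : k ≠ 1 := by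
    rintro rfl
    exact hne.2 (Subgroup.eq_of_le_of_card_ge hW (by omega))
  have h5 : k ≠ 0 := by
    rintro rfl
    have : 0 < Nat.card Z.F := Nat.card_pos
    omega
  have : Nat.card W * 2 ≤ Nat.card W * k := Nat.mul_le_mul_left _ (by omega)
  omega

/-- the centraliser in `H` of a swapping involution with a fixed point -/
theorem cent_swap [Finite G] {z : G} (hz : z ∈ Z.H) (hz1 : z ≠ 1) (hz2 : z * z = 1) {s : G}
    (hsa : s • Z.a = Z.b) (hsb : s • Z.b = Z.a) {c : Ω} (hsc : s • c = c) {h : G} (hh : h ∈ Z.H)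
    (e : s * h * s⁻¹ = h) : h = 1 ∨ h = z := by
  have hF := one_lt_card_F Z (Subgroup.ne_bot_iff_exists_ne_one.2
    ⟨⟨z, hz⟩, fun e => hz1 (congrArg Subtype.val e)⟩)
  have hca : Z.a ≠ c := by
    rintro rfl
    exact Z.hab (hsc.symm.trans hsa)
  have hcb : Z.b ≠ c := by
    rintro rfl
    exact Z.hab (hsb.symm.trans hsc)
  have hs1 : s ≠ 1 := by
    rintro rfl
    exact Z.hab (by simpa using hsa)
  have e1 : s * z * s⁻¹ = z := involution_unique Z hF (conj_mem_H Z hsa hsb hz) (by simpa using hz1)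
    (by calc s * z * s⁻¹ * (s * z * s⁻¹) = s * (z * z) * s⁻¹ := by group
      _ = 1 := by rw [hz2]; group) hz hz1 hz2
  have key : ∀ k : G, s * k * s⁻¹ = k → s • k • c = k • c := fun k hk => by
    rw [← mul_smul, mul_inv_eq_iff_eq_mul.1 hk, mul_smul, hsc]
  rcases Z.zt.fix_eq hs1 (fun e => hz1 (Z.zt.three z _ _ c Z.hab hcb hca hz.1 hz.2 e.symm)) hsc
    (key z e1) (key h e) with h1 | h1
  · exact Or.inl (Z.zt.three h _ _ c Z.hab hcb hca hh.1 hh.2 h1)
  · exact Or.inr (Z.zt.eq_of_three Z.hab hcb hca (hh.1.trans hz.1.symm) (hh.2.trans hz.2.symm) h1)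

/-- the centraliser of an invariant normal subgroup of odd order has index at most two -/
theorem card_le_cent [Finite G] {z : G} (hz : z ∈ Z.H) (hz1 : z ≠ 1) (hz2 : z * z = 1) {s : G}
    (hs2 : s * s = 1) (hsa : s • Z.a = Z.b) (hsb : s • Z.b = Z.a) {c : Ω} (hsc : s • c = c)
    (O : Subgroup G) (hn : ∀ h ∈ Z.H, ∀ x ∈ O, h * x * h⁻¹ ∈ O)
    (hinv : ∀ x ∈ O, s * x * s⁻¹ = x⁻¹) :
    Nat.card Z.H ≤ 2 * Nat.card ↥(Z.H ⊓ Subgroup.centralizer (O : Set G)) := by
  classical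
  have := Fintype.ofFinite G
  rw [Nat.card_eq_fintype_card, Nat.card_eq_fintype_card, Fintype.card_subtype,
    Fintype.card_subtype]
  apply Finset.card_le_mul_card_image_of_maps_to (f := fun h => h⁻¹ * (s * h * s⁻¹))
  · intro h hh
    simp only [Finset.mem_filter, Finset.mem_univ, true_and] at hh ⊢
    refine ⟨Z.H.mul_mem (Z.H.inv_mem hh) (conj_mem_H Z hsa hsb hh), fun x hx => ?_⟩
    have e1 := hinv _ (hn h hh _ (O.inv_mem hx))
    have e2 := hinv _ (O.inv_mem hx)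
    rw [inv_inv] at e2
    calc x * (h⁻¹ * (s * h * s⁻¹)) = h⁻¹ * (h * x⁻¹ * h⁻¹)⁻¹ * (s * h * s⁻¹) := by group
      _ = h⁻¹ * (s * h * s⁻¹) * (s * x⁻¹ * s⁻¹) := by rw [← e1]; group
      _ = _ := by rw [e2]
  · intro w _
    rcases (Finset.filter (fun h => h⁻¹ * (s * h * s⁻¹) = w)
      (Finset.univ.filter fun x => x ∈ Z.H)).eq_empty_or_nonempty with h | ⟨k, hk⟩
    · rw [h]; simp
    simp only [Finset.mem_filter, Finset.mem_univ, true_and] at hk
    refine (Finset.card_le_card (t := {k, z * k}) ?_).trans Finset.card_le_two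
    intro h hh
    simp only [Finset.mem_filter, Finset.mem_univ, true_and] at hh
    have e := hh.2.trans hk.2.symm
    rcases cent_swap Z hz hz1 hz2 hsa hsb hsc (Z.H.mul_mem hh.1 (Z.H.inv_mem hk.1)) (by
      calc s * (h * k⁻¹) * s⁻¹ = h * (h⁻¹ * (s * h * s⁻¹)) * (s * k * s⁻¹)⁻¹ := by group
        _ = _ := by rw [e]; group) with h1 | h1
    · simp [mul_inv_eq_one.1 h1]
    · simp [← h1]

theorem sylow_two [Finite G] (P : Subgroup G) (hle : P ≤ Z.H) (hP : IsPGroup 2 P) :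
    IsCyclic P ∨ ∃ x : P, 4 ∣ orderOf x ∧ (Subgroup.zpowers x).index = 2 ∧
      ∀ y : P, y ∉ Subgroup.zpowers x → y * x * y⁻¹ = x⁻¹ ∧ orderOf y = 4 := by
  by_cases hne : P = ⊥
  · left; rw [hne]; infer_instance
  obtain ⟨R, _, _, ι, hι⟩ := exists_isSR_H Z P hle hP hne
  exact H2.PGroup.cyclic_or_quaternion hP hι.involution_unique

theorem cyclic_two_of_odd [Finite G] [IsMulCommutative Z.F] {p f : ℕ} (hp : p.Prime) (hp2 : p ≠ 2)
    (hel : ∀ u ∈ Z.F, u ^ p = 1) (hc : Nat.card Z.F = p ^ f) (hf : Odd f) (P : Subgroup G)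
    (hle : P ≤ Z.H) (hP : IsPGroup 2 P) : IsCyclic P := by
  refine (sylow_two Z P hle hP).resolve_right ?_
  rintro ⟨x, ⟨m, hm⟩, hi, hy⟩
  obtain ⟨y, hyx⟩ : ∃ y, y ∉ Subgroup.zpowers x := by
    by_contra h
    push Not at h
    rw [(Subgroup.eq_top_iff' _).2 h] at hi
    simp at hi
  have e1 : (y : G) * x * (y : G)⁻¹ = (x : G)⁻¹ := congrArg Subtype.val (hy y hyx).1
  have hm0 : 0 < m := by
    have := orderOf_pos x
    omega
  rw [← Subgroup.orderOf_coe] at hm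
  have e2 : (x : G) ^ m * (x : G) ^ m ≠ 1 := by
    rw [← pow_add]
    exact pow_ne_one_of_lt_orderOf (by omega) (by omega)
  have e3 : ((x : G) ^ m * (x : G) ^ m) * ((x : G) ^ m * (x : G) ^ m) = 1 := by
    rw [← pow_add, ← pow_add, show m + m + (m + m) = orderOf (x : G) by omega, pow_orderOf_eq_one]
  have e4 : (y : G) * (x : G) ^ m * (y : G)⁻¹ = ((x : G) ^ m)⁻¹ := by rw [← conj_pow, e1, inv_pow]
  have hi : (x : G) ^ m ∈ Z.H := Z.H.pow_mem (hle x.2) m
  have hj := hle y.2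
  generalize (x : G) ^ m = i at e2 e3 e4 hi
  generalize (y : G) = j at e4 hj
  refine (Nat.not_even_iff_odd.2 hf) (even_of_anticomm Z.F hp hp2 hel hc (Z.norm i hi.1)
    (Z.norm j hj.1) (fun u hu => ?_))
  have e5 := inv_of_involution Z (Z.H.mul_mem hi hi) e2 e3 _ (Z.norm j hj.1 u hu)
  have e6 : i * i = (i * i)⁻¹ := eq_inv_of_mul_eq_one_left e3
  calc j * (i * u * i⁻¹) * j⁻¹ = (j * i * j⁻¹) * (j * u * j⁻¹) * (j * i * j⁻¹)⁻¹ := by group
    _ = i * ((i * i)⁻¹ * (j * u * j⁻¹) * (i * i)⁻¹⁻¹) * i⁻¹ := by rw [e4]; group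
    _ = _ := by rw [← e6, e5]; group

/-- if the Sylow `2`-subgroups of `H` are cyclic, then `H` has an abelian subgroup of index at
most two -/
theorem exists_abelian_index [Finite G] {z : G} (hz : z ∈ Z.H) (hz1 : z ≠ 1) (hz2 : z * z = 1)
    {s : G} (hs2 : s * s = 1) (hsa : s • Z.a = Z.b) (hsb : s • Z.b = Z.a) {c : Ω} (hsc : s • c = c)
    (hcyc : ∀ P : Sylow 2 Z.H, IsCyclic P) : ∃ A : Subgroup G, A ≤ Z.H ∧
      (∀ h ∈ A, ∀ k ∈ A, h * k = k * h) ∧ Nat.card Z.H ≤ 2 * Nat.card A ∧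
      ∀ h ∈ Z.H, ∀ x ∈ A, h * x * h⁻¹ ∈ A := by
  obtain ⟨P⟩ : Nonempty (Sylow 2 Z.H) := inferInstance
  have hmin : (Nat.card Z.H).minFac = 2 := (Nat.minFac_eq_two_iff _).2
    (even_iff_two_dvd.1 (H5.Odd.even_card_of_involution hz hz1 hz2))
  have hP := hcyc P
  obtain ⟨τ, hτ⟩ : ∃ τ : Z.H →* P, ¬ 2 ∣ Nat.card τ.ker :=
    ⟨_, MonoidHom.not_dvd_card_ker_transferSylow P (hP.normalizer_le_centralizer hmin)⟩
  let O : Subgroup G := τ.ker.map Z.H.subtype
  have hOc : Odd (Nat.card O) := by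
    rw [Subgroup.card_map_of_injective (Subgroup.subtype_injective _), ← Nat.not_even_iff_odd,
      even_iff_two_dvd]
    exact hτ
  have hO : ∀ x ∈ Z.H, Odd (orderOf x) → x ∈ O := by
    intro x hx ho
    refine ⟨⟨x, hx⟩, ?_, rfl⟩
    obtain ⟨k, hk⟩ := IsPGroup.iff_orderOf.1 P.2 (τ ⟨x, hx⟩)
    have h1 := orderOf_map_dvd τ ⟨x, hx⟩
    rw [hk, ← Subgroup.orderOf_coe] at h1
    have h2 := Odd.of_dvd_nat ho h1
    have h5 : k = 0 := by
      by_contra h
      exact (Nat.not_even_iff_odd.2 h2) ((Nat.even_pow' h).2 even_two)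
    rwa [h5, pow_zero, orderOf_eq_one_iff] at hk
  have hOH : O ≤ Z.H := Subgroup.map_subtype_le _
  have hconj : ∀ g x : G, orderOf (g * x * g⁻¹) = orderOf x := fun g x =>
    (MulAut.conj g).orderOf_eq x
  have hn : ∀ h ∈ Z.H, ∀ x ∈ O, h * x * h⁻¹ ∈ O := fun h hh x hx =>
    hO _ (Z.H.mul_mem (Z.H.mul_mem hh (hOH hx)) (Z.H.inv_mem hh))
      (hconj h x ▸ H5.Odd.odd_orderOf_of_mem hOc hx)
  have hinv := inverted_of_free' O hs2 (fun x hx => hO _ (conj_mem_H Z hsa hsb (hOH hx))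
    (hconj s x ▸ H5.Odd.odd_orderOf_of_mem hOc hx)) (fun x hx e => by
      rcases cent_swap Z hz hz1 hz2 hsa hsb hsc (hOH hx) e with h | h
      · exact h
      · exact eq_one_of_odd O hOc hx (h ▸ hz2))
  refine ⟨Z.H ⊓ Subgroup.centralizer (O : Set G), inf_le_left, ?_,
    card_le_cent Z hz hz1 hz2 hs2 hsa hsb hsc O hn hinv, ?_⟩
  · intro h hh k hk
    have := (MonoidHom.isMulCommutative_of_isCyclic_of_ker_le_center
      (τ.comp (Subgroup.inclusion (inf_le_left : Z.H ⊓ Subgroup.centralizer (O : Set G) ≤ Z.H)))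
      (by
        intro x hx
        rw [Subgroup.mem_center_iff]
        intro g
        exact Subtype.ext (g.2.2 x ⟨_, hx, rfl⟩).symm)).is_comm.comm ⟨h, hh⟩ ⟨k, hk⟩
    exact congrArg Subtype.val this
  · rintro h hh x ⟨hx, hx'⟩
    refine ⟨Z.H.mul_mem (Z.H.mul_mem hh hx) (Z.H.inv_mem hh), fun v hv => ?_⟩
    have := hx' (h⁻¹ * v * h⁻¹⁻¹) (hn h⁻¹ (Z.H.inv_mem hh) v hv)
    calc v * (h * x * h⁻¹) = h * (h⁻¹ * v * h⁻¹⁻¹ * x) * h⁻¹ := by group
      _ = _ := by rw [this]; group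

theorem mul_self_mem_of_card_le [Finite G] {A H : Subgroup G} (hA : A ≤ H)
    (hc : Nat.card H ≤ 2 * Nat.card A) {t : G} (ht : t ∈ H) : t * t ∈ A := by
  have h1 := (A.subgroupOf H).index_mul_card
  rw [Nat.card_congr (Subgroup.subgroupOfEquivOfLe hA).toEquiv] at h1
  have h2 : (A.subgroupOf H).index ≤ 2 :=
    Nat.le_of_mul_le_mul_right (h1 ▸ hc) Nat.card_pos
  have h3 : (A.subgroupOf H).index ≠ 0 := Subgroup.FiniteIndex.index_ne_zero
  rcases (by omega : (A.subgroupOf H).index = 1 ∨ (A.subgroupOf H).index = 2) with h | h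
  · rw [Subgroup.index_eq_one] at h
    have : (⟨t * t, H.mul_mem ht ht⟩ : H) ∈ A.subgroupOf H := by rw [h]; trivial
    exact this
  · exact Subgroup.mul_self_mem_of_index_two h ⟨t, ht⟩

theorem pgl_of_odd_exp [Finite G] [Finite Ω] (hd : Nat.card Z.H = Nat.card Z.F - 1) {p f : ℕ}
    [hp : Fact p.Prime] (hp2 : p ≠ 2) (hc : Nat.card Z.F = p ^ f) (hf : Odd f) :
    Nonempty (G ≃* PG (GaloisField p f)) := by
  have hd' : Nat.card Z.F - 1 ≤ 2 * Nat.card Z.H := by omega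
  have := Z.comm_of_large hd'
  have hpos : 0 < Nat.card Z.H := Nat.card_pos
  have hK : Nat.card (GaloisField p f) = Nat.card Z.F := by rw [GaloisField.card p f hf.pos.ne', hc]
  have hel : ∀ u ∈ Z.F, u ^ p = 1 := by
    obtain ⟨r, g, hr, h1, h2⟩ := Z.elementary_of_large hd'
    have : p ∣ r ^ g := by rw [← h2, hc]; exact dvd_pow_self p hf.pos.ne'
    rwa [(Nat.prime_dvd_prime_iff_eq hp.out hr).1 (hp.out.dvd_of_dvd_pow this)]
  have hn : Odd (Nat.card Z.F) := hc ▸ (hp.out.odd_of_ne_two hp2).pow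
  obtain ⟨z, hz, hz1, hz2⟩ := exists_inv_of_even (H := Z.H) (by
    rw [hd]; exact Nat.Odd.sub_odd hn odd_one)
  obtain ⟨u0, hu, hu1⟩ := exists_ne_one_F Z (by omega)
  obtain ⟨s, hs2, hsa, hsb, hsc⟩ := exists_swap_fix Z hd hu hu1
  obtain ⟨A, hA, hAc, hAi, hAn⟩ := exists_abelian_index Z hz hz1 hz2 hs2 hsa hsb hsc (fun P => by
    have := cyclic_two_of_odd Z hp.out hp2 hel hc hf ((P : Subgroup Z.H).map Z.H.subtype)
      (Subgroup.map_subtype_le _) (P.2.map _)
    exact isCyclic_of_surjective (Subgroup.equivMapOfInjective _ _ Z.H.subtype_injective).symm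
      (MulEquiv.surjective _))
  have hirr := irred_sub Z A hA (by omega)
  obtain ⟨φ, h1, h2, h3, h4, h5, h6, -⟩ := (exists_field_conj Z.F (A : Set G)
    (fun h hh => Z.norm h (hA hh).1) (fun h hh k hk u _ => by
      calc h * (k * u * k⁻¹) * h⁻¹ = (h * k) * u * (h * k)⁻¹ := by group
        _ = _ := by rw [hAc h hh k hk]; group) hirr hu hu1).2 _ hK
  have key : ∀ t ∈ Z.H, ∃ e : GaloisField p f, ∀ x, φ (e * x) = t * φ x * t⁻¹ := by
    intro t ht
    obtain ⟨σ, e, he, hσ⟩ := exists_semilinear Z.F A hirr φ h1 h2 h3 h4 h6 (Z.norm t ht.1)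
      (hAn t ht)
    obtain ⟨c, hc⟩ := h6 _ (mul_self_mem_of_card_le hA hAi ht)
    have e1 : ∀ x, e * σ (e * σ x) = c * x := fun x => h3 (by rw [hσ, hσ, hc]; group)
    have e2 : ∀ x, σ (σ x) = x := by
      intro x
      have e3 := e1 1
      have e4 := e1 x
      rw [map_one, mul_one, mul_one] at e3
      rw [map_mul, ← e3, mul_assoc] at e4
      exact mul_left_cancel₀ ((map_ne_zero σ).2 he) (mul_left_cancel₀ he e4)
    exact ⟨e, fun x => by rw [← hσ, eq_refl_of_odd hf σ e2]⟩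
  refine pgl_of_comm Z hd (fun h hh k hk => ?_) _ hK
  obtain ⟨e, he⟩ := key h hh
  obtain ⟨e', he'⟩ := key k hk
  rcases Z.conj_free (Z.H.mul_mem (Z.H.inv_mem (Z.H.mul_mem hk hh)) (Z.H.mul_mem hh hk)) hu (by
    calc (k * h)⁻¹ * (h * k) * u0 * ((k * h)⁻¹ * (h * k))⁻¹
        = (k * h)⁻¹ * (h * (k * φ 1 * k⁻¹) * h⁻¹) * (k * h) := by rw [h5]; group
      _ = (k * h)⁻¹ * (k * (h * φ 1 * h⁻¹) * k⁻¹) * (k * h) := by
        rw [← he', ← he, ← he, ← he', mul_left_comm]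
      _ = u0 := by rw [h5]; group) with h1 | h1
  · exact (inv_mul_eq_one.1 h1).symm
  · exact absurd h1 hu1

end Cfsg.Agent.H4.ZSharp2
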