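import Cfsg.Agent.H4.ZCount

/-! Elements of order three in the two point stabiliser. -/

set_option autoImplicit false

namespace Cfsg.Agent.H4.ZThree

open MulAction Cfsg.Agent.H4.ZBasic Cfsg.Agent.H4.ZCount

variable {G Ω : Type*} [Group G] [MulAction G Ω]

/-- elements of order three with two fixed points -/
def Ord3 (Ω : Type*) [MulAction G Ω] (s : G) : Prop :=
  s ≠ 1 ∧ s ^ 3 = 1 ∧ ∃ u v : Ω, u ≠ v ∧ s • u = u ∧ s • v = v

theorem ord3_conj (g s : G) (h : Ord3 Ω s) : Ord3 Ω (g * s * g⁻¹) := by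
  obtain ⟨h1, h2, u, v, huv, hu, hv⟩ := h
  refine ⟨by simpa using h1, ?_, g • u, g • v, by simpa using huv, by simp [mul_smul, hu],
    by simp [mul_smul, hv]⟩
  rw [conj_pow, h2]; group

theorem ncard_ord3_le [Finite G] [Fintype Ω] (hZ : ZT G Ω) (h3 : 3 ≤ Fintype.card Ω) {a b : Ω}
    (hab : a ≠ b) : {s : G | Ord3 Ω s ∧ (s • a = a ∧ s • b = b)}.ncard ≤ 2 := by
  classical
  have := Fintype.ofFinite G
  have hk : ∀ s : G, Ord3 Ω s → {x : Ω | s • x = x}.ncard = 2 := by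
    rintro s ⟨h1, -, u, v, huv, hu, hv⟩
    exact ncard_fix_two hZ h1 huv hu hv
  have h1 := count_moved hZ.two (Ord3 Ω) ord3_conj 2 hk hab
  have h2 := count_fixed hZ.two (Ord3 Ω) ord3_conj 2 hk hab
  have h4 : {s : G | Ord3 Ω s ∧ s • a = b}.ncard ≤ Fintype.card Ω - 2 := by
    have : ({a, b}ᶜ : Set Ω).ncard = Fintype.card Ω - 2 := by
      rw [Set.ncard_compl, Set.ncard_pair hab, Nat.card_eq_fintype_card]
    rw [← this]
    have key : ∀ s : G, s ^ 3 = 1 → s • a = b → s • s • b = a := by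
      intro s hs hsa
      rw [← hsa, ← mul_smul, ← mul_smul, show s * s * s = s ^ 3 by simp [pow_succ], hs, one_smul]
    have hne : ∀ s : G, s ^ 3 = 1 → s • a = b → s • b ≠ a ∧ s • b ≠ b := by
      intro s hs hsa
      have := key s hs hsa
      constructor
      · intro h
        rw [h, hsa] at this
        exact hab this.symm
      · intro h
        rw [h, h] at this
        exact hab this.symm
    apply Set.ncard_le_ncard_of_injOn (fun s => s • b)
    · rintro s ⟨⟨-, hs, -⟩, hsa⟩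
      simp only [Set.mem_compl_iff, Set.mem_insert_iff, Set.mem_singleton_iff, not_or]
      exact hne s hs hsa
    · rintro s ⟨⟨-, hs, -⟩, hsa⟩ t ⟨⟨-, ht, -⟩, hta⟩ hst
      simp only at hst
      have h5 := hne s hs hsa
      refine hZ.eq_of_three hab h5.2.symm h5.1.symm (by rw [hsa, hta]) hst ?_
      rw [key s hs hsa, hst, key t ht hta]
  have hpos : 0 < Fintype.card Ω * (Fintype.card Ω - 1) * (Fintype.card Ω - 2) :=
    Nat.mul_pos (Nat.mul_pos (by omega) (by omega)) (by omega)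
  apply Nat.le_of_mul_le_mul_left _ hpos
  calc Fintype.card Ω * (Fintype.card Ω - 1) * (Fintype.card Ω - 2) *
        {s : G | Ord3 Ω s ∧ (s • a = a ∧ s • b = b)}.ncard
      = (Fintype.card Ω - 2) * (Fintype.card Ω * (Fintype.card Ω - 1) *
        {s : G | Ord3 Ω s ∧ (s • a = a ∧ s • b = b)}.ncard) := by ring
    _ = 2 * ({s : G | Ord3 Ω s}.ncard * (Fintype.card Ω - 2)) := by rw [← h2]; ring
    _ = 2 * (Fintype.card Ω * (Fintype.card Ω - 1) * {s : G | Ord3 Ω s ∧ s • a = b}.ncard) := by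
      rw [h1]
    _ ≤ 2 * (Fintype.card Ω * (Fintype.card Ω - 1) * (Fintype.card Ω - 2)) := by gcongr
    _ = _ := by ring

/-- two elements of order three fixing `a` and `b` generate the same subgroup -/
theorem eq_or_eq_sq [Finite G] [Fintype Ω] (hZ : ZT G Ω) (h3 : 3 ≤ Fintype.card Ω) {a b : Ω}
    (hab : a ≠ b) {x y : G} (hx1 : x ≠ 1) (hx : x ^ 3 = 1) (hxa : x • a = a) (hxb : x • b = b)
    (hy1 : y ≠ 1) (hy : y ^ 3 = 1) (hya : y • a = a) (hyb : y • b = b) : y = x ∨ y = x ^ 2 := by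
  by_contra h
  push Not at h
  have hle := ncard_ord3_le hZ h3 hab
  have hx2 : x ^ 2 ≠ 1 := by
    intro h2
    rw [pow_succ, h2, one_mul] at hx
    exact hx1 hx
  have hxx : x ≠ x ^ 2 := by
    intro h2
    rw [sq] at h2
    exact hx1 (by simpa using h2)
  have hsub : ({y, x, x ^ 2} : Set G) ⊆ {s : G | Ord3 Ω s ∧ (s • a = a ∧ s • b = b)} := by
    have e1 : x ^ 2 • a = a := by rw [sq, mul_smul, hxa, hxa]
    have e2 : x ^ 2 • b = b := by rw [sq, mul_smul, hxb, hxb]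
    rintro s (rfl | rfl | rfl)
    · exact ⟨⟨hy1, hy, a, b, hab, hya, hyb⟩, hya, hyb⟩
    · exact ⟨⟨hx1, hx, a, b, hab, hxa, hxb⟩, hxa, hxb⟩
    · exact ⟨⟨hx2, by rw [← pow_mul, mul_comm, pow_mul, hx, one_pow], a, b, hab, e1, e2⟩, e1, e2⟩
  have := Set.ncard_le_ncard hsub (Set.toFinite _)
  rw [Set.ncard_eq_three.2 ⟨y, x, x ^ 2, h.1, h.2, hxx, rfl⟩] at this
  omega

theorem exists_gen_of_card_three {A : Subgroup G} (hA : Nat.card A = 3) :
    ∃ x ∈ A, x ≠ 1 ∧ x ^ 3 = 1 := by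
  have : Finite A := Nat.finite_of_card_ne_zero (by omega)
  have : Nontrivial A := Finite.one_lt_card_iff_nontrivial.1 (by omega)
  obtain ⟨x, hx⟩ := exists_ne (1 : A)
  refine ⟨x, x.2, fun h => hx (Subtype.ext h), ?_⟩
  have := pow_card_eq_one' (x := x)
  rw [hA] at this
  exact congrArg Subtype.val this

theorem subgroup_three_unique [Finite G] [Fintype Ω] (hZ : ZT G Ω) (h3 : 3 ≤ Fintype.card Ω)
    {a b : Ω} (hab : a ≠ b) (A B : Subgroup G) (hA : A ≤ stabilizer G a ⊓ stabilizer G b)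
    (hB : B ≤ stabilizer G a ⊓ stabilizer G b) (hA3 : Nat.card A = 3) (hB3 : Nat.card B = 3) :
    A = B := by
  obtain ⟨x, hxA, hx1, hx⟩ := exists_gen_of_card_three hA3
  symm
  apply Subgroup.eq_of_le_of_card_ge _ (by omega)
  intro y hy
  by_cases hy1 : y = 1
  · rw [hy1]; exact A.one_mem
  have hy3 : y ^ 3 = 1 := by
    have := pow_card_eq_one' (x := (⟨y, hy⟩ : B))
    rw [hB3] at this
    exact congrArg Subtype.val this
  rcases eq_or_eq_sq hZ h3 hab hx1 hx (hA hxA).1 (hA hxA).2 hy1 hy3 (hB hy).1 (hB hy).2 with h | h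
  · rw [h]; exact hxA
  · rw [h]; exact A.pow_mem hxA 2

end Cfsg.Agent.H4.ZThree
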