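import Cfsg.Agent.H4.ZSharp2
import Cfsg.Agent.H4.ZThree
import Cfsg.Agent.H4.FC

/-! Sharply triply transitive groups of even degree: the subgroup of index two. -/

set_option autoImplicit false

namespace Cfsg.Agent.H4.ZSharp3

open MulAction Cfsg.Agent.H4.ZBasic Cfsg.Agent.H4.ZCount Cfsg.Agent.H4.ZKer Cfsg.Agent.H4.Util
  Cfsg.Agent.H4.ZIdent Cfsg.Agent.H4.ZEven Cfsg.Agent.H4.ZMS Cfsg.Agent.H4.ZOdd
  Cfsg.Agent.H4.ZSharp Cfsg.Agent.H4.ZSharp2 Cfsg.Agent.H5.Core

variable {G Ω : Type*} [Group G] [MulAction G Ω] (Z : ZK G Ω)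

open scoped IsMulCommutative in
theorem exists_index_two [Finite G] [Finite Ω] (hd : Nat.card Z.H = Nat.card Z.F - 1)
    (hn : Odd (Nat.card Z.F)) : ∃ N : Subgroup Z.H, N.index = 2 := by
  by_contra hno
  push Not at hno
  have := Fintype.ofFinite Ω
  have hd' : Nat.card Z.F - 1 ≤ 2 * Nat.card Z.H := by omega
  have := Z.comm_of_large hd'
  have hpos : 0 < Nat.card Z.H := Nat.card_pos
  have heven : Even (Nat.card Z.H) := by rw [hd]; exact Nat.Odd.sub_odd hn odd_one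
  obtain ⟨z, hz, hz1, hz2⟩ := exists_inv_of_even heven
  obtain ⟨u0, hu, hu1⟩ := exists_ne_one_F Z (by omega)
  obtain ⟨s, hs2, hsa, hsb, hsc⟩ := exists_swap_fix Z hd hu hu1
  obtain ⟨ι, hι, hι'⟩ := exists_isSR Z.F Z.H (fun g hg => Z.norm g hg.1)
    (fun g hg u hu => Z.conj_free hg hu)
  have : Nontrivial Z.F := Finite.one_lt_card_iff_nontrivial.1 (by omega)
  have hO : Opi {2}ᶜ Z.H ≤ Subgroup.center Z.H := by
    let O : Subgroup G := (Opi {2}ᶜ Z.H).map Z.H.subtype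
    have hOc : Odd (Nat.card O) := by
      rw [Subgroup.card_map_of_injective (Subgroup.subtype_injective _), ← Nat.coprime_two_right]
      exact isPi_compl_iff.1 isPi_Opi
    have hOH : O ≤ Z.H := Subgroup.map_subtype_le _
    have hn : ∀ h ∈ Z.H, ∀ x ∈ O, h * x * h⁻¹ ∈ O := by
      rintro h hh _ ⟨x, hx, rfl⟩
      exact ⟨_, Opi_normal.conj_mem x hx ⟨h, hh⟩, rfl⟩
    have hsN : s ∈ Subgroup.normalizer (Z.H : Set G) :=
      Subgroup.mem_normalizer_fintype (fun x hx => conj_mem_H Z hsa hsb hx)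
    have hinv := inverted_of_free' O hs2 (by
      rintro _ ⟨x, hx, rfl⟩
      rw [← (Opi_characteristic (π := {2}ᶜ) (G := Z.H)).fixed
        (Z.H.normalizerMonoidHom ⟨s, hsN⟩)] at hx
      exact ⟨_, hx, rfl⟩) (fun x hx e => by
        rcases cent_swap Z hz hz1 hz2 hsa hsb hsc (hOH hx) e with h | h
        · exact h
        · exact eq_one_of_odd O hOc hx (h ▸ hz2))
    have h1 := card_le_cent Z hz hz1 hz2 hs2 hsa hsb hsc O hn hinv
    have hA : Z.H ⊓ Subgroup.centralizer (O : Set G) ≤ Z.H := inf_le_left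
    have h2 := ((Z.H ⊓ Subgroup.centralizer (O : Set G)).subgroupOf Z.H).index_mul_card
    rw [Nat.card_congr (Subgroup.subgroupOfEquivOfLe hA).toEquiv] at h2
    have h3 := Nat.le_of_mul_le_mul_right (h2 ▸ h1) Nat.card_pos
    have h4 : ((Z.H ⊓ Subgroup.centralizer (O : Set G)).subgroupOf Z.H).index ≠ 0 :=
      Subgroup.FiniteIndex.index_ne_zero
    have h5 := hno ((Z.H ⊓ Subgroup.centralizer (O : Set G)).subgroupOf Z.H)
    have h6 := Subgroup.index_eq_one.1
      (show ((Z.H ⊓ Subgroup.centralizer (O : Set G)).subgroupOf Z.H).index = 1 by omega)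
    intro x hx
    rw [Subgroup.mem_center_iff]
    intro g
    have : g ∈ (Z.H ⊓ Subgroup.centralizer (O : Set G)).subgroupOf Z.H := by rw [h6]; trivial
    exact Subtype.ext (this.2 x ⟨x, hx, rfl⟩).symm
  have h3 : ∀ g : Z.H, g ^ 3 = 1 → g ∈ Subgroup.center Z.H := by
    intro g hg
    by_cases hg1 : g = 1
    · rw [hg1]; exact Subgroup.one_mem _
    have hgo : orderOf g = 3 := orderOf_eq_prime hg hg1
    refine hO (le_Opi (N := Subgroup.zpowers g) ⟨?_⟩ ?_ (Subgroup.mem_zpowers g))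
    · rintro _ ⟨k, rfl⟩ h
      simp only
      rw [← conj_zpow]
      refine zpow_mem ?_ k
      have hF := Z.card_F
      rcases ZThree.eq_or_eq_sq Z.zt (by rw [← Nat.card_eq_fintype_card]; omega) Z.hab
        (x := g) (y := (h * g * h⁻¹ : Z.H)) (fun e => hg1 (Subtype.ext e))
        (congrArg Subtype.val hg) g.2.1 g.2.2 (fun e => hg1 (by simpa using e))
        (by rw [← Subgroup.coe_pow, conj_pow, hg]; simp) (h * g * h⁻¹).2.1 (h * g * h⁻¹).2.2
        with e | e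
      · rw [Subtype.ext e]; exact Subgroup.mem_zpowers g
      · rw [show h * g * h⁻¹ = g ^ 2 from Subtype.ext e]
        exact Subgroup.pow_mem _ (Subgroup.mem_zpowers g) 2
    · rw [isPi_compl_iff, Nat.card_zpowers, hgo]
      norm_num
  obtain ⟨hne, h9, a, b, ha, hb, ha2, hb2, hab, hidx⟩ := FC.main hι hno (even_iff_two_dvd.1 heven) hO h3
  obtain ⟨A, hA1, hA2, hA3⟩ := FC.exists_abelian ι (v := Additive.ofMul ⟨u0, hu⟩)
    (fun e => hu1 (congrArg Subtype.val (congrArg Additive.toMul e))) (by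
      intro g h e
      have e1 := congrArg (fun x : Additive Z.F => ((x.toMul : Z.F) : G)) e
      simp only [hι', toMul_ofMul] at e1
      rcases Z.conj_free (Z.H.mul_mem (Z.H.inv_mem h.2) g.2) hu (by
        calc (h : G)⁻¹ * g * u0 * ((h : G)⁻¹ * g)⁻¹ = (h : G)⁻¹ * (g * u0 * (g : G)⁻¹) * h := by group
          _ = u0 := by rw [e1]; group) with h1 | h1
      · exact Subtype.ext (inv_mul_eq_one.1 h1).symm
      · exact absurd h1 hu1) (by
      intro w hw
      obtain ⟨h, hh, e⟩ := conj_trans Z hd hu hu1 w.toMul.2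
        (fun e => hw (Additive.toMul.injective (Subtype.ext e)))
      exact ⟨⟨h, hh⟩, Additive.toMul.injective (Subtype.ext ((hι' _ _).trans e))⟩)
  have h5 := A.index_mul_card
  refine FC.arith ha hb ha2 hb2 hab ((Subgroup.index_dvd_of_le hA1).trans hidx) ?_ (h5 ▸ h9) ?_
    Nat.card_pos
  · intro h
    rw [Subgroup.index_eq_one] at h
    apply hne
    rw [eq_top_iff]
    intro g _
    exact Subgroup.mem_center_iff.2 fun k => hA2 k (h ▸ trivial) g (h ▸ trivial)
  · rw [h5, hd, Nat.sub_add_cancel (by omega)]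
    exact hA3

theorem exists_invariant_index_two [Finite G] [Finite Ω] (hd : Nat.card Z.H = Nat.card Z.F - 1)
    (hn : Odd (Nat.card Z.F)) {s : G} (hs2 : s * s = 1) (hsa : s • Z.a = Z.b)
    (hsb : s • Z.b = Z.a) : ∃ N : Subgroup G, N ≤ Z.H ∧ (N.subgroupOf Z.H).Normal ∧
      N.relIndex Z.H = 2 ∧ ∀ n ∈ N, s * n * s⁻¹ ∈ N := by
  obtain ⟨N, hN⟩ := exists_index_two Z hd hn
  let σ : Z.H →* Z.H := MonoidHom.mk' (fun h => ⟨s * h * s⁻¹, conj_mem_H Z hsa hsb h.2⟩)
    (fun g h => Subtype.ext (by simp))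
  have hσ : ∀ h, σ (σ h) = h := fun h => Subtype.ext (by
    change s * (s * h * s⁻¹) * s⁻¹ = h
    calc s * (s * h * s⁻¹) * s⁻¹ = (s * s) * h * (s * s)⁻¹ := by group
      _ = h := by rw [hs2]; group)
  suffices h : ∃ M : Subgroup Z.H, M.index = 2 ∧ ∀ n ∈ M, σ n ∈ M by
    obtain ⟨M, h1, h2⟩ := h
    have e : (M.map Z.H.subtype).subgroupOf Z.H = M :=
      Subgroup.comap_map_eq_self_of_injective Z.H.subtype_injective M
    refine ⟨M.map Z.H.subtype, Subgroup.map_subtype_le _, ?_, ?_, ?_⟩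
    · rw [e]; exact Subgroup.normal_of_index_eq_two h1
    · rw [Subgroup.relIndex, e, h1]
    · rintro _ ⟨n, hn, rfl⟩
      exact ⟨_, h2 n hn, rfl⟩
  by_cases h : ∀ n ∈ N, σ n ∈ N
  · exact ⟨N, hN, h⟩
  push Not at h
  obtain ⟨n, hn1, hn2⟩ := h
  have hm := fun a b => Subgroup.mul_mem_iff_of_index_two hN (a := a) (b := b)
  let M : Subgroup Z.H :=
    { carrier := {h | h ∈ N ↔ σ h ∈ N}
      one_mem' := by simp
      mul_mem' := fun {a b} ha hb => by
        simp only [Set.mem_ofPred_eq, map_mul, hm] at ha hb ⊢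
        tauto
      inv_mem' := fun {a} ha => by simpa using ha }
  refine ⟨M, ?_, fun h hh => ?_⟩
  · rw [Subgroup.index_eq_two_iff]
    refine ⟨n, fun b => ?_⟩
    change Xor (b * n ∈ N ↔ σ (b * n) ∈ N) (b ∈ N ↔ σ b ∈ N)
    simp only [map_mul, hm, Xor]
    tauto
  · change σ h ∈ N ↔ σ (σ h) ∈ N
    rw [hσ]
    exact Iff.symm hh

end Cfsg.Agent.H4.ZSharp3
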